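import Cfsg.Agent.K7.LocB

/-!
# Simple groups of order `p * 3 ^ a * 2 ^ b`: assembling the non-Sylow case
-/

set_option autoImplicit false

namespace Cfsg.Lib.K7

open Cfsg Subgroup Cfsg.Lib.Trans Cfsg.Lib.Gold
open Cfsg.Lib.P8 (L32 V3 O2 Om Jt Phi EA SR4 Ch E9 Pj Ty Sec SecOK Mx Crd)
open Cfsg.Lib.K35 (PSL Alt A3 NC)

universe u

/-- The natural module. -/
def StN3 : Prop := ∀ (G : Type u) [Group G] [Finite G] (M S : Subgroup G) (g : G), Gl G 7 →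
  Mx M (O2 M) → Ty7 M → IsSylowIn 2 S M → Nat.card (Om (O2 M)) = 8 → ¬ O2 M ≤ Om (O2 M) →
    g ∈ Ns S → g * g ∈ S → g ∈ M

theorem uf (h1 : StU1) (h2 : StU2) (h3 : StU3) (h4 : StU4) : UF :=
  ⟨h1.1, h1.2.1, h1.2.2.2, h2.1, h3, h2.2, h4.1, h4.2⟩

/-- The type `L₃(2)`. -/
theorem bL (hCo : StCoB.{u}) (hNS : StNS.{u}) (hV6 : StV6.{u}) (hB16 : StB16.{u}) (hCP : StCP.{u})
    (hSh6 : StSh6.{u}) (hN3 : StN3.{u}) {G : Type u} [Group G] [Finite G] {M S₀ : Subgroup G} {g : G}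
    (nb : NB 7 M S₀ g) (no : NO 7 M S₀ g) (h7 : Ty7 M) : False := by
  obtain ⟨W, π, c, z, nl⟩ := hCo G M S₀ g nb no h7
  have ns := hNS G M S₀ W g π c z nl
  by_cases e : Om (O2 M) = W
  · exact nb.out (hN3 G M S₀ g nb.gl nb.mx h7 nb.syl (e ▸ ns.cW) (e ▸ ns.neT) nb.nor nb.sq)
  · obtain ⟨F, v⟩ := hV6 G M S₀ W g π c z nl ns e
    have l := hB16 G M S₀ W F g π c z nl ns v
    obtain ⟨h, m', cp⟩ := hCP G 7 M S₀ g nb no l
    exact hSh6 G M S₀ W F g π c z h m' nl ns v l cp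

/-- The type `G₂(2)`. -/
theorem bG (hU : UF) (hPG : StPG.{u}) (hGF : StGF.{u}) (hGA : StGA.{u}) (hGB : StGB.{u})
    (hGC : StGC.{u}) (hGD : StGD.{u}) (hGE : StGE.{u}) {G : Type u} [Group G] [Finite G]
    {M S₀ : Subgroup G} {g : G} {X : Type u} [Group X] [Finite X] {π : G → X} {L : Subgroup X}
    (nb : NB 7 M S₀ g) (no : NO 7 M S₀ g) (tx : TX M π L) (hL : U33 L) : False := by
  obtain ⟨π', pg⟩ := hPG G M S₀ g X π L no tx hL
  have fa := hGF G M _ π' pg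
  have ab := hGA G M _ π' hU pg fa
  obtain ⟨ea, c⟩ := hGB G M S₀ g π' hU nb no pg fa ab
  obtain ⟨x, xM, ox, xN, c1, c2, ne⟩ := hGC G M S₀ g π' hU nb no pg ea c
  obtain ⟨r, gx⟩ := hGD G M _ π' pg fa ea no.nT x xM ox c1
  have x'M : g⁻¹ * x * g ∈ M := by
    rw [← no.nT]
    rw [mem_normalizer_iff] at xN ⊢
    intro n
    have := xN (g * n * g⁻¹)
    rw [mem_cj, mem_cj] at this
    simpa [mul_assoc] using this
  have ox' : orderOf (g⁻¹ * x * g) = 3 := by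
    have := orderOf_injective (MulAut.conj g⁻¹).toMonoidHom (MulAut.conj g⁻¹).injective x
    simpa [ox] using this
  have c3 : Nat.card ↥(O2 M ⊓ C1 (g⁻¹ * x * g)) = 4 := by
    rw [← c2, ← card_cj g]
    congr 2
    ext a
    simp only [mem_cj, mem_inf, C1, mem_centralizer_singleton_iff]
    refine and_congr_right fun _ => ⟨fun h => ?_, fun h => ?_⟩
    · have := congrArg (fun t => g * t * g⁻¹) h
      simpa [mul_assoc] using this
    · have := congrArg (fun t => g⁻¹ * t * g) h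
      simpa [mul_assoc] using this
  obtain ⟨r', gx'⟩ := hGD G M _ π' pg fa ea no.nT _ x'M ox' c3
  refine ne (hGE G nb.gl M _ g x r r' gx gx' ?_)
  intro a ha
  rw [mem_cj] at ha
  have h1 := no.leT ha
  have h2 := (mem_normalizer_iff.1 nb.nor _).1 h1
  exact nb.syl.le (by simpa [mul_assoc] using h2)

theorem bg (hTyp : StTyp.{u}) (hB0 : StB0.{u}) (hNO : StNO.{u}) (hN13 : StN13.{u}) (hN17 : StN17.{u})
    (hN7 : StN7.{u}) (hN8a : StN8a.{u}) (hN8b : StN8b.{u})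
    (hU : UF) (hPG : StPG.{u}) (hGF : StGF.{u}) (hGA : StGA.{u}) (hGB : StGB.{u})
    (hGC : StGC.{u}) (hGD : StGD.{u}) (hGE : StGE.{u})
    (hCo : StCoB.{u}) (hNS : StNS.{u}) (hV6 : StV6.{u}) (hB16 : StB16.{u}) (hCP : StCP.{u})
    (hSh6 : StSh6.{u}) (hN3 : StN3.{u}) : StB.{u} := by
  intro G _ _ p gl M S₀ mx ns syl nc
  by_contra hn
  obtain ⟨g, nb⟩ := hB0 G p gl M S₀ mx ns syl nc hn
  have ty := hTyp G p gl M mx.ch mx.ne ns
  have no := hNO G p M S₀ g nb ty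
  obtain ⟨X, _, _, π, L, t, n, c, s⟩ := ty
  have tx : TX M π L := ⟨t, n, c⟩
  rcases s with ⟨rfl, h | h | h⟩ | ⟨rfl, h⟩ | ⟨rfl, h⟩
  · exact bL hCo hNS hV6 hB16 hCP hSh6 hN3 nb no (hN7 G M S₀ g X π L nb no tx h)
  · exact hN8b G M S₀ g X π L nb no tx h (hN8a G M S₀ g X π L nb no tx h)
  · exact bG hU hPG hGF hGA hGB hGC hGD hGE nb no tx h
  · exact hN13 G M S₀ g X π L nb no tx h
  · exact hN17 G M S₀ g X π L nb no tx h

end Cfsg.Lib.K7
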