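import Cfsg.Agent.K35.Loc
import Cfsg.Prelude.Def_Quasithin

/-!
# Simple groups of order `p * 3 ^ a * 2 ^ b`: definitions and global steps
-/

set_option autoImplicit false

namespace Cfsg.Lib.K7

open Cfsg Subgroup Cfsg.Lib.Trans Cfsg.Lib.Gold
open Cfsg.Lib.P8 (L32 V3 O2 Om Jt Phi EA SR4 Ch E9 Pj Ty Sec SecOK Mx Crd)
open Cfsg.Lib.K35 (PSL Alt A3 NC)
open scoped commutatorElement

universe u

/-- The conclusion. -/
def Concl (G : Type u) [Group G] : Prop :=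
  Nonempty (G ≃* alternatingGroup (Fin 5)) ∨ Nonempty (G ≃* alternatingGroup (Fin 6)) ∨
    (∃ (F : Type) (_ : Field F) (_ : Fintype F), Fintype.card F = 3 ∧ Nonempty (G ≃* Cfsg.PSp 2 F)) ∨
    (∃ (F : Type) (_ : Field F) (_ : Fintype F),
      (Fintype.card F = 7 ∨ Fintype.card F = 8 ∨ Fintype.card F = 17) ∧
        Nonempty (G ≃* Matrix.ProjectiveSpecialLinearGroup (Fin 2) F)) ∨
    (∃ (F : Type) (_ : Field F) (_ : Fintype F), Fintype.card F = 9 ∧ Nonempty (G ≃* Cfsg.PSU 3 F 3)) ∨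
    (∃ (F : Type) (_ : Field F) (_ : Fintype F), Fintype.card F = 3 ∧
      Nonempty (G ≃* Matrix.ProjectiveSpecialLinearGroup (Fin 3) F))

/-- The order condition. -/
def Ord (G : Type u) [Group G] (p : ℕ) : Prop := ∃ a b : ℕ, Nat.card G = p * 3 ^ a * 2 ^ b

/-- What is known when the group belongs to one of the infinite families. -/
structure Fam (G : Type u) [Group G] : Prop where
  l2 : ∀ (F : Type) [Field F] [Fintype F], Nonempty (G ≃* PSL 2 F) → Concl G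
  l3 : ∀ (F : Type) [Field F] [Fintype F], Nonempty (G ≃* PSL 3 F) → Concl G
  u3 : ∀ (F : Type) [Field F] [Fintype F] (r : ℕ), Fintype.card F = r ^ 2 →
    Nonempty (G ≃* PSU 3 F r) → Concl G
  s4 : ∀ (F : Type) [Field F] [Fintype F], Nonempty (G ≃* PSp 2 F) → False
  sz : ¬ Lie.IsoSuzuki G
  sz' : ¬ IsSuzuki G
  alt : ∀ n : ℕ, 5 ≤ n → Nonempty (G ≃* Alt n) → False

/-- The proper non-abelian simple sections are on the list. -/
def Sc (G : Type u) [Group G] : Prop :=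
  ∀ (H : Subgroup G) (N : Subgroup H) [N.Normal], H ≠ ⊤ → IsSimpleGroup (H ⧸ N) →
    ¬ IsMulCommutative (H ⧸ N) → Concl (H ⧸ N)

/-- The automizer order of the cyclic group generated by `y`, times `|C(y) : ⟨y⟩|`. -/
noncomputable def ee {G : Type u} [Group G] (y : G) : ℕ := (zpowers y).relIndex (Ns (zpowers y))

/-- The global properties of a minimal counterexample. -/
structure Gl (G : Type u) [Group G] (p : ℕ) : Prop where
  sim : IsSimpleGroup G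
  pp : p.Prime
  p7 : 7 ≤ p
  ord : Ord G p
  cp : ∀ y : G, orderOf y = p → C1 y = zpowers y
  c2 : IsCharacteristicTwoType G
  sc : Sc G
  kp : IsKProper G
  e2 : ∀ y : G, orderOf y = p → 2 < ee y
  dg : ∀ (S : Subgroup G) (y : G), IsSylowIn 2 S ⊤ → orderOf y = p →
    (Nat.card S : ℤ) ≡ 1 [ZMOD p] ∨ (Nat.card S : ℤ) ≡ -1 [ZMOD p] ∨
      (Nat.card S : ℤ) ≡ ee y [ZMOD p] ∨ (Nat.card S : ℤ) ≡ -(ee y : ℤ) [ZMOD p]
  gct : ∀ S M : Subgroup G, IsSylowIn 2 S ⊤ → M ≠ ⊤ →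
    ∃ C : Subgroup G, C ≤ S ∧ C ≠ ⊥ ∧ Ns S ≤ Ns C ∧ ¬ Ns C ≤ M
  n3 : ∀ R : Subgroup G, IsSylowIn 3 R ⊤ → (∀ X : Subgroup G, IsPGroup 2 X → R ≤ Ns X → X = ⊥) →
    ∀ (T : Subgroup G) (a b : G), IsPGroup 2 T → T ≠ ⊥ → a ∈ Ns T → b ∈ Ns T → E9 a b → PRankLE 3 2 G
  n4 : ¬ SR4 G
  ns : ∃ N : Subgroup G, IsTwoLocal N ∧ ¬ Group.IsSolvable N

/-- `X ≅ L₂(q)`. -/
def L2q (q : ℕ) (X : Type*) [Group X] : Prop :=
  ∃ (F : Type) (_ : Field F) (_ : Fintype F), Fintype.card F = q ∧ Nonempty (X ≃* PSL 2 F)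

/-- `X ≅ U₃(3)`. -/
def U33 (X : Type*) [Group X] : Prop :=
  ∃ (F : Type) (_ : Field F) (_ : Fintype F), Fintype.card F = 9 ∧ Nonempty (X ≃* PSU 3 F 3)

/-- `X ≅ L₃(3)`. -/
def L33 (X : Type*) [Group X] : Prop :=
  ∃ (F : Type) (_ : Field F) (_ : Fintype F), Fintype.card F = 3 ∧ Nonempty (X ≃* PSL 3 F)

/-- The possible socles. -/
def Soc (p : ℕ) (L : Type*) [Group L] : Prop :=
  (p = 7 ∧ (L2q 7 L ∨ L2q 8 L ∨ U33 L)) ∨ (p = 13 ∧ L33 L) ∨ (p = 17 ∧ L2q 17 L)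

section
variable {G : Type u} [Group G]

/-- The types of non-solvable subgroups of characteristic 2. -/
def Typ (p : ℕ) (H : Subgroup G) : Prop :=
  ∃ (X : Type u) (_ : Group X) (_ : Finite X) (π : G → X) (L : Subgroup X), Ty H (O2 H) π ∧ L.Normal ∧
    Cs L = ⊥ ∧ Soc p L

/-- `H / O₂(H) ≅ L₂(q)`. -/
def TyL (q : ℕ) (H : Subgroup G) : Prop :=
  ∃ (X : Type u) (_ : Group X) (_ : Finite X) (π : G → X), Ty H (O2 H) π ∧ L2q q X

/-- `H / O₂(H) ≅ L₃(2)`. -/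
def Ty7 (H : Subgroup G) : Prop := ∃ π : G → L32, Ty H (O2 H) π

/-- The subgroups of characteristic 2 with non-trivial 2-core have 3-rank at most two. -/
def R3 (G : Type u) [Group G] : Prop :=
  ∀ (T : Subgroup G) (a b c : G), IsPGroup 2 T → T ≠ ⊥ → a ∈ Ns T → b ∈ Ns T → c ∈ Ns T → E9 a b →
    c ^ 3 = 1 → a * c = c * a → b * c = c * b → c ∈ closure ({a, b} : Set G)

end

/-! ### Global steps -/

def StFam : Prop := ∀ (G : Type u) [Group G] [Finite G] [IsSimpleGroup G] (p : ℕ), p.Prime → 7 ≤ p →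
  ¬ IsMulCommutative G → Ord G p → Fam G

def StDg : Prop := ∀ (G : Type u) [Group G] [Finite G] [IsSimpleGroup G] (p : ℕ), p.Prime → 7 ≤ p →
  ¬ IsMulCommutative G → Ord G p → IsCharacteristicTwoType G →
  ∀ (S : Subgroup G) (y : G), IsSylowIn 2 S ⊤ → orderOf y = p →
    (Nat.card S : ℤ) ≡ 1 [ZMOD p] ∨ (Nat.card S : ℤ) ≡ -1 [ZMOD p] ∨
      (Nat.card S : ℤ) ≡ ee y [ZMOD p] ∨ (Nat.card S : ℤ) ≡ -(ee y : ℤ) [ZMOD p]

def StKp : Prop := ∀ (G : Type u) [Group G] [Finite G], Sc G → IsKProper G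

def StGl : Prop := ∀ (G : Type u) [Group G] [Finite G] [IsSimpleGroup G] (p : ℕ), p.Prime → 7 ≤ p →
  ¬ IsMulCommutative G → Ord G p → Fam G → Sc G → ¬ Concl G → Gl G p

/-- The case `p = 5`. -/
def StP5 : Prop := ∀ (G : Type u) [Group G] [Finite G] [IsSimpleGroup G], ¬ IsMulCommutative G →
  Ord G 5 → Concl G

def StNo : Prop := ∀ (G : Type u) [Group G] [Finite G] (p : ℕ), Gl G p → False

def StAll : Prop := ∀ (G : Type u) [Group G] [Finite G] [IsSimpleGroup G], ¬ IsMulCommutative G →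
  ∀ p : ℕ, p.Prime → Ord G p → Concl G

def StTyp : Prop := ∀ (G : Type u) [Group G] [Finite G] (p : ℕ), Gl G p → ∀ H : Subgroup G, Ch H →
  O2 H ≠ ⊥ → ¬ Group.IsSolvable H → Typ p H

def StNC : Prop := ∀ (G : Type u) [Group G] [Finite G] (p : ℕ), Gl G p → ∃ M S₀ : Subgroup G,
  Mx M (O2 M) ∧ ¬ Group.IsSolvable M ∧ IsSylowIn 2 S₀ M ∧ (IsSylowIn 2 S₀ ⊤ ∨ NC S₀)

/-- No Sylow 2-subgroup of `G` in `M`. -/
def StB : Prop := ∀ (G : Type u) [Group G] [Finite G] (p : ℕ), Gl G p → ∀ M S₀ : Subgroup G,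
  Mx M (O2 M) → ¬ Group.IsSolvable M → IsSylowIn 2 S₀ M → NC S₀ → IsSylowIn 2 S₀ ⊤

/-! ### A Sylow 2-subgroup of `G` in `M` -/

def StA3 : Prop := ∀ (G : Type u) [Group G] [Finite G] (p : ℕ), Gl G p → ∀ M S : Subgroup G, M ≠ ⊤ →
  S ≤ M → IsSylowIn 2 S ⊤ → p ∣ Nat.card M → A3 M ∧ R3 G ∧ ∀ a ∈ M, ∀ b ∈ M, ¬ E9 a b

/-- The types that contain a Sylow 2-subgroup of `G`. -/
def StTS : Prop := ∀ (G : Type u) [Group G] [Finite G] (p : ℕ), Gl G p → ∀ H S : Subgroup G, Typ p H →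
  S ≤ H → IsSylowIn 2 S ⊤ → (p = 7 ∧ (Ty7 H ∨ TyL 8 H)) ∨ (p = 17 ∧ TyL 17 H)

def StL8 : Prop := ∀ (G : Type u) [Group G] [Finite G], Gl G 7 → ∀ H S : Subgroup G, TyL 8 H →
  S ≤ H → IsSylowIn 2 S ⊤ → False

def StL17 : Prop := ∀ (G : Type u) [Group G] [Finite G], Gl G 17 → ∀ M S : Subgroup G, Mx M (O2 M) →
  TyL 17 M → S ≤ M → IsSylowIn 2 S ⊤ → False

def StL7 : Prop := ∀ (G : Type u) [Group G] [Finite G], Gl G 7 → ∀ M S : Subgroup G, Mx M (O2 M) →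
  Ty7 M → S ≤ M → IsSylowIn 2 S ⊤ → False

theorem Concl_eq_1' : type_of% @Concl.eq_1 := @Concl.eq_1
theorem Ord_eq_1' : type_of% @Ord.eq_1 := @Ord.eq_1
theorem ee_eq_1' : type_of% @ee.eq_1 := @ee.eq_1
theorem Soc_eq_1' : type_of% @Soc.eq_1 := @Soc.eq_1

end Cfsg.Lib.K7
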