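import Cfsg.Agent.K7.Defs

/-!
# Groups whose proper simple sections are on the list are K-proper
-/

set_option autoImplicit false

namespace Cfsg.Lib.K7

open Cfsg Subgroup

universe u

namespace Kp

theorem known {X Y : Type u} [Group X] [Group Y] (e : X ≃* Y) (h : Concl Y) : IsKnownSimple' X := by
  rcases h with ⟨⟨f⟩⟩ | ⟨⟨f⟩⟩ | ⟨F, _, _, c, ⟨f⟩⟩ | ⟨F, _, _, c, ⟨f⟩⟩ | ⟨F, _, _, c, ⟨f⟩⟩ |
    ⟨F, _, _, c, ⟨f⟩⟩
  · exact Or.inr (Or.inl ⟨5, le_rfl, ⟨e.trans f⟩⟩)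
  · exact Or.inr (Or.inl ⟨6, by omega, ⟨e.trans f⟩⟩)
  · exact Or.inr (Or.inr (Or.inr (Or.inl ⟨F, _, _, 2, le_rfl, fun _ => c.ge, ⟨e.trans f⟩⟩)))
  · exact Or.inr (Or.inr (Or.inl ⟨F, _, _, 2, le_rfl, fun _ => by omega, ⟨e.trans f⟩⟩))
  · exact Or.inr (Or.inr (Or.inr (Or.inr (Or.inl ⟨F, _, _, 3, 3, c, le_rfl, by omega, ⟨e.trans f⟩⟩))))
  · exact Or.inr (Or.inr (Or.inl ⟨F, _, ‹_›, 3, by omega, fun h => absurd h (by decide), ⟨e.trans f⟩⟩))

end Kp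

theorem kp : StKp.{u} := by
  intro G _ _ sc H hH K N _ hs hc
  let e : K ≃* K.map H.subtype := K.equivMapOfInjective H.subtype H.subtype_injective
  have : (N.map (e : K →* K.map H.subtype)).Normal := Subgroup.Normal.map inferInstance _ e.surjective
  let f := QuotientGroup.congr N (N.map (e : K →* K.map H.subtype)) e rfl
  refine Kp.known f (sc _ _ (fun h => hH (eq_top_iff.2 (h.ge.trans (map_subtype_le K))))
    f.symm.isSimpleGroup fun h => hc ⟨⟨fun a b => f.injective ?_⟩⟩)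
  rw [map_mul, map_mul, h.is_comm.comm]

end Cfsg.Lib.K7
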