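import Cfsg.Agent.K7.Defs

/-! # Involutions of `L₂(17)` -/

set_option autoImplicit false

namespace Cfsg.Lib.K7.L17

open Cfsg Subgroup Matrix
open Cfsg.Lib.K35 (PSL)
open scoped MatrixGroups

/-- The facts about an involution. -/
structure PP {X : Type*} [Group X] (a : X) : Prop where
  inv : ∃ r : X, orderOf r = 17 ∧ a * r * a⁻¹ = r⁻¹
  four : ∀ b : X, b * b = 1 → b ≠ 1 → b ≠ a → b * a = a * b →
    (∃ c, c * a = a * c ∧ b * (c * b * c⁻¹) ≠ c * b * c⁻¹ * b) ∧
      ∀ d : X, d * d = 1 → d * a = a * d → d * b = b * d → d = 1 ∨ d = a ∨ d = b ∨ d = a * b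

theorem PP.map {X Y : Type*} [Group X] [Group Y] (e : X ≃* Y) {a : X} (h : PP a) : PP (e a) := by
  obtain ⟨⟨r, o, hr⟩, h⟩ := h
  refine ⟨⟨e r, (e.orderOf_eq r).trans o, by rw [← map_inv, ← map_mul, ← map_mul, hr, map_inv]⟩,
    fun b => ?_⟩
  obtain ⟨b, rfl⟩ := e.surjective b
  intro h1 h2 h3 h4
  obtain ⟨⟨c, c1, c2⟩, k⟩ := h b (e.injective (by simpa using h1)) (by rintro rfl; simp at h2)
    (by rintro rfl; exact h3 rfl) (e.injective (by simpa using h4))
  refine ⟨⟨e c, by rw [← map_mul, c1, map_mul], fun q => c2 (e.injective (by simpa using q))⟩,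
    fun d => ?_⟩
  obtain ⟨d, rfl⟩ := e.surjective d
  intro d1 d2 d3
  have := k d (e.injective (by simpa using d1)) (e.injective (by simpa using d2))
    (e.injective (by simpa using d3))
  simpa only [← map_mul, e.injective.eq_iff, map_eq_one_iff e e.injective] using this

variable {F : Type} [Field F]

/-- A matrix of determinant one. -/
def sl (p q r s : F) (h : p * s - q * r = 1) : SL(2, F) := ⟨!![p, q; r, s], by rw [det_fin_two_of, h]⟩

/-- The image of a matrix. -/
def mm (p q r s : F) (h : p * s - q * r = 1) : PSL 2 F := QuotientGroup.mk (sl p q r s h)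

theorem sl_eq_1' : type_of% @sl.eq_1 := @sl.eq_1
theorem mm_eq_1' : type_of% @mm.eq_1 := @mm.eq_1

theorem mm_sur (x : PSL 2 F) : ∃ p q r s h, x = mm p q r s h := by
  obtain ⟨A, rfl⟩ := QuotientGroup.mk_surjective x
  refine ⟨A.1 0 0, A.1 0 1, A.1 1 0, A.1 1 1, by rw [← det_fin_two, A.2], congrArg _ (Subtype.ext ?_)⟩
  exact eta_fin_two _

theorem mm_mul {p q r s p' q' r' s' : F} (h : p * s - q * r = 1) (h' : p' * s' - q' * r' = 1) :
    mm p q r s h * mm p' q' r' s' h' = mm (p * p' + q * r') (p * q' + q * s') (r * p' + s * r')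
      (r * q' + s * s') (by linear_combination (p' * s' - q' * r') * h + h') :=
  congrArg QuotientGroup.mk (Subtype.ext (mul_fin_two _ _ _ _ _ _ _ _))

theorem mm_one : (1 : PSL 2 F) = mm 1 0 0 1 (by ring) :=
  congrArg QuotientGroup.mk (Subtype.ext one_fin_two)

theorem cen {z : SL(2, F)} : z ∈ center SL(2, F) ↔ z = 1 ∨ z = -1 := by
  refine ⟨fun h => ?_, by rintro (rfl | rfl) <;> simp [mem_center_iff]⟩
  obtain ⟨r, h1, h2⟩ := Matrix.SpecialLinearGroup.mem_center_iff.1 h
  rcases mul_self_eq_one_iff.1 ((pow_two r).symm.trans h1) with rfl | rfl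
  · exact .inl (Subtype.ext (by simpa using h2.symm))
  · exact .inr (Subtype.ext (h2.symm.trans (by rw [map_neg, map_one]; rfl)))

theorem mm_eq {p q r s p' q' r' s' : F} {h : p * s - q * r = 1} {h' : p' * s' - q' * r' = 1} :
    mm p q r s h = mm p' q' r' s' h' ↔ (p = p' ∧ q = q' ∧ r = r' ∧ s = s') ∨
      (p = -p' ∧ q = -q' ∧ r = -r' ∧ s = -s') := by
  rw [mm, mm, eq_comm, QuotientGroup.eq, cen, inv_mul_eq_iff_eq_mul, inv_mul_eq_iff_eq_mul]
  simp only [mul_one, mul_neg, Matrix.SpecialLinearGroup.ext_iff, Fin.forall_fin_two, and_assoc]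
  rfl

theorem shape (h17 : (17 : F) = 0) {j : F} (hj : j * j = -1) {d : PSL 2 F} (h1 : d * d = 1)
    (h2 : d * mm j 0 0 (-j) (by linear_combination -hj) = mm j 0 0 (-j) (by linear_combination -hj) * d) :
    d = 1 ∨ d = mm j 0 0 (-j) (by linear_combination -hj) ∨ ∃ x y h, d = mm 0 x y 0 h := by
  obtain ⟨p, q, r, s, h, rfl⟩ := mm_sur d
  rw [mm_mul, mm_mul, mm_eq] at h2
  rcases h2 with ⟨-, a, b, -⟩ | ⟨a, -, -, b⟩
  · obtain rfl : q = 0 := by linear_combination 9 * j * a + 9 * (2 * q) * hj - q * h17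
    obtain rfl : r = 0 := by linear_combination -9 * j * b + 9 * (2 * r) * hj - r * h17
    rw [mm_mul, mm_one, mm_eq] at h1
    rw [mm_one, mm_eq, mm_eq]
    rcases h1 with ⟨a, -⟩ | ⟨a, -⟩
    · have e : s = p := by linear_combination p * h - s * a
      rcases mul_eq_zero.1 (show (p - 1) * (p + 1) = 0 by linear_combination a) with c | c
      · exact .inl (.inl ⟨by linear_combination c, rfl, rfl, by linear_combination c + e⟩)
      · exact .inl (.inr ⟨by linear_combination c, by simp, by simp, by linear_combination c + e⟩)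
    · have e : s = -p := by linear_combination -p * h + s * a
      rcases mul_eq_zero.1 (show (p - j) * (p + j) = 0 by linear_combination a - hj) with c | c
      · exact .inr (.inl (.inl ⟨by linear_combination c, rfl, rfl, by linear_combination e - c⟩))
      · exact .inr (.inl (.inr ⟨by linear_combination c, by simp, by simp, by linear_combination e - c⟩))
  · obtain rfl : p = 0 := by linear_combination -9 * j * a + 9 * (2 * p) * hj - p * h17
    obtain rfl : s = 0 := by linear_combination 9 * j * b + 9 * (2 * s) * hj - s * h17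
    exact .inr (.inr ⟨q, r, h, rfl⟩)

theorem uni (n : ℕ) : mm (1 : F) 1 0 1 (by ring) ^ n = mm 1 (n : F) 0 1 (by ring) := by
  induction n with
  | zero => rw [pow_zero, mm_one, mm_eq]; simp
  | succ n ih => rw [pow_succ, ih, mm_mul, mm_eq]; simp [add_comm]

theorem ppD (h17 : (17 : F) = 0) {j : F} (hj : j * j = -1) :
    PP (mm j 0 0 (-j) (by linear_combination -hj)) := by
  have : Fact (Nat.Prime 17) := ⟨by norm_num⟩
  refine ⟨⟨mm 1 1 0 1 (by ring), orderOf_eq_prime (by rw [uni, mm_one, mm_eq]; simp [h17])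
    (by rw [mm_one, Ne, mm_eq]; simp), ?_⟩, fun b b1 b2 b3 b4 => ?_⟩
  · rw [mul_inv_eq_iff_eq_mul, eq_inv_mul_iff_mul_eq, mm_mul, mm_mul, mm_eq]
    simp
  obtain ⟨x, y, h, rfl⟩ := ((shape h17 hj b1 b4).resolve_left b2).resolve_left b3
  refine ⟨⟨mm 3 0 0 6 (by linear_combination h17), by rw [mm_mul, mm_mul, mm_eq]; simp [mul_comm], ?_⟩,
    fun d d1 d2 d3 => ?_⟩
  · rw [show mm 3 0 0 6 (by linear_combination h17) * mm 0 x y 0 h * (mm 3 0 0 6 (by linear_combination h17))⁻¹
      = mm 0 (9 * x) (2 * y) 0 (by linear_combination 18 * h + h17) by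
        rw [mul_inv_eq_iff_eq_mul, mm_mul, mm_mul, mm_eq]
        exact .inl ⟨by ring, by linear_combination -3 * x * h17, by ring, by ring⟩,
      mm_mul, mm_mul, Ne, mm_eq]
    rintro (⟨a, -⟩ | ⟨a, -⟩)
    · exact one_ne_zero (α := F) (by linear_combination 5 * a - 35 * h - 2 * h17)
    · exact one_ne_zero (α := F) (by linear_combination -14 * a - 154 * h - 9 * h17)
  rcases shape h17 hj d1 d2 with e | e | ⟨z, w, h', rfl⟩
  · exact .inl e
  · exact .inr (.inl e)
  rw [mm_mul, mm_mul, mm_eq] at d3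
  refine .inr (.inr ?_)
  rw [mm_mul, mm_eq, mm_eq]
  have k : z * y * (x * w) = 1 := by linear_combination (-(z * w)) * h + h'
  rcases d3 with ⟨a, -⟩ | ⟨a, -⟩
  · rcases mul_eq_zero.1 (show (z * y - 1) * (z * y + 1) = 0 by linear_combination k + z * y * a) with c | c
    · exact .inl (.inr ⟨by simp, by linear_combination -z * h - x * c, by
        linear_combination -w * h - y * c + y * a, by simp⟩)
    · exact .inl (.inl ⟨rfl, by linear_combination -z * h - x * c, by
        linear_combination -w * h - y * c + y * a, rfl⟩)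
  · rcases mul_eq_zero.1 (show (z * y - j) * (z * y + j) = 0 by
      linear_combination z * y * a - k - hj) with c | c
    · exact .inr (.inr ⟨by simp, by linear_combination -z * h - x * c, by
        linear_combination -w * h + y * c - y * a, by simp⟩)
    · exact .inr (.inl ⟨by simp, by linear_combination -z * h - x * c, by
        linear_combination -w * h + y * c - y * a, by simp⟩)

theorem pp (h17 : (17 : F) = 0) {a : PSL 2 F} (h1 : a * a = 1) (h2 : a ≠ 1) : PP a := by
  obtain ⟨p, q, r, s, h, rfl⟩ := mm_sur a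
  rw [mm_mul, mm_one, mm_eq] at h1
  rw [mm_one, Ne, mm_eq] at h2
  have two : (2 : F) ≠ 0 := fun e => one_ne_zero (α := F) (by linear_combination 9 * e - h17)
  obtain rfl : s = -p := by
    rcases h1 with ⟨a, b, c, -⟩ | ⟨a, b, c, d⟩
    · have t : p + s ≠ 0 := fun e => two (by linear_combination p * e - a - h)
      obtain rfl : q = 0 := (mul_eq_zero.1 (show q * (p + s) = 0 by linear_combination b)).resolve_right t
      obtain rfl : r = 0 := (mul_eq_zero.1 (show r * (p + s) = 0 by linear_combination c)).resolve_right t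
      have e : s = p := by linear_combination p * h - s * a
      rcases mul_eq_zero.1 (show (p - 1) * (p + 1) = 0 by linear_combination a) with c | c
      · exact absurd (.inl ⟨by linear_combination c, rfl, rfl, by linear_combination c + e⟩) h2
      · exact absurd (.inr ⟨by linear_combination c, by simp, by simp, by linear_combination c + e⟩) h2
    · linear_combination -(p + s) * h + s * (a + h) - r * b
  obtain ⟨j, hj, t⟩ : ∃ j : F, j * j = -1 ∧ p + j ≠ 0 := by
    by_cases e : p + 4 = 0
    · exact ⟨-4, by linear_combination h17, fun e' =>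
        one_ne_zero (α := F) (by linear_combination 15 * (e - e') - 7 * h17)⟩
    · exact ⟨4, by linear_combination h17, e⟩
  obtain ⟨t, ht⟩ : ∃ t : F, t * (-2 * j * (p + j)) = 1 := ⟨_, inv_mul_cancel₀ (mul_ne_zero
    (mul_ne_zero (neg_ne_zero.2 two) fun e => by simp [e] at hj) t)⟩
  have := (ppD h17 hj).map (MulAut.conj (mm (p + j) (q * t) r (-(p + j) * t)
    (by linear_combination ht + t * h + t * hj)))
  rwa [MulAut.conj_apply, show _ * _ * _ = mm p q r (-p) h from ?_] at this
  rw [mul_inv_eq_iff_eq_mul, mm_mul, mm_mul, mm_eq]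
  exact .inl ⟨by linear_combination h + hj, by ring, by ring, by linear_combination t * h + t * hj⟩

theorem of_l2 {X : Type*} [Group X] (h : L2q 17 X) :
    IsSimpleGroup X ∧ (∃ r : X, orderOf r = 17) ∧ ∀ a : X, a * a = 1 → a ≠ 1 → PP a := by
  obtain ⟨F, _, _, hF, ⟨e⟩⟩ := h
  have h17 : (17 : F) = 0 := by simpa [hF] using FiniteField.cast_card_eq_zero F
  have := ProjectiveSpecialLinearGroup.rank_two_simple (F := F) (by rw [Nat.card_eq_fintype_card, hF]; omega)
  refine ⟨e.isSimpleGroup, ?_, fun a h1 h2 => ?_⟩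
  · obtain ⟨r, o, -⟩ := ((ppD h17 (j := 4) (by linear_combination h17)).map e.symm).inv
    exact ⟨r, o⟩
  · simpa using (pp h17 (a := e a) (by rw [← map_mul, h1, map_one]) (by simpa using h2)).map e.symm

end Cfsg.Lib.K7.L17
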