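import Cfsg.Agent.K7.Defs

/-!
# Simple groups of order `p * 3 ^ a * 2 ^ b`: the case `L₃(2)`, basic definitions
-/

set_option autoImplicit false

namespace Cfsg.Lib.K7

open Cfsg Subgroup Cfsg.Lib.Trans Cfsg.Lib.Gold
open Cfsg.Lib.P8 (L32 V3 O2 Om Jt Phi EA SR4 Ch E9 Pj Ty Sec SecOK Mx Crd)
open Cfsg.Lib.K35 (PSL Alt A3 NC)
open scoped commutatorElement

universe u

def StA3' : Prop := ∀ (G : Type u) [Group G] [Finite G] (p : ℕ), Gl G p → ∀ M S : Subgroup G, O2 M ≠ ⊥ →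
  S ≤ M → IsSylowIn 2 S ⊤ → p ∣ Nat.card M → A3 M ∧ R3 G ∧ ∀ a ∈ M, ∀ b ∈ M, ¬ E9 a b

end Cfsg.Lib.K7
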