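import Cfsg.Agent.K7.Loc
import Cfsg.Agent.Ngrp.GL23

/-!
# Simple groups of order `7 * 3 ^ a * 2 ^ b`: the case `L₃(2)` with a full Sylow 2-subgroup
-/

set_option autoImplicit false

namespace Cfsg.Lib.K7

open Cfsg Subgroup Cfsg.Lib.Trans Cfsg.Lib.Gold
open Cfsg.Lib.P8 (L32 V3 O2 Om Jt Phi EA SR4 Ch E9 Pj Ty Sec SecOK Mx Crd)
open Cfsg.Lib.K35 (PSL Alt A3 NC)
open scoped commutatorElement

universe u

/-- A solvable `{2,3}`-group with trivial 2-core and 3-rank at most two. -/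
structure SX (X : Type u) [Group X] : Prop where
  sol : Group.IsSolvable X
  pr : ∀ p : ℕ, p.Prime → p ∣ Nat.card X → p = 2 ∨ p = 3
  o2 : pCore 2 X = ⊥
  r3 : PRankLE 3 2 X

/-- A critical subgroup of exponent three and the action on its Frattini quotient. -/
structure Cr {X : Type u} [Group X] (E : Subgroup X) (φ : X →* Ngrp.G48) : Prop where
  nor : E.Normal
  e3 : ∀ e ∈ E, e ^ 3 = 1
  cl : ⁅E, E⁆ ≤ Cs E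
  ker : ∀ g, φ g = 1 ↔ ∀ e ∈ E, ⁅g, e⁆ ∈ ⁅E, E⁆
  neg : ∀ g, φ g = Ngrp.G48.neg1 → ∀ e ∈ E, g * e * g⁻¹ * e ∈ ⁅E, E⁆
  k3 : ∀ g, φ g = 1 → ∃ k : ℕ, g ^ 3 ^ k = 1
  cs : Nat.card E ≤ 3 ∨ (Nat.card E = 9 ∧ ⁅E, E⁆ = ⊥) ∨
    (Nat.card E = 27 ∧ Nat.card ↥⁅E, E⁆ = 3 ∧ E ⊓ Cs E = ⁅E, E⁆)

section
variable {G : Type u} [Group G]

/-- A solvable `{2,3}`-subgroup of characteristic two and 3-rank at most two. -/
structure Sv (H : Subgroup G) : Prop where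
  sol : Group.IsSolvable H
  pr : ∀ p : ℕ, p.Prime → p ∣ Nat.card H → p = 2 ∨ p = 3
  ch : Ch H
  ne : O2 H ≠ ⊥
  r3 : PRankLE 3 2 H

/-- `y` is not the centre of an extraspecial subgroup of exponent three of `H`. -/
def Nc (H : Subgroup G) (y : G) : Prop :=
  ∀ a ∈ H, ∀ b ∈ H, a ^ 3 = 1 → b ^ 3 = 1 → a * y = y * a → b * y = y * b → ⁅a, b⁆ ≠ y

/-- `H / O₂(H)` acts faithfully on `U₂ / U₁`. -/
def Fa (H U₁ U₂ : Subgroup G) : Prop := ∀ g ∈ H, (∀ w ∈ U₂, ⁅w, g⁆ ∈ U₁) → g ∈ O2 H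

/-- `R / Q` is a quaternion group of order eight. -/
def IsQ (Q R : Subgroup G) : Prop :=
  ∃ f : R →* QuaternionGroup 2, Function.Surjective f ∧ f.ker = Q.subgroupOf R

/-- The normal closure of `V` in the centralizer of `z`. -/
def Uz (V : Subgroup G) (z : G) : Subgroup G := ⨆ k : C1 z, cj (k : G) V

/-- The 2-core of the centralizer. -/
abbrev Qz (z : G) : Subgroup G := O2 (C1 z)

/-- The 2-core of the stabilizer of `z` in `M`. -/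
abbrev Q1 (M : Subgroup G) (z : G) : Subgroup G := O2 (M ⊓ C1 z)

/-- The configuration with coordinates. -/
structure SL (M S V : Subgroup G) (π : G → L32) (c : G → V3) (z : G) : Prop where
  gl : Gl G 7
  mx : Mx M (O2 M)
  ty : Ty M (O2 M) π
  syl : IsSylowIn 2 S ⊤
  leV : V ≤ Om (O2 M)
  nor : M ≤ Ns V
  crd : Crd M V π c
  memS : ∀ g, g ∈ S ↔ g ∈ M ∧ (π g).1 1 0 = 0 ∧ (π g).1 2 0 = 0 ∧ (π g).1 2 1 = 0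
  zV : z ∈ V
  cz : c z = ![1, 0, 0]

/-- First consequences: the subgroup `M`. -/
structure SB (M S V : Subgroup G) (z y : G) : Prop where
  le : S ≤ M
  cV : Cs V = O2 M
  nV : Ns V = M
  ea : EA V
  card : Nat.card V = 8
  neT : ¬ O2 M ≤ V
  oz : orderOf z = 2
  zS : S ≤ C1 z
  zu : ∀ v ∈ V, S ≤ C1 v → v = 1 ∨ v = z
  tr : ∀ v ∈ V, v ≠ 1 → ∃ m ∈ M, m * z * m⁻¹ = v
  yM : y ∈ M
  yz : y ∈ C1 z
  oy : orderOf y = 3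
  ny : y ∉ Ns S
  Vy : V ≤ ⁅V, zpowers y⁆ ⊔ zpowers z
  c3 : S.relIndex (M ⊓ C1 z) = 3
  s7 : Nat.card S % 7 = 1
  TQ : O2 M ≤ Q1 M z
  QS : Q1 M z ≤ S
  i4 : (O2 M).relIndex (Q1 M z) = 4
  i2 : (Q1 M z).relIndex S = 2
  sq : ∀ q ∈ Q1 M z, q * q ∈ O2 M
  mem1 : ∀ g, g ∈ Q1 M z ↔ g ∈ M ∧ ∀ v ∈ V, ⁅v, g⁆ ∈ zpowers z
  irr : ∀ Y : Subgroup G, O2 M ≤ Y → Y ≤ Q1 M z → y ∈ Ns Y → Y = O2 M ∨ Y = Q1 M z
  nab : ∀ s ∈ S, s ∉ Q1 M z → (∃ q ∈ Q1 M z, ⁅s, q⁆ ∉ O2 M) ∧ s * y * s⁻¹ * y ∈ Q1 M z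
  el : ∀ v ∈ V, v ≠ 1 → v ≠ z → ∃ q ∈ Q1 M z, q * v * q⁻¹ = v * z
  qw : ∀ U₁ U₂ : Subgroup G, U₁ ≤ U₂ → U₂ ≤ O2 M → M ≤ Ns U₁ → M ≤ Ns U₂ → ∀ j ∈ M, j ∉ O2 M →
    ⁅U₂, zpowers j⁆ ≤ U₁ → U₂ ≤ U₁
  fp : ∀ σ ∈ M, orderOf σ = 7 → ∀ w ∈ O2 M, ⁅w, σ⁆ ∈ V → w ∈ V
  rk : ∀ A : Subgroup G, A ≤ M → EA A → (O2 M).relIndex A ≤ 4
  nc : ∀ w ∈ M, orderOf w = 3 → ∀ H : Subgroup G, O2 H ≠ ⊥ → w ∈ H → Nc H w
  sv : ∀ H : Subgroup G, S ≤ H → O2 H ≠ ⊥ → ¬ 7 ∣ Nat.card H → Sv H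

/-- First consequences: the centralizer of `z`. -/
structure SU (M S V : Subgroup G) (z : G) : Prop where
  svC : Sv (C1 z)
  QQ : Qz z ≤ Q1 M z
  VU : V ≤ Uz V z
  nU : C1 z ≤ Ns (Uz V z)
  sec : SecOK (C1 z) (Qz z) (zpowers z) (Uz V z)
  fa : Fa (C1 z) (zpowers z) (Uz V z)
  ab : Uz V z ≤ O2 M → EA (Uz V z)

/-- The trivial intersection case. -/
structure TI (M S V : Subgroup G) : Prop where
  cv : ∀ v ∈ V, v ≠ 1 → C1 v ≤ M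
  ti : ∀ g, cj g V ⊓ V ≠ ⊥ → g ∈ M
  wc : ∀ g, cj g V ≤ M → cj g V ≤ O2 M
  ex : ∀ H : Subgroup G, S ≤ H → ¬ H ≤ M → ∃ g, cj g V ≤ O2 M ∧ ¬ cj g V ≤ O2 H

/-- The output of the critical pair. -/
structure PA (M V F : Subgroup G) (z y h : G) : Prop where
  card : Nat.card F = 8
  ea : EA F
  le : F ≤ Uz V z
  zF : z ∈ F
  nP : M ⊓ C1 z ≤ Ns F
  hN : h ∈ Ns F
  hz : h * z * h⁻¹ ≠ z
  ny : ¬ F ≤ C1 y
  cm : ⁅Uz V z, cj h (Uz V z)⁆ = F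
  i2 : (Qz z).relIndex (Q1 M z) = 2

end

/-! ### Solvable groups of 3-rank at most two -/

def StCr : Prop := ∀ (X : Type u) [Group X] [Finite X], SX X → ∃ (E : Subgroup X) (φ : X →* Ngrp.G48), Cr E φ

def StBr : Prop := ∀ (G : Type u) [Group G] [Finite G] (H : Subgroup G), Sv H →
  ∃ (X : Type u) (_ : Group X) (_ : Finite X) (π : G → X), Pj H (O2 H) π ∧ SX X ∧
    (∀ y ∈ H, orderOf y = 3 → Nc H y → orderOf (π y) = 3 ∧ Nc ⊤ (π y)) ∧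
    ∀ a b : X, E9 a b → ∃ a' ∈ H, ∃ b' ∈ H, π a' = a ∧ π b' = b ∧ E9 a' b'

def StLb : Prop := ∀ (G : Type u) [Group G] [Finite G] (H R : Subgroup G) (y : G), Sv H → y ∈ H →
  orderOf y = 3 → Nc H y → O2 H ≤ R → R ≤ H → IsPGroup 2 R → y ∈ Ns R →
    R ≤ O2 H ∨ (O2 H).relIndex R = 2 ∨ IsQ (O2 H) R

def StLe : Prop := ∀ (G : Type u) [Group G] [Finite G] (H E : Subgroup G), Sv H → E ≤ H → EA E →
  (O2 H).relIndex E ≤ 4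

def StLq : Prop := ∀ (G : Type u) [Group G] [Finite G] (H R U₁ U₂ D : Subgroup G) (y t : G), Sv H → y ∈ H →
  orderOf y = 3 → Nc H y → O2 H ≤ R → R ≤ H → y ∈ Ns R → IsQ (O2 H) R → t ∈ R → t ∉ O2 H →
  t * t ∈ O2 H → SecOK H (O2 H) U₁ U₂ → Fa H U₁ U₂ → U₁ ≤ D → D ≤ U₂ → (∀ d ∈ D, ⁅d, t⁆ ∈ U₁) →
    16 ≤ D.relIndex U₂

def StLc : Prop := ∀ (G : Type u) [Group G] [Finite G] (H S U₁ U₂ V D : Subgroup G) (y t : G), Sv H →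
  y ∈ H → orderOf y = 3 → Nc H y → IsSylowIn 2 S H → (∀ s ∈ S, s * y * s⁻¹ ∈ zpowers y ⊔ O2 H) →
  SecOK H (O2 H) U₁ U₂ → Fa H U₁ U₂ → V ≤ U₂ → V ≤ ⁅V, zpowers y⁆ ⊔ U₁ →
  U₂ ≤ (⨆ k : H, cj (k : G) V) ⊔ U₁ → t ∈ H → t ∉ O2 H → t * t ∈ O2 H → ⁅t, y⁆ ∈ O2 H →
  (∀ d, d ∈ D ↔ d ∈ U₂ ∧ ⁅d, t⁆ ∈ U₁) → D.relIndex U₂ ≤ 4 →
    D.relIndex U₂ = 4 ∧ U₁.relIndex (⁅U₂, zpowers t⁆ ⊔ U₁) = 4 ∧
      ¬ ⁅⁅U₂, zpowers t⁆, zpowers y⁆ ≤ U₁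

def StLd : Prop := ∀ (G : Type u) [Group G] [Finite G] (H T : Subgroup G) (a : G), Sv H → T ≤ H →
  IsPGroup 2 T → a ∈ H → a ∉ O2 H → a * a = 1 → T ≤ C1 a →
  (∀ e ∈ H, ∀ e' ∈ H, E9 e e' → a * e * a⁻¹ * e ∈ O2 H → a * e' * a⁻¹ * e' ∈ O2 H → False) →
  (∀ w ∈ H, orderOf w = 3 → ⁅w, a⁆ ∈ O2 H → Nc H w) →
    ∃ x ∈ H, orderOf x = 3 ∧ a * x * a⁻¹ * x ∈ O2 H ∧
      ∀ τ ∈ T, τ * x * τ⁻¹ * x⁻¹ ∈ O2 H ∨ τ * x * τ⁻¹ * x ∈ O2 H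

def StS7 : Prop := ∀ (G : Type u) [Group G] [Finite G], Gl G 7 → ∀ H S : Subgroup G, IsSylowIn 2 S ⊤ →
  S ≤ H → Ch H → O2 H ≠ ⊥ → Group.IsSolvable H → 7 ∣ Nat.card H → Nat.card S % 7 = 1 → H ≤ Ns S

/-! ### The configuration -/

def StV8 : Prop := ∀ (G : Type u) [Group G] [Finite G], Gl G 7 → ∀ M : Subgroup G, Ty7 M →
  ∃ V : Subgroup G, V ≤ Om (O2 M) ∧ M ≤ Ns V ∧ Nat.card V = 8

def StCo : Prop := ∀ (G : Type u) [Group G] [Finite G], Gl G 7 → ∀ M S V : Subgroup G, Mx M (O2 M) →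
  Ty7 M → S ≤ M → IsSylowIn 2 S ⊤ → V ≤ Om (O2 M) → M ≤ Ns V → Nat.card V = 8 →
    ∃ (π : G → L32) (c : G → V3) (z : G), SL M S V π c z

def StSB : Prop := ∀ (G : Type u) [Group G] [Finite G] (M S V : Subgroup G) (π : G → L32) (c : G → V3)
  (z : G), SL M S V π c z → ∃ y, SB M S V z y

def StSU : Prop := ∀ (G : Type u) [Group G] [Finite G] (M S V : Subgroup G) (π : G → L32) (c : G → V3)
  (z y : G), SL M S V π c z → SB M S V z y → SU M S V z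

/-! ### The centralizer of `z` lies in `M` -/

def StT1 : Prop := ∀ (G : Type u) [Group G] [Finite G] (M S V : Subgroup G) (π : G → L32) (c : G → V3)
  (z y : G), SL M S V π c z → SB M S V z y → C1 z ≤ M → TI M S V ∧ Ns S ≤ M

def StT2 : Prop := ∀ (G : Type u) [Group G] [Finite G] (M S V : Subgroup G) (π : G → L32) (c : G → V3)
  (z y : G), SL M S V π c z → SB M S V z y → Ns S ≤ M → ∃ H : Subgroup G, S ≤ H ∧ Sv H ∧ ¬ H ≤ M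

def StT3 : Prop := ∀ (G : Type u) [Group G] [Finite G] (M S V H : Subgroup G) (π : G → L32) (c : G → V3)
  (z y : G), SL M S V π c z → SB M S V z y → TI M S V → S ≤ H → Sv H → ¬ H ≤ M → V ≤ O2 H → False

def StT4 : Prop := ∀ (G : Type u) [Group G] [Finite G] (M S V H : Subgroup G) (π : G → L32) (c : G → V3)
  (z y : G), SL M S V π c z → SB M S V z y → TI M S V → S ≤ H → Sv H → V ≤ O2 H

/-! ### The centralizer of `z` does not lie in `M` -/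

def StWt : Prop := ∀ (G : Type u) [Group G] [Finite G] (M S V A : Subgroup G) (π : G → L32) (c : G → V3)
  (z y : G), SL M S V π c z → SB M S V z y → SU M S V z → ¬ Uz V z ≤ O2 M → V ≤ A → A ≤ O2 M →
  M ≤ Ns A → (Qz z).relIndex A ≤ 2 → ∀ w ∈ A, w ∉ V → ∃ p ∈ V, ∃ q ∈ V, p ≠ 1 ∧ q ≠ 1 ∧ p ≠ q ∧
    ∀ v ∈ V, v ≠ 1 → (w ∈ Qz v ↔ v = p ∨ v = q ∨ v = p * q)

def StQ8 : Prop := ∀ (G : Type u) [Group G] [Finite G] (M S V : Subgroup G) (π : G → L32) (c : G → V3)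
  (z y : G), SL M S V π c z → SB M S V z y → SU M S V z → ¬ Uz V z ≤ O2 M → ¬ IsQ (Qz z) (Q1 M z)

def StZa : Prop := ∀ (G : Type u) [Group G] [Finite G] (M S V : Subgroup G) (π : G → L32) (c : G → V3)
  (z y : G), SL M S V π c z → SB M S V z y → SU M S V z → ¬ Uz V z ≤ O2 M →
  (Qz z).relIndex (Q1 M z) ≤ 2 → EA (O2 M) ∧ ∃ w x t : G, w ≠ 1 ∧ w * w = 1 ∧ S ≤ C1 w ∧ x ∈ M ∧
    orderOf x = 3 ∧ x ∈ C1 w ∧ t ∈ ⁅O2 M, zpowers x⁆ ∧ t ∉ Qz z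

def StZb : Prop := ∀ (G : Type u) [Group G] [Finite G] (M S V : Subgroup G) (π : G → L32) (c : G → V3)
  (z y w x t : G), SL M S V π c z → SB M S V z y → SU M S V z → EA (O2 M) → w ≠ 1 → w * w = 1 →
  S ≤ C1 w → x ∈ M → orderOf x = 3 → x ∈ C1 w → t ∈ ⁅O2 M, zpowers x⁆ → t ∈ Qz z

def StPr : Prop := ∀ (G : Type u) [Group G] [Finite G] (M S V : Subgroup G) (π : G → L32) (c : G → V3)
  (z y : G), SL M S V π c z → SB M S V z y → SU M S V z → ¬ C1 z ≤ M → Uz V z ≤ O2 M →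
    ∃ h, cj h (Uz V z) ≤ O2 M ∧ cj h⁻¹ (Uz V z) ≤ O2 M ∧ ¬ cj h (Uz V z) ≤ Qz z

def StPa : Prop := ∀ (G : Type u) [Group G] [Finite G] (M S V : Subgroup G) (π : G → L32) (c : G → V3)
  (z y h : G), SL M S V π c z → SB M S V z y → SU M S V z → Uz V z ≤ O2 M →
  cj h (Uz V z) ≤ O2 M → cj h⁻¹ (Uz V z) ≤ O2 M → ¬ cj h (Uz V z) ≤ Qz z → ∃ F, PA M V F z y h

def StPb : Prop := ∀ (G : Type u) [Group G] [Finite G] (M S V F : Subgroup G) (π : G → L32) (c : G → V3)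
  (z y h : G), SL M S V π c z → SB M S V z y → PA M V F z y h →
    Mx (Ns F) (O2 (Ns F)) ∧ Ty7 (Ns F) ∧ F ≤ Om (O2 (Ns F))

def StCF : Prop := ∀ (G : Type u) [Group G] [Finite G] (M S V : Subgroup G) (π : G → L32) (c : G → V3)
  (z y h : G), SL M S V π c z → SB M S V z y → SU M S V z → Uz V z ≤ O2 M →
  (Qz z).relIndex (Q1 M z) = 2 → h ∈ M → ⁅Uz V z, cj h (Uz V z)⁆ = V → False

theorem Uz_eq_1' : type_of% @Uz.eq_1.{u} := @Uz.eq_1.{u}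

end Cfsg.Lib.K7
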