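import Cfsg.Agent.K7.Loc
import Cfsg.Agent.Chev.TwoElt

/-!
# Simple groups of order `p * 3 ^ a * 2 ^ b`: no Sylow 2-subgroup of `G` in `M`
-/

set_option autoImplicit false

namespace Cfsg.Lib.K7

open Cfsg Subgroup Cfsg.Lib.Trans Cfsg.Lib.Gold
open Cfsg.Lib.P8 (L32 V3 O2 Om Jt Phi EA SR4 Ch E9 Pj Ty Sec SecOK Mx Crd)
open Cfsg.Lib.K35 (PSL Alt A3 NC)
open scoped commutatorElement

universe u

/-- Upper triangular and trivial on the quotient by the first basis vector. -/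
def inA (m : L32) : Prop := m.1 1 0 = 0 ∧ m.1 2 0 = 0 ∧ m.1 2 1 = 0 ∧ m.1 1 2 = 0

/-- Upper triangular and trivial on the first two basis vectors. -/
def inB (m : L32) : Prop := m.1 1 0 = 0 ∧ m.1 2 0 = 0 ∧ m.1 2 1 = 0 ∧ m.1 0 1 = 0

/-- An element of order three fixing the first basis vector. -/
def xA : L32 := ⟨!![1, 0, 0; 0, 0, 1; 0, 1, 1], by decide⟩

/-- The group `G₂(2)`. -/
abbrev Gm : Type := Chev.GamU33

/-- The group `U₃(3)`. -/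
abbrev L0 : Subgroup Gm := commutator Gm

/-- The elements of order three with large centralizer. -/
def Cl (r : Gm) : Prop := orderOf r = 3 ∧ ∃ j ∈ L0, orderOf j = 4 ∧ j * r = r * j

/-- The words for the elements of a Sylow 2-subgroup. -/
def swL (e : ℕ) : List ℕ := [6, 7, 8, 9, 10, 11].filter fun i => e.testBit (i - 6)

/-- The elements of a Sylow 2-subgroup. -/
def sw (e : ℕ) : Gm := ((swL e).map Chev.g2Elt).prod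

section
variable {G : Type u} [Group G]

/-- The basic configuration. -/
structure NB (p : ℕ) (M S₀ : Subgroup G) (g : G) : Prop where
  gl : Gl G p
  mx : Mx M (O2 M)
  nsol : ¬ Group.IsSolvable M
  syl : IsSylowIn 2 S₀ M
  nc : NC S₀
  nor : g ∈ Ns S₀
  sq : g * g ∈ S₀
  out : g ∉ M
  nJ : ¬ Jt S₀ ≤ O2 M

/-- First consequences. -/
structure NO (p : ℕ) (M S₀ : Subgroup G) (g : G) : Prop where
  leT : O2 M ≤ S₀
  nT : Ns (O2 M) = M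
  nV : Ns (Om (O2 M)) = M
  cV : Cs (Om (O2 M)) = O2 M
  neV : Om (O2 M) ≠ ⊥
  ea : EA (Om (O2 M))
  memV : ∀ v, v ∈ Om (O2 M) ↔ v ∈ O2 M ∧ v * v = 1 ∧ O2 M ≤ C1 v
  fp : ∀ y ∈ M, orderOf y = p → O2 M ⊓ C1 y = ⊥
  ex : ∃ y ∈ M, orderOf y = p
  nrm : ∀ N : Subgroup G, IsPGroup 2 N → M ≤ Ns N → g ∈ Ns N → N = ⊥
  off : ∃ A : Subgroup G, A ≤ S₀ ∧ EA A ∧ ¬ A ≤ O2 M ∧
    (Om (O2 M) ⊓ Cs A).relIndex (Om (O2 M)) ≤ (O2 M).relIndex A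

/-- The quotient `M / O₂(M)` with its socle. -/
structure TX {X : Type u} [Group X] (M : Subgroup G) (π : G → X) (L : Subgroup X) : Prop where
  ty : Ty M (O2 M) π
  nor : L.Normal
  cs : Cs L = ⊥

/-- The configuration of type `L₃(2)` with coordinates. -/
structure NL (M S₀ W : Subgroup G) (g : G) (π : G → L32) (c : G → V3) (z : G) : Prop where
  nb : NB 7 M S₀ g
  no : NO 7 M S₀ g
  ty : Ty M (O2 M) π
  leW : W ≤ Om (O2 M)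
  nW : M ≤ Ns W
  crd : Crd M W π c
  memS : ∀ h, h ∈ S₀ ↔ h ∈ M ∧ (π h).1 1 0 = 0 ∧ (π h).1 2 0 = 0 ∧ (π h).1 2 1 = 0
  zW : z ∈ W
  cz : c z = ![1, 0, 0]

/-- Consequences of `NL`. -/
structure NS (M S₀ W : Subgroup G) (z : G) : Prop where
  cW : Nat.card W = 8
  oz : orderOf z = 2
  zS : S₀ ≤ C1 z
  neT : ¬ O2 M ≤ W
  rk : ∀ A : Subgroup G, A ≤ M → EA A → (O2 M).relIndex A ≤ 4
  tri : ∀ a ∈ M, a ∉ O2 M → a * a ∈ O2 M → ∃ m₁ ∈ M, ∃ m₂ ∈ M,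
    ∃ y ∈ closure ({a, m₁ * a * m₁⁻¹, m₂ * a * m₂⁻¹} : Set G), orderOf y = 7
  gen : ∀ a ∈ M, a ∉ O2 M → a * a ∈ O2 M → ∃ m ∈ M, cj m S₀ ⊔ zpowers a = M
  qw : ∀ U₁ U₂ : Subgroup G, U₁ ≤ U₂ → U₂ ≤ O2 M → M ≤ Ns U₁ → M ≤ Ns U₂ → ∀ j ∈ M, j ∉ O2 M →
    ⁅U₂, zpowers j⁆ ≤ U₁ → U₂ ≤ U₁
  s64 : Om (O2 M) = W → W.relIndex (O2 M) ≤ 8 → ∀ t ∈ O2 M, t * t = 1 → t ∈ W
  gz : Om (O2 M) = W → ∀ v ∈ W, S₀ ≤ C1 v → v = 1 ∨ v = z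

/-- The module of order 64. -/
structure V6 (M S₀ : Subgroup G) (π : G → L32) (F : Subgroup G) : Prop where
  card : Nat.card (Om (O2 M)) = 64
  cF : Nat.card F = 16
  leF : F ≤ Om (O2 M)
  inv : ∀ a ∈ M, a ∉ O2 M → a * a ∈ O2 M → 4 ≤ (Om (O2 M) ⊓ C1 a).relIndex (Om (O2 M))
  fix : ∀ a ∈ M, inB (π a) → a ∉ O2 M → Om (O2 M) ⊓ C1 a = F
  big : ∀ E : Subgroup G, E ≤ S₀ → (O2 M).relIndex E = 4 →
    (Om (O2 M) ⊓ Cs E).relIndex (Om (O2 M)) ≤ 4 → (∀ e ∈ E, inB (π e)) ∧ ⁅Om (O2 M), E⁆ = F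
  tx : ∀ x ∈ M, orderOf x = 3 → x ∈ Ns F → ∀ v ∈ Om (O2 M), ⁅v, x⁆ ∈ F

/-- A critical pair together with the data for the shift. -/
structure CP (M : Subgroup G) (g h m' : G) : Prop where
  mM : m' ∈ M
  n1 : ¬ Om (O2 M) ≤ cj h (O2 M)
  l1 : cj h (Om (O2 M)) ≤ cj g (O2 M)
  l2 : Om (O2 M) ≤ cj (h * g) (O2 M)
  l3 : cj (h * g) (Om (O2 M)) ≤ O2 M
  l4 : ∀ m ∈ M, cj (m * g) (Om (O2 M)) ≤ cj (h * g * m' * g) (O2 M)

/-- The rank one situation modulo `V`. -/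
structure Rk (T V : Subgroup G) (σ a c : G) : Prop where
  two : IsPGroup 2 T
  o7 : orderOf σ = 7
  nT : σ ∈ Ns T
  fp : T ⊓ C1 σ = ⊥
  le : V ≤ T
  nV : T ≤ Ns V
  sV : σ ∈ Ns V
  aT : a ∈ T
  cT : c ∈ T
  cV : c ∉ V
  cc : c * c ∈ V
  cz : ∀ τ ∈ T, ⁅c, τ⁆ ∈ V
  ac : ∀ τ ∈ T, ⁅a, τ⁆ ∈ V ∨ ⁅a, τ⁆ * c ∈ V
  ne : ∃ τ ∈ T, ⁅a, τ⁆ ∉ V

/-- The two norms. -/
def h1 (σ c : G) : G := c * (σ * c * σ⁻¹) * (σ ^ 3 * c * (σ ^ 3)⁻¹)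

def h2 (σ c : G) : G := c * (σ ^ 2 * c * (σ ^ 2)⁻¹) * (σ ^ 3 * c * (σ ^ 3)⁻¹)

/-- The case where `O₂(M) ^ g` induces the axis group. -/
structure IB (M S₀ V : Subgroup G) (g : G) (π : G → L32) (c : G → V3) (z x s : G) : Prop where
  nl : NL M S₀ V g π c z
  ns : NS M S₀ V z
  eq : Om (O2 M) = V
  le : cj g V ≤ O2 M
  allB : ∀ t ∈ cj g (O2 M), inB (π t)
  sT : s ∈ cj g (O2 M)
  s12 : (π s).1 1 2 ≠ 0
  xM : x ∈ M
  ox : orderOf x = 3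
  px : π x = xA

def Yy (M : Subgroup G) (g z : G) : Subgroup G := (M ⊓ C1 z) ⊔ cj g (M ⊓ C1 z)

def Kk (M : Subgroup G) (g z : G) : Subgroup G := O2 (M ⊓ C1 z) ⊓ cj g (O2 (M ⊓ C1 z))

def Uu (M V : Subgroup G) (g z : G) : Subgroup G := ⨆ k : Yy M g z, cj (k : G) (V ⊔ cj g V)

/-- Facts about `Y` and `K`. -/
structure I1 (M S₀ V : Subgroup G) (g : G) (π : G → L32) (z x : G) : Prop where
  gz : g ∈ C1 z
  memQ : ∀ q, q ∈ O2 (M ⊓ C1 z) ↔ q ∈ M ∧ inA (π q)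
  memP : M ⊓ C1 z = S₀ ⊔ zpowers x
  cap : Nat.card ↥(V ⊓ cj g V) = 4
  i4 : (Kk M g z).relIndex S₀ = 4
  sol : Group.IsSolvable (Yy M g z)
  nK : Yy M g z ≤ Ns (Kk M g z)
  xK : ∀ q ∈ O2 (M ⊓ C1 z), ⁅q, x⁆ ∈ Kk M g z

/-- Facts about `U`. -/
structure I2 (M V : Subgroup G) (g z : G) : Prop where
  leK : Uu M V g z ≤ Kk M g z
  UK : ∀ u ∈ Uu M V g z, ∀ k ∈ Kk M g z, ⁅u, k⁆ ∈ zpowers z
  leT : Uu M V g z ≤ O2 M
  gU : g ∈ Ns (Uu M V g z)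
  ea : EA (Uu M V g z)

/-- One half of the linear configuration. -/
structure Hf (Y K U V : Subgroup G) (z x t s : G) : Prop where
  le : V ≤ U
  card : Nat.card V = 8
  zV : z ∈ V
  xY : x ∈ Y
  ox : orderOf x = 3
  xV : x ∈ Ns V
  xfp : ∀ v ∈ V, ⁅v, x⁆ ∈ zpowers z → v ∈ zpowers z
  tY : t ∈ Y
  tV : V ≤ C1 t
  tU : ∀ u ∈ U, ⁅u, t⁆ ∈ V
  tt : t * t ∈ K
  tx : ⁅t, x⁆ ∈ K
  sx : s * x * s⁻¹ * x ∈ K
  sV : s ∈ Ns V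
  nsV : ∃ v ∈ V, ⁅v, s⁆ ∉ zpowers z
  o2 : ∀ O : Subgroup G, IsPGroup 2 O → O ≤ Y → Y ≤ Ns O → O ⊓ Ns V ≤ K ⊔ zpowers t

/-- The linear configuration. -/
structure LG (Y K U V V' : Subgroup G) (z x x' t s : G) : Prop where
  a : Hf Y K U V z x t s
  b : Hf Y K U V' z x' s t
  sol : Group.IsSolvable Y
  pr : ∀ p : ℕ, p.Prime → p ∣ Nat.card Y → p = 2 ∨ p = 3
  oz : orderOf z = 2
  Yz : Y ≤ C1 z
  KY : K ≤ Y
  nK : Y ≤ Ns K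
  K2 : IsPGroup 2 K
  nU : Y ≤ Ns U
  ea : EA U
  UK : ∀ u ∈ U, ∀ k ∈ K, ⁅u, k⁆ ∈ zpowers z
  cap : Nat.card ↥(V ⊓ V') = 4
  gen : Y ≤ K ⊔ closure ({x, x', t, s} : Set G)
  min : ∀ U₁ : Subgroup G, V ≤ U₁ → V' ≤ U₁ → Y ≤ Ns U₁ → U ≤ U₁
  two : IsPGroup 2 ↥(Y ⊓ Ns V ⊓ Ns V')

/-- The order of `U`. -/
structure L1 (U : Subgroup G) (z x x' : G) : Prop where
  ge : 32 ≤ Nat.card U
  le : Nat.card U ≤ 64
  cx : ∀ C : Subgroup G, C ≤ U → (∀ c ∈ C, ⁅c, x⁆ ∈ zpowers z) → Nat.card C ≤ 4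
  cx' : ∀ C : Subgroup G, C ≤ U → (∀ c ∈ C, ⁅c, x'⁆ ∈ zpowers z) → Nat.card C ≤ 4

/-- `M / T` is `U₃(3)` or `G₂(2)`. -/
structure PG (M T : Subgroup G) (π : G → Gm) : Prop where
  le : T ≤ M
  two : IsPGroup 2 T
  mul : ∀ a ∈ M, ∀ b ∈ M, π (a * b) = π a * π b
  ker : ∀ a ∈ M, π a = 1 ↔ a ∈ T
  alt : ∀ σ ∈ L0, ∃ m ∈ M, π m = σ
  fp : ∀ y ∈ M, orderOf y = 7 → T ⊓ C1 y = ⊥

/-- The large class of elements of order three acts without fixed points. -/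
def FA (M T : Subgroup G) (π : G → Gm) : Prop :=
  ∀ r ∈ M, orderOf r = 3 → Cl (π r) → T ⊓ C1 r = ⊥

/-- An element of order three with a fixed four-group. -/
structure Gx (M V : Subgroup G) (x r : G) : Prop where
  nor : Ns V = M
  ea : EA V
  xM : x ∈ M
  ox : orderOf x = 3
  c4 : Nat.card ↥(V ⊓ C1 x) = 4
  rM : r ∈ M
  or : orderOf r = 3
  cm : r * x = x * r
  fp : V ⊓ C1 r = ⊥
  inv : ∀ j ∈ M, j * x = x * j → (∃ n : ℕ, orderOf j = 2 ^ n) → j ∈ V ∨ j * r * j⁻¹ * r ∈ V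
  no2 : ∀ U : Subgroup G, IsPGroup 2 U → U ≤ M → x ∈ Ns U → r ∈ Ns U → U ≤ V

end

/-- Facts about the 2-structure of `G₂(2)`. -/
structure UF : Prop where
  idx : L0.index = 2
  sim : IsSimpleGroup L0
  nab : ∃ r ∈ L0, ∃ s ∈ L0, Cl r ∧ Cl s ∧ r * s ≠ s * r
  inv3 : ∀ t ∈ L0, orderOf t = 2 → ∃ a ∈ L0, ∃ b ∈ L0,
    ∃ y ∈ closure ({t, a * t * a⁻¹, b * t * b⁻¹} : Set Gm), orderOf y = 7
  four : ∀ E : Subgroup Gm, E ≤ L0 → EA E → Nat.card E = 4 →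
    (∃ m ∈ L0, ∃ y ∈ E ⊔ cj m E, orderOf y = 7) ∧ ∃ x ∈ L0, orderOf x = 3 ∧ x ∈ Ns E ∧ x ∉ Cs E
  out : ∀ t, t ∉ L0 → orderOf t = 2 → ∃ y ∈ L0, orderOf y = 7 ∧ t * y * t⁻¹ = y⁻¹
  ab : ∀ B : Subgroup Gm, IsPGroup 2 B → IsMulCommutative B → Nat.card B ≤ 16
  ea : ∀ E : Subgroup Gm, E ≤ L0 → EA E → Nat.card E ≤ 4

/-! ### Reduction and tools -/

def StB0 : Prop := ∀ (G : Type u) [Group G] [Finite G] (p : ℕ), Gl G p → ∀ M S₀ : Subgroup G,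
  Mx M (O2 M) → ¬ Group.IsSolvable M → IsSylowIn 2 S₀ M → NC S₀ → ¬ IsSylowIn 2 S₀ ⊤ → ∃ g, NB p M S₀ g

def StNO : Prop := ∀ (G : Type u) [Group G] [Finite G] (p : ℕ) (M S₀ : Subgroup G) (g : G),
  NB p M S₀ g → Typ p M → NO p M S₀ g

def StDp : Prop := ∀ (G : Type u) [Group G] [Finite G] (M U₁ U₂ : Subgroup G) (y : G) (p : ℕ), p.Prime →
  p ≠ 2 → IsPGroup 2 U₂ → U₁ ≤ U₂ → U₂ ≤ M → M ≤ Ns U₁ → M ≤ Ns U₂ → y ∈ M → orderOf y = p →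
  U₂ ⊓ C1 y = ⊥ → U₁.relIndex U₂ ≡ 1 [MOD p] ∧
    (∀ (n : ℕ) (a : G) (m : Fin n → G), a ∈ M → (∀ i, m i ∈ M) →
      y ∈ closure (Set.range fun i => m i * a * (m i)⁻¹) →
      ∀ D : Subgroup G, U₁ ≤ D → D ≤ U₂ → (∀ d ∈ D, ⁅d, a⁆ ∈ U₁) → U₁.relIndex U₂ ≤ D.relIndex U₂ ^ n) ∧
    (∀ (B D : Subgroup G) (m : G), B ≤ M → m ∈ M → y ∈ B ⊔ cj m B → U₁ ≤ D → D ≤ U₂ → ⁅D, B⁆ ≤ U₁ →
      U₁.relIndex U₂ ≤ D.relIndex U₂ ^ 2) ∧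
    ∀ j ∈ M, j * y * j⁻¹ * y ∈ Cs U₂ → j * j ∈ Cs U₂ → IsMulCommutative U₂ →
      Nat.card ↥(U₂ ⊓ C1 j) ^ 2 = Nat.card U₂

def StR1a : Prop := ∀ (G : Type u) [Group G] [Finite G] (T V : Subgroup G) (σ a c : G), Rk T V σ a c →
  h1 σ c ∈ V ∨ h2 σ c ∈ V

def StR1b : Prop := ∀ (G : Type u) [Group G] [Finite G] (T V : Subgroup G) (σ a c : G), Rk T V σ a c →
  (h1 σ c ∈ V ∨ h2 σ c ∈ V) → ((∀ τ ∈ T, ⁅h1 σ a, τ⁆ ∈ V) ∨ ∀ τ ∈ T, ⁅h2 σ a, τ⁆ ∈ V) → False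

def StLin : Prop := ∀ e : L32 → V3,
  (∀ h s : L32, s.1 1 0 = 0 → s.1 2 0 = 0 → s.1 2 1 = 0 → e (h * s) = e h) →
  (∀ h : L32, (h⁻¹ : L32).1.mulVec (e h) 2 = 0) →
  (∀ h σ : L32, orderOf σ = 7 → ∑ i ∈ Finset.range 7, e (σ ^ i * h) = 0) →
  (∀ h : L32, e h + e (h * xA) + e (h * xA * xA) = 0) → e 1 = 0 → e xA = 0 → ∀ h, e h = 0

def StCP : Prop := ∀ (G : Type u) [Group G] [Finite G] (p : ℕ) (M S₀ : Subgroup G) (g : G),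
  NB p M S₀ g → NO p M S₀ g → cj g (Om (O2 M)) ≤ O2 M → ∃ h m', CP M g h m'

/-! ### The types without failure of factorization, and `L₂(8)` -/

def StX13 : Prop := ∀ (L : Type u) [Group L] [Finite L], L33 L →
  (∀ t : L, orderOf t = 2 → ∃ a b : L, ∃ y ∈ closure ({t, a * t * a⁻¹, b * t * b⁻¹} : Set L),
    orderOf y = 13) ∧ (∀ E : Subgroup L, EA E → Nat.card E ≤ 4) ∧
    ∀ R : Subgroup L, IsSylowIn 3 R ⊤ → Nat.card R = 27 ∧ ¬ IsMulCommutative R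

def StX17 : Prop := ∀ (L : Type u) [Group L] [Finite L], L2q 17 L →
  (∀ t : L, orderOf t = 2 → ∃ y : L, orderOf y = 17 ∧ t * y * t⁻¹ = y⁻¹) ∧
    (∀ E : Subgroup L, EA E → Nat.card E ≤ 4) ∧ ∀ w : L, orderOf w = 3 → ∃ v : L, v ^ 3 = w

/-- The image of an elementary abelian subgroup meets the socle in a subgroup of index at most two,
and transvections give elements of odd prime order with a large fixed space. -/
def StTv : Prop := ∀ (G : Type u) [Group G] [Finite G] (p : ℕ) (M S₀ : Subgroup G) (g : G) (X : Type u)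
  [Group X] [Finite X] (π : G → X) (L : Subgroup X), NB p M S₀ g → NO p M S₀ g → TX M π L →
  p ∣ Nat.card L →
    (∀ a ∈ M, ∀ b ∈ M, a * a ∈ O2 M → b * b ∈ O2 M → π a ∉ L → π b ∉ L → π (a * b) ∈ L) ∧
    ∀ a ∈ M, a ∉ O2 M → a * a ∈ O2 M → (Om (O2 M) ⊓ C1 a).relIndex (Om (O2 M)) ≤ 2 →
      ∃ w ∈ M, π w ∈ L ∧ (orderOf w = 3 ∨ orderOf w = p) ∧
        (Om (O2 M) ⊓ C1 w).relIndex (Om (O2 M)) ≤ 4

def StN13 : Prop := ∀ (G : Type u) [Group G] [Finite G] (M S₀ : Subgroup G) (g : G) (X : Type u)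
  [Group X] [Finite X] (π : G → X) (L : Subgroup X), NB 13 M S₀ g → NO 13 M S₀ g → TX M π L →
  L33 L → False

def StN17 : Prop := ∀ (G : Type u) [Group G] [Finite G] (M S₀ : Subgroup G) (g : G) (X : Type u)
  [Group X] [Finite X] (π : G → X) (L : Subgroup X), NB 17 M S₀ g → NO 17 M S₀ g → TX M π L →
  L2q 17 L → False

/-- Automorphisms of `L₃(2)` that preserve the class of the axis groups are inner. -/
def StX7 : Prop := ∀ (X : Type u) [Group X] [Finite X] (L : Subgroup X) (f : L ≃* L32), L.Normal →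
  Cs L = ⊥ → ∀ j : X, (∀ a : L, inB (f a) → ∃ b : L, (b : X) = j * a * j⁻¹ ∧ inB (f b)) → j ∈ L

def StN7 : Prop := ∀ (G : Type u) [Group G] [Finite G] (M S₀ : Subgroup G) (g : G) (X : Type u)
  [Group X] [Finite X] (π : G → X) (L : Subgroup X), NB 7 M S₀ g → NO 7 M S₀ g → TX M π L →
  L2q 7 L → Ty7 M

def StN8a : Prop := ∀ (G : Type u) [Group G] [Finite G] (M S₀ : Subgroup G) (g : G) (X : Type u)
  [Group X] [Finite X] (π : G → X) (L : Subgroup X), NB 7 M S₀ g → NO 7 M S₀ g → TX M π L →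
  L2q 8 L → Nat.card (O2 M) = 64

def StN8b : Prop := ∀ (G : Type u) [Group G] [Finite G] (M S₀ : Subgroup G) (g : G) (X : Type u)
  [Group X] [Finite X] (π : G → X) (L : Subgroup X), NB 7 M S₀ g → NO 7 M S₀ g → TX M π L →
  L2q 8 L → Nat.card (O2 M) = 64 → False

/-! ### The type `G₂(2)` -/

def StUS : Prop := ∃ S : Subgroup Gm, IsSylowIn 2 S ⊤ ∧ ∀ s, s ∈ S ↔ ∃ e < 64, s = sw e

def StU1 : Prop := L0.index = 2 ∧ IsSimpleGroup L0 ∧ (∀ a : Gm, a ∈ L0 ↔ a.right = 1) ∧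
  ∃ r ∈ L0, ∃ s ∈ L0, Cl r ∧ Cl s ∧ r * s ≠ s * r

def StU2 : Prop := (∀ t ∈ L0, orderOf t = 2 → ∃ a ∈ L0, ∃ b ∈ L0,
    ∃ y ∈ closure ({t, a * t * a⁻¹, b * t * b⁻¹} : Set Gm), orderOf y = 7) ∧
  ∀ t, t ∉ L0 → orderOf t = 2 → ∃ y ∈ L0, orderOf y = 7 ∧ t * y * t⁻¹ = y⁻¹

def StU3 : Prop := ∀ E : Subgroup Gm, E ≤ L0 → EA E → Nat.card E = 4 →
    (∃ m ∈ L0, ∃ y ∈ E ⊔ cj m E, orderOf y = 7) ∧ ∃ x ∈ L0, orderOf x = 3 ∧ x ∈ Ns E ∧ x ∉ Cs E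

def StU4 : Prop := (∀ B : Subgroup Gm, IsPGroup 2 B → IsMulCommutative B → Nat.card B ≤ 16) ∧
  ∀ E : Subgroup Gm, E ≤ L0 → EA E → Nat.card E ≤ 4

def StU5 : Prop := ∀ x : Gm, orderOf x = 3 → ¬ Cl x → ∃ r ∈ L0, Cl r ∧ r * x = x * r ∧
  (∀ j : Gm, j * x = x * j → (∃ n : ℕ, orderOf j = 2 ^ n) → j = 1 ∨ j * r * j⁻¹ = r⁻¹) ∧
  ∀ U : Subgroup Gm, IsPGroup 2 U → x ∈ Ns U → r ∈ Ns U → U = ⊥

def StU6 : Prop := ∀ (B : Type u) [AddCommGroup B] [Finite B] [DistribMulAction L0 B],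
  (∀ b : B, b + b = 0) → (∀ y : L0, orderOf y = 7 → ∀ b : B, y • b = b → b = 0) →
  ∀ r : L0, Cl r → ∀ b : B, r • b = b → b = 0

def StPG : Prop := ∀ (G : Type u) [Group G] [Finite G] (M S₀ : Subgroup G) (g : G) (X : Type u)
  [Group X] [Finite X] (π : G → X) (L : Subgroup X), NO 7 M S₀ g → TX M π L → U33 L →
    ∃ π' : G → Gm, PG M (O2 M) π'

def StGF : Prop := ∀ (G : Type u) [Group G] [Finite G] (M T : Subgroup G) (π : G → Gm), PG M T π →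
  FA M T π

def StGA : Prop := ∀ (G : Type u) [Group G] [Finite G] (M T : Subgroup G) (π : G → Gm), UF → PG M T π →
  FA M T π → IsMulCommutative T

def StGB : Prop := ∀ (G : Type u) [Group G] [Finite G] (M S₀ : Subgroup G) (g : G) (π : G → Gm), UF →
  NB 7 M S₀ g → NO 7 M S₀ g → PG M (O2 M) π → FA M (O2 M) π → IsMulCommutative (O2 M) →
    EA (O2 M) ∧ Nat.card (O2 M) = 64

def StGC : Prop := ∀ (G : Type u) [Group G] [Finite G] (M S₀ : Subgroup G) (g : G) (π : G → Gm), UF →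
  NB 7 M S₀ g → NO 7 M S₀ g → PG M (O2 M) π → EA (O2 M) → Nat.card (O2 M) = 64 →
    ∃ x ∈ M, orderOf x = 3 ∧ x ∈ Ns (cj g (O2 M)) ∧ Nat.card ↥(O2 M ⊓ C1 x) = 4 ∧
      Nat.card ↥(cj g (O2 M) ⊓ C1 x) = 4 ∧ ¬ cj g (O2 M) ⊓ C1 x ≤ O2 M

def StGD : Prop := ∀ (G : Type u) [Group G] [Finite G] (M V : Subgroup G) (π : G → Gm), PG M V π →
  FA M V π → EA V → Ns V = M → ∀ x ∈ M, orderOf x = 3 → Nat.card ↥(V ⊓ C1 x) = 4 → ∃ r, Gx M V x r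

def StGE : Prop := ∀ (G : Type u) [Group G] [Finite G], Gl G 7 → ∀ (M V : Subgroup G) (g x r r' : G),
  Gx M V x r → Gx M V (g⁻¹ * x * g) r' → cj g V ≤ M → cj g V ⊓ C1 x ≤ V

/-! ### The type `L₃(2)` -/

def StCoB : Prop := ∀ (G : Type u) [Group G] [Finite G] (M S₀ : Subgroup G) (g : G), NB 7 M S₀ g →
  NO 7 M S₀ g → Ty7 M → ∃ (W : Subgroup G) (π : G → L32) (c : G → V3) (z : G), NL M S₀ W g π c z

def StNS : Prop := ∀ (G : Type u) [Group G] [Finite G] (M S₀ W : Subgroup G) (g : G) (π : G → L32)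
  (c : G → V3) (z : G), NL M S₀ W g π c z → NS M S₀ W z

def StV6 : Prop := ∀ (G : Type u) [Group G] [Finite G] (M S₀ W : Subgroup G) (g : G) (π : G → L32)
  (c : G → V3) (z : G), NL M S₀ W g π c z → NS M S₀ W z → Om (O2 M) ≠ W → ∃ F, V6 M S₀ π F

def StB16 : Prop := ∀ (G : Type u) [Group G] [Finite G] (M S₀ W F : Subgroup G) (g : G) (π : G → L32)
  (c : G → V3) (z : G), NL M S₀ W g π c z → NS M S₀ W z → V6 M S₀ π F → cj g (Om (O2 M)) ≤ O2 M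

def StSh6 : Prop := ∀ (G : Type u) [Group G] [Finite G] (M S₀ W F : Subgroup G) (g : G) (π : G → L32)
  (c : G → V3) (z h m' : G), NL M S₀ W g π c z → NS M S₀ W z → V6 M S₀ π F →
    cj g (Om (O2 M)) ≤ O2 M → CP M g h m' → False

def StB18 : Prop := ∀ (G : Type u) [Group G] [Finite G] (M S₀ V : Subgroup G) (g : G) (π : G → L32)
  (c : G → V3) (z : G), NL M S₀ V g π c z → NS M S₀ V z → Om (O2 M) = V → cj g V ≤ O2 M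

def StSh8 : Prop := ∀ (G : Type u) [Group G] [Finite G] (M S₀ V : Subgroup G) (g : G) (π : G → L32)
  (c : G → V3) (z h m' : G), NL M S₀ V g π c z → NS M S₀ V z → Om (O2 M) = V → cj g V ≤ O2 M →
    (∀ t ∈ cj g (O2 M), inB (π t) → (π t).1 1 2 = 0) → CP M g h m' → False

def StD8 : Prop := ∀ (G : Type u) [Group G] [Finite G] (M S₀ V : Subgroup G) (g : G) (π : G → L32)
  (c : G → V3) (z s : G), NL M S₀ V g π c z → NS M S₀ V z → Om (O2 M) = V → cj g V ≤ O2 M →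
    s ∈ cj g (O2 M) → inB (π s) → (π s).1 1 2 ≠ 0 → ∀ t ∈ cj g (O2 M), inB (π t)

def StI1 : Prop := ∀ (G : Type u) [Group G] [Finite G] (M S₀ V : Subgroup G) (g : G) (π : G → L32)
  (c : G → V3) (z x s : G), IB M S₀ V g π c z x s → I1 M S₀ V g π z x

def StI2 : Prop := ∀ (G : Type u) [Group G] [Finite G] (M S₀ V : Subgroup G) (g : G) (π : G → L32)
  (c : G → V3) (z x s : G), IB M S₀ V g π c z x s → I1 M S₀ V g π z x → I2 M V g z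

def StI3 : Prop := ∀ (G : Type u) [Group G] [Finite G] (M S₀ V : Subgroup G) (g : G) (π : G → L32)
  (c : G → V3) (z x s : G), IB M S₀ V g π c z x s → I1 M S₀ V g π z x → I2 M V g z →
    ∀ u ∈ Uu M V g z, ∀ t ∈ O2 M, ⁅u, t⁆ ∈ V

def StI4 : Prop := ∀ (G : Type u) [Group G] [Finite G] (M S₀ V : Subgroup G) (g : G) (π : G → L32)
  (c : G → V3) (z x s : G), IB M S₀ V g π c z x s → I1 M S₀ V g π z x → I2 M V g z →
    (∀ u ∈ Uu M V g z, ∀ t ∈ O2 M, ⁅u, t⁆ ∈ V) →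
    LG (Yy M g z) (Kk M g z) (Uu M V g z) V (cj g V) z x (g * x * g⁻¹) (g * s * g⁻¹) s

def StLG1 : Prop := ∀ (G : Type u) [Group G] [Finite G] (Y K U V V' : Subgroup G) (z x x' t s : G),
  LG Y K U V V' z x x' t s → L1 U z x x'

def StLG2 : Prop := ∀ (G : Type u) [Group G] [Finite G] (Y K U V V' : Subgroup G) (z x x' t s : G),
  LG Y K U V V' z x x' t s → L1 U z x x' → O2 Y ≤ K

def StLG3 : Prop := ∀ (G : Type u) [Group G] [Finite G] (Y K U V V' : Subgroup G) (z x x' t s : G),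
  LG Y K U V V' z x x' t s → L1 U z x x' → O2 Y ≤ K → ⁅x, x'⁆ ∈ K

def StLG4 : Prop := ∀ (G : Type u) [Group G] [Finite G] (Y K U V V' : Subgroup G) (z x x' t s : G),
  LG Y K U V V' z x x' t s → ⁅x, x'⁆ ∈ K → U = V ⊔ V' ⊔ cj x V' ∧
    ∀ v ∈ V', v * (x * v * x⁻¹) * (x * x * v * (x * x)⁻¹) ∈ V

def StI5 : Prop := ∀ (G : Type u) [Group G] [Finite G] (M S₀ V : Subgroup G) (g : G) (π : G → L32)
  (c : G → V3) (z x s : G), IB M S₀ V g π c z x s → I1 M S₀ V g π z x → I2 M V g z →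
    Uu M V g z = V ⊔ cj g V ⊔ cj x (cj g V) →
    (∀ v ∈ cj g V, v * (x * v * x⁻¹) * (x * x * v * (x * x)⁻¹) ∈ V) → False

theorem inA_eq_1' : type_of% @inA.eq_1 := @inA.eq_1
theorem inB_eq_1' : type_of% @inB.eq_1 := @inB.eq_1
theorem xA_eq_1' : type_of% @xA.eq_1 := @xA.eq_1
theorem Cl_eq_1' : type_of% @Cl.eq_1 := @Cl.eq_1
theorem swL_eq_1' : type_of% @swL.eq_1 := @swL.eq_1
theorem sw_eq_1' : type_of% @sw.eq_1 := @sw.eq_1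
theorem h1_eq_1' : type_of% @h1.eq_1.{u} := @h1.eq_1.{u}
theorem h2_eq_1' : type_of% @h2.eq_1.{u} := @h2.eq_1.{u}
theorem Yy_eq_1' : type_of% @Yy.eq_1.{u} := @Yy.eq_1.{u}
theorem Kk_eq_1' : type_of% @Kk.eq_1.{u} := @Kk.eq_1.{u}
theorem Uu_eq_1' : type_of% @Uu.eq_1.{u} := @Uu.eq_1.{u}
theorem FA_eq_1' : type_of% @FA.eq_1.{u} := @FA.eq_1.{u}

end Cfsg.Lib.K7
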