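import Cfsg.Agent.K7.NDefs

/-! Pushing up `L₃(2)`: the action of an involution when the permutation part vanishes. -/

set_option autoImplicit false
set_option maxRecDepth 100000

namespace Cfsg.Lib.K7.N3

open Cfsg Subgroup Cfsg.Lib.Trans Cfsg.Lib.Gold Matrix
open Cfsg.Lib.P8 (L32 V3 O2 Om Jt Phi EA Pj Ty Mx Crd)
open scoped commutatorElement

universe u

theorem N3B.tr : ∀ x y : V3, x ≠ 0 → y ≠ 0 → ∃ A : L32, x ᵥ* A.1 = y := by decide +kernel

variable {G : Type u} [Group G] [Finite G] {M T S V R X Y : Subgroup G} {π ρ : G → L32} {c κ τ : G → V3}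
  {u g : G} {ε : ZMod 2}

set_option linter.unusedSectionVars false in
theorem NN.ub {ν : G → V3 → ZMod 2} (h : NN M T S V π c) (hu : UU T S V c u) (hA : UA M T V π c u ν τ ε)
    (h0 : ∀ t ∈ T, ν t = 0) : UB M T V π c u τ ε := by
  have cm : ∀ m ∈ M, ∀ t ∈ T, ⁅m * u * m⁻¹, t⁆ ∈ V ∧
      c ⁅m * u * m⁻¹, t⁆ = cx (τ t) (ph (π m)) := fun m hm t ht => by
    refine ⟨(hA.cm m hm t ht).1, ?_⟩
    rw [(hA.cm m hm t ht).2, h0 t ht, show pr _ 0 = 0 by simp [pr], zero_add]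
  refine ⟨hA.add, hA.eqv, fun φ => ?_, cm, hA.tu⟩
  by_cases e : φ = 0
  · have := hA.add 1 (one_mem _) 1 (one_mem _)
    rw [mul_one, left_eq_add] at this
    exact ⟨1, one_mem _, this.trans e.symm⟩
  obtain ⟨t, ht, t0⟩ : ∃ t ∈ T, τ t ≠ 0 := by
    by_contra! k
    refine hu.uV (h.om u hu.uT hu.sq fun t ht => ?_)
    have := cm 1 (one_mem _) t ht
    rw [one_mul, inv_one, mul_one, k t ht, show cx 0 _ = 0 by simp [cx]] at this
    exact (commutatorElement_eq_one_iff_mul_comm.1 ((h.crd.zero _ this.1).1 this.2)).symm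
  obtain ⟨A, e1⟩ := N3B.tr _ _ t0 e
  obtain ⟨m, hm, e2⟩ := h.pj.sur A⁻¹
  exact ⟨m * t * m⁻¹, (mem_normalizer_iff.1 (h.nT hm) t).1 ht, by
    rw [hA.eqv m hm t ht, e2, inv_inv, e1]⟩

end Cfsg.Lib.K7.N3
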