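import Cfsg.Agent.K7.N3Q

/-!
# Pushing up `L₃(2)` with a fixed point free element of order seven: finite checks
-/

set_option autoImplicit false
set_option maxRecDepth 100000
set_option synthInstance.maxSize 4096

namespace Cfsg.Lib.K7.N3

open Cfsg Subgroup Cfsg.Lib.Trans Cfsg.Lib.Gold Matrix
open Cfsg.Lib.P8 (L32 V3 O2 Om Jt Phi EA Pj Ty Mx Crd)
open scoped commutatorElement

universe u

namespace N3R

/-- The even function with six prescribed values. -/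
def mk (a b c d e f : ZMod 2) : V3 → ZMod 2 := fun v =>
  if v 0 = 0 then (if v 1 = 0 then (if v 2 = 0 then 0 else a) else (if v 2 = 0 then b else c))
  else (if v 1 = 0 then (if v 2 = 0 then d else e) else (if v 2 = 0 then f else a + b + c + d + e + f))

theorem mk_eq_1' : type_of% @mk.eq_1 := @mk.eq_1

theorem univ_eq : (Finset.univ : Finset V3) =
    {![0, 0, 0], ![0, 0, 1], ![0, 1, 0], ![0, 1, 1], ![1, 0, 0], ![1, 0, 1], ![1, 1, 0], ![1, 1, 1]} := by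
  decide +kernel

theorem cases_v : ∀ v : V3, v = ![0, 0, 0] ∨ v = ![0, 0, 1] ∨ v = ![0, 1, 0] ∨ v = ![0, 1, 1] ∨
    v = ![1, 0, 0] ∨ v = ![1, 0, 1] ∨ v = ![1, 1, 0] ∨ v = ![1, 1, 1] := by decide +kernel

theorem sum_eq (n : V3 → ZMod 2) : ∑ v, n v = n ![0, 0, 0] + (n ![0, 0, 1] + (n ![0, 1, 0] +
    (n ![0, 1, 1] + (n ![1, 0, 0] + (n ![1, 0, 1] + (n ![1, 1, 0] + n ![1, 1, 1])))))) := by
  rw [univ_eq, Finset.sum_insert (by decide +kernel), Finset.sum_insert (by decide +kernel),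
    Finset.sum_insert (by decide +kernel), Finset.sum_insert (by decide +kernel),
    Finset.sum_insert (by decide +kernel), Finset.sum_insert (by decide +kernel),
    Finset.sum_insert (by decide +kernel), Finset.sum_singleton]

theorem last : ∀ a b c d e f g : ZMod 2, 0 + (a + (b + (c + (d + (e + (f + g)))))) = 0 →
    g = a + b + c + d + e + f := by decide +kernel

theorem eq_mk {n : V3 → ZMod 2} (hn : Ev n) : n = mk (n ![0, 0, 1]) (n ![0, 1, 0]) (n ![0, 1, 1])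
    (n ![1, 0, 0]) (n ![1, 0, 1]) (n ![1, 1, 0]) := by
  have h0 : n ![0, 0, 0] = 0 := by
    rw [show (![0, 0, 0] : V3) = 0 by decide +kernel]; exact hn.1
  have h1 := hn.2
  rw [sum_eq, h0] at h1
  have h2 := last _ _ _ _ _ _ _ h1
  funext v
  rcases cases_v v with rfl | rfl | rfl | rfl | rfl | rfl | rfl | rfl
  · exact h0
  · rfl
  · rfl
  · rfl
  · rfl
  · rfl
  · rfl
  · exact h2

theorem ex_mk {n : V3 → ZMod 2} (hn : Ev n) : ∃ a b c d e f, n = mk a b c d e f :=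
  ⟨_, _, _, _, _, _, eq_mk hn⟩

theorem ev_mk : ∀ a b c d e f : ZMod 2, mk a b c d e f 0 = 0 ∧ ∑ v, mk a b c d e f v = 0 := by
  decide +kernel

theorem u0 : ∀ (a b c d e f : ZMod 2) (τ : V3), (∀ z φ : V3, z ≠ 0 → φ ≠ 0 → φ ⬝ᵥ z = 0 →
    pr (ind z φ) (mk a b c d e f) + cx τ φ = 0) → mk a b c d e f = 0 ∧ τ = 0 := by
  decide +kernel

theorem k0 : ∀ (a b c d e f : ZMod 2) (τ : V3), (∀ z φ : V3, z ≠ 0 → φ ≠ 0 → φ ⬝ᵥ z = 0 →
    ∃ t : ZMod 2, pr (ind z φ) (mk a b c d e f) + cx τ φ = t • z) →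
    ∀ z φ : V3, z ≠ 0 → φ ≠ 0 → φ ⬝ᵥ z = 0 →
      pr (ind z φ) (mk a b c d e f) + cx τ φ = (τ ⬝ᵥ z) • z := by
  decide +kernel

theorem sym : ∀ (a b c d e f : ZMod 2) (τ : V3), pr (ind e0 e2) (mk a b c d e f) + cx τ e2 = 0 →
    pr (ind ![0, 0, 1] ![1, 0, 0]) (mk a b c d e f) + cx τ ![1, 0, 0] =
      !![0, 0, 1; 0, 1, 0; 1, 0, 1] *ᵥ
        (pr (ind ![1, 0, 1] ![1, 0, 1]) (mk a b c d e f) + cx τ ![1, 0, 1]) →
    pr (ind ![0, 1, 0] ![1, 0, 0]) (mk a b c d e f) + cx τ ![1, 0, 0] =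
      !![0, 0, 1; 1, 0, 0; 0, 1, 0] *ᵥ
        (pr (ind ![0, 0, 1] ![0, 1, 0]) (mk a b c d e f) + cx τ ![0, 1, 0]) →
    mk a b c d e f = 0 ∧ ∃ ε : ZMod 2, τ = ε • e2 := by
  decide +kernel

theorem nn : ∀ a b c d e f a' b' c' d' e' f' : ZMod 2,
    pr (mk a b c d e f) (fun v => mk a' b' c' d' e' f' (!![0, 0, 1; 0, 1, 0; 1, 0, 0] *ᵥ v)) = 0 →
    pr (mk a b c d e f) (fun v => mk a' b' c' d' e' f' (!![0, 1, 0; 1, 0, 0; 0, 1, 1] *ᵥ v)) = 0 →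
    pr (mk a b c d e f) (fun v => mk a' b' c' d' e' f' (!![0, 1, 1; 1, 1, 1; 1, 0, 1] *ᵥ v)) = 0 →
    pr (mk a b c d e f) (fun v => mk a' b' c' d' e' f' (!![1, 0, 0; 1, 0, 1; 1, 1, 0] *ᵥ v)) = 0 →
    pr (mk a b c d e f) (fun v => mk a' b' c' d' e' f' (!![0, 0, 1; 1, 1, 0; 0, 1, 1] *ᵥ v)) = 0 →
    mk a' b' c' d' e' f' = 0 ∨ mk a b c d e f = 0 := by
  decide +kernel

theorem span : ∀ a b c d e f : ZMod 2, mk a b c d e f =
    a • ind ![1, 1, 0] ![1, 1, 0] + b • ind ![1, 0, 1] ![1, 0, 1] + c • ind ![1, 0, 0] ![0, 1, 1] +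
    d • ind ![0, 1, 1] ![0, 1, 1] + e • ind ![0, 1, 0] ![1, 0, 1] + f • ind ![0, 0, 1] ![1, 1, 0] := by
  decide +kernel

end N3R

open N3R

theorem eU {n : V3 → ZMod 2} {τ : V3} (hn : Ev n)
    (h : ∀ A : L32, pr (ind (pt A) (ph A)) n + cx τ (ph A) = 0) : n = 0 ∧ τ = 0 := by
  obtain ⟨a, b, c, d, e, f, rfl⟩ := ex_mk hn
  refine u0 a b c d e f τ fun z φ hz hφ h0 => ?_
  obtain ⟨A, rfl, rfl⟩ := ex_flag z φ hz hφ h0
  exact h A

theorem eK0 {n : V3 → ZMod 2} {τ : V3} (hn : Ev n)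
    (h : ∀ A : L32, ∃ a : ZMod 2, pr (ind (pt A) (ph A)) n + cx τ (ph A) = a • pt A) (A : L32) :
    pr (ind (pt A) (ph A)) n + cx τ (ph A) = (τ ⬝ᵥ pt A) • pt A := by
  obtain ⟨a, b, c, d, e, f, rfl⟩ := ex_mk hn
  refine k0 a b c d e f τ (fun z φ hz hφ h0 => ?_) _ _ (pt_ne A) (ph_ne A) (ph_pt A)
  obtain ⟨A, rfl, rfl⟩ := ex_flag z φ hz hφ h0
  exact h A

theorem eSym {n : V3 → ZMod 2} {τ : V3} (hn : Ev n) (h1 : pr (ind e0 e2) n + cx τ e2 = 0)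
    (h : ∀ A : L32, pr (ind (pt A) (ph A)) n + cx τ (ph A) =
      A.1 *ᵥ (pr (ind (pt A⁻¹) (ph A⁻¹)) n + cx τ (ph A⁻¹))) : n = 0 ∧ ∃ ε : ZMod 2, τ = ε • e2 := by
  obtain ⟨a, b, c, d, e, f, rfl⟩ := ex_mk hn
  let A : L32 := ⟨!![0, 0, 1; 0, 1, 0; 1, 0, 1], by decide +kernel⟩
  let B : L32 := ⟨!![0, 0, 1; 1, 0, 0; 0, 1, 0], by decide +kernel⟩
  have hA := h A
  have hB := h B
  rw [show pt A = ![0, 0, 1] by decide +kernel, show ph A = ![1, 0, 0] by decide +kernel,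
    show pt A⁻¹ = ![1, 0, 1] by decide +kernel, show ph A⁻¹ = ![1, 0, 1] by decide +kernel] at hA
  rw [show pt B = ![0, 1, 0] by decide +kernel, show ph B = ![1, 0, 0] by decide +kernel,
    show pt B⁻¹ = ![0, 0, 1] by decide +kernel, show ph B⁻¹ = ![0, 1, 0] by decide +kernel] at hB
  exact sym a b c d e f τ h1 hA hB

theorem eN {n η : V3 → ZMod 2} (hn : Ev n) (h0 : n ≠ 0) (hη : Ev η)
    (h : ∀ A : L32, pr η (fun v => n (A.1 *ᵥ v)) = 0) : η = 0 := by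
  obtain ⟨a', b', c', d', e', f', rfl⟩ := ex_mk hn
  obtain ⟨a, b, c, d, e, f, rfl⟩ := ex_mk hη
  exact (nn a b c d e f a' b' c' d' e' f'
    (h ⟨!![0, 0, 1; 0, 1, 0; 1, 0, 0], by decide +kernel⟩)
    (h ⟨!![0, 1, 0; 1, 0, 0; 0, 1, 1], by decide +kernel⟩)
    (h ⟨!![0, 1, 1; 1, 1, 1; 1, 0, 1], by decide +kernel⟩)
    (h ⟨!![1, 0, 0; 1, 0, 1; 1, 1, 0], by decide +kernel⟩)
    (h ⟨!![0, 0, 1; 1, 1, 0; 0, 1, 1], by decide +kernel⟩)).resolve_left h0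

theorem eSpan (P : (V3 → ZMod 2) → Prop) (h0 : P 0) (ha : ∀ η η', P η → P η' → P (η + η'))
    (hi : ∀ A : L32, P (ind (pt A) (ph A))) (η : V3 → ZMod 2) (hη : Ev η) : P η := by
  obtain ⟨a, b, c, d, e, f, rfl⟩ := ex_mk hη
  have key : ∀ (t : ZMod 2) (z φ : V3), z ≠ 0 → φ ≠ 0 → φ ⬝ᵥ z = 0 → P (t • ind z φ) := by
    intro t z φ hz hφ h
    obtain ⟨A, rfl, rfl⟩ := ex_flag z φ hz hφ h
    rcases (by decide : ∀ t : ZMod 2, t = 0 ∨ t = 1) t with rfl | rfl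
    · rw [zero_smul]; exact h0
    · rw [one_smul]; exact hi A
  rw [span]
  refine ha _ _ (ha _ _ (ha _ _ (ha _ _ (ha _ _ ?_ ?_) ?_) ?_) ?_) ?_ <;>
    exact key _ _ _ (by decide +kernel) (by decide +kernel) (by decide +kernel)

theorem card_ev : Nat.card {η : V3 → ZMod 2 // Ev η} = 64 := by
  have e : {η : V3 → ZMod 2 // Ev η} ≃ ZMod 2 × ZMod 2 × ZMod 2 × ZMod 2 × ZMod 2 × ZMod 2 :=
    { toFun := fun η => (η.1 ![0, 0, 1], η.1 ![0, 1, 0], η.1 ![0, 1, 1], η.1 ![1, 0, 0],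
        η.1 ![1, 0, 1], η.1 ![1, 1, 0])
      invFun := fun x => ⟨mk x.1 x.2.1 x.2.2.1 x.2.2.2.1 x.2.2.2.2.1 x.2.2.2.2.2, ev_mk _ _ _ _ _ _⟩
      left_inv := fun η => Subtype.ext (eq_mk η.2).symm
      right_inv := fun _ => rfl }
  rw [Nat.card_congr e]
  simp only [Nat.card_prod, Nat.card_zmod]

end Cfsg.Lib.K7.N3
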