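import Cfsg.Agent.K7.N3Q
import Cfsg.Agent.K7.N3R

/-! The module of order `2 ^ 9`. -/

set_option autoImplicit false

namespace Cfsg.Lib.K7.N3

open Cfsg Subgroup Cfsg.Lib.Trans Cfsg.Lib.Gold Matrix
open Cfsg.Lib.P8 (L32 V3 O2 Om Jt Phi EA Pj Ty Mx Crd)
open scoped commutatorElement

universe u

variable {G : Type u} [Group G] [Finite G] {M T S V R X Y : Subgroup G} {π ρ : G → L32} {c κ τ : G → V3}
  {u g : G} {ε : ZMod 2}

namespace N3C

variable {ν : G → V3 → ZMod 2} {a b : G} {η η' : V3 → ZMod 2}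

/-- `e` is an involution acting on `T` through `η`. -/
def QQ (T V : Subgroup G) (c : G → V3) (ν : G → V3 → ZMod 2) (e : G) (η : V3 → ZMod 2) : Prop :=
  e ∈ T ∧ e * e = 1 ∧ ν e = 0 ∧ Ev η ∧ ∀ t ∈ T, ⁅e, t⁆ ∈ V ∧ c ⁅e, t⁆ = pr η (ν t)

theorem self_add {ι : Type} (x : ι → ZMod 2) : x + x = 0 :=
  funext fun _ => CharTwo.add_self_eq_zero _

theorem eq_of_add {ι : Type} {x y : ι → ZMod 2} (e : x + y = 0) : x = y := by
  rw [← add_zero x, ← self_add y, ← add_assoc, e, zero_add]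

/-- An element of order three permuting the points of the standard plane. -/
def X2 : L32 := ⟨!![0, 1, 0; 1, 1, 0; 0, 0, 1], by decide⟩

theorem ph_X2 : ph X2 = e2 ∧ ph (X2 * X2) = e2 := by decide +kernel

theorem ind_X2 : ∀ v, ind (pt X2) (ph X2) v + ind (pt (X2 * X2)) (ph (X2 * X2)) v =
    ind (pt 1) (ph 1) v := by decide +kernel

theorem mv (A : L32) (v : V3) : A.1 *ᵥ ((A⁻¹).1 *ᵥ v) = v := by
  have : A.1 * (A⁻¹).1 = 1 := congrArg Subtype.val (mul_inv_cancel A)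
  rw [mulVec_mulVec, this, one_mulVec]

theorem mv' (A : L32) (v : V3) : (A⁻¹).1 *ᵥ (A.1 *ᵥ v) = v := by
  simpa only [inv_inv] using mv A⁻¹ v

omit [Finite G]

theorem cmul (h : NN M T S V π c) (ha : a ∈ T) {t : G} (h1 : ⁅a, t⁆ ∈ V) (h2 : ⁅b, t⁆ ∈ V) :
    ⁅a * b, t⁆ ∈ V ∧ c ⁅a * b, t⁆ = c ⁅a, t⁆ + c ⁅b, t⁆ := by
  have e : ⁅a * b, t⁆ = ⁅b, t⁆ * ⁅a, t⁆ := by
    calc _ = a * ⁅b, t⁆ * a⁻¹ * ⁅a, t⁆ := by simp only [commutatorElement_def]; group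
      _ = _ := by rw [mem_centralizer_iff.1 (h.cV h2) a ha, mul_inv_cancel_right]
  rw [e, h.crd.add _ h2 _ h1, add_comm]
  exact ⟨mul_mem h2 h1, rfl⟩

theorem QQ.comm (h : NN M T S V π c) (ha : QQ T V c ν a η) (hb : QQ T V c ν b η') :
    a * b = b * a := by
  have := ha.2.2.2.2 b hb.1
  rw [hb.2.2.1, pr_zero_r, h.crd.zero _ this.1] at this
  exact commutatorElement_eq_one_iff_mul_comm.1 this.2

theorem QQ.mul (h : NN M T S V π c) (hA : UA M T V π c u ν τ ε) (ha : QQ T V c ν a η)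
    (hb : QQ T V c ν b η') : QQ T V c ν (a * b) (η + η') := by
  refine ⟨mul_mem ha.1 hb.1, ?_, by rw [hA.add' a ha.1 b hb.1, ha.2.2.1, hb.2.2.1, add_zero],
    ha.2.2.2.1.add hb.2.2.2.1, fun t ht => ?_⟩
  · calc _ = a * (b * a) * b := by group
      _ = a * a * (b * b) := by rw [← ha.comm h hb]; group
      _ = 1 := by rw [ha.2.1, hb.2.1, one_mul]
  · have := cmul h ha.1 (ha.2.2.2.2 t ht).1 (hb.2.2.2.2 t ht).1
    rwa [(ha.2.2.2.2 t ht).2, (hb.2.2.2.2 t ht).2, ← pr_add_l] at this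

theorem c_one (h : NN M T S V π c) : c 1 = 0 := (h.crd.zero 1 (one_mem _)).2 rfl

theorem qq_V (h : NN M T S V π c) (hu : UU T S V c u) (hA : UA M T V π c u ν τ ε) (ha : a ∈ V) :
    QQ T V c ν a 0 := by
  have aT := h.leV ha
  refine ⟨aT, (h.crd.zero _ (mul_mem ha ha)).1 (by rw [h.crd.add a ha a ha, self_add]), ?_,
    ev_zero, fun t ht => ?_⟩
  · refine (eU (τ := τ a) (hA.ev' a aT) fun A => ?_).1
    obtain ⟨m, hm, rfl⟩ := h.pj.sur A
    rw [← (hA.cm m hm a aT).2, commutatorElement_eq_one_iff_mul_comm.2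
      (mem_centralizer_iff.1 (h.cV ha) _ (mem_normalizer_conj (h.nT hm) hu.uT)), c_one h]
  · rw [commutatorElement_eq_one_iff_mul_comm.2 (mem_centralizer_iff.1 (h.cV ha) t ht).symm, c_one h, pr_zero_l]
    exact ⟨one_mem _, rfl⟩

theorem nu_conj (h : NN M T S V π c) (hA : UA M T V π c u ν τ ε) {m t : G} (hm : m ∈ M) (ht : t ∈ T)
    (v : V3) : ν t ((π m).1 *ᵥ v) = ν (m⁻¹ * t * m) v := by
  rw [← hA.eqv' m hm _ (mem_normalizer_conj' (h.nT hm) ht) v,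
    show m * (m⁻¹ * t * m) * m⁻¹ = t by group]

theorem QQ.uniq (h : NN M T S V π c) (hA : UA M T V π c u ν τ ε) {t : G} (ht : t ∈ T)
    (h0 : ν t ≠ 0) (ha : QQ T V c ν a η) (hb : QQ T V c ν a η') : η = η' := by
  refine eq_of_add (eN (hA.ev' t ht) h0 (ha.2.2.2.1.add hb.2.2.2.1) fun A => ?_)
  obtain ⟨m, hm, rfl⟩ := h.pj.sur A
  have t' := mem_normalizer_conj' (h.nT hm) ht
  rw [show (fun v => ν t ((π m).1 *ᵥ v)) = ν (m⁻¹ * t * m) from funext (nu_conj h hA hm ht),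
    pr_add_l, ← (ha.2.2.2.2 _ t').2, ← (hb.2.2.2.2 _ t').2, self_add]

theorem QQ.conj (h : NN M T S V π c) (hA : UA M T V π c u ν τ ε) {m : G} (hm : m ∈ M)
    (ha : QQ T V c ν a η) : QQ T V c ν (m * a * m⁻¹) fun v => η (((π m)⁻¹).1 *ᵥ v) := by
  refine ⟨mem_normalizer_conj (h.nT hm) ha.1, ?_, funext fun v => ?_, ha.2.2.2.1.comp _,
    fun t ht => ?_⟩
  · calc _ = m * (a * a) * m⁻¹ := by group
      _ = 1 := by rw [ha.2.1]; group
  · rw [← mv (π m) v, hA.eqv' m hm a ha.1, ha.2.2.1]; rfl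
  · have t' := ha.2.2.2.2 _ (mem_normalizer_conj' (h.nT hm) ht)
    rw [show ⁅m * a * m⁻¹, t⁆ = m * ⁅a, m⁻¹ * t * m⁆ * m⁻¹ by
      simp only [commutatorElement_def]; group, h.crd.eqv m hm _ t'.1, t'.2]
    exact ⟨mem_normalizer_conj (h.nV hm) t'.1, (pr_eqv (π m) _ _ _ _
      (fun v => by simp only [mv']) (nu_conj h hA hm ht)).symm⟩

theorem ex_ind (h : NN M T S V π c) (hu : UU T S V c u) (hA : UA M T V π c u ν τ ε) (A : L32) :
    ∃ q, QQ T V c ν q (ind (pt A) (ph A)) := by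
  obtain ⟨m, hm, e1⟩ := h.pj.sur (A * X2)
  obtain ⟨n, hn, e2⟩ := h.pj.sur (A * (X2 * X2))
  have p : ph (π n) = ph (π m) := by rw [e1, e2, ph_mul, ph_mul A, ph_X2.1, ph_X2.2]
  have mT := mem_normalizer_conj (h.nT hm) hu.uT
  have nT := mem_normalizer_conj (h.nT hn) hu.uT
  have sq : ∀ k : G, k * u * k⁻¹ * (k * u * k⁻¹) = 1 := fun k => by
    calc _ = k * (u * u) * k⁻¹ := by group
      _ = 1 := by rw [hu.sq]; group
  have cm := hA.cm m hm _ nT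
  rw [hA.nu n hn, hA.tu n hn, pr_zero_r, p, cx_self, add_zero, h.crd.zero _ cm.1,
    commutatorElement_eq_one_iff_mul_comm] at cm
  refine ⟨m * u * m⁻¹ * (n * u * n⁻¹), mul_mem mT nT, ?_,
    by rw [hA.add' _ mT _ nT, hA.nu m hm, hA.nu n hn, add_zero], ev_ind A, fun t ht => ?_⟩
  · have s1 := sq m
    have s2 := sq n
    generalize m * u * m⁻¹ = a at *
    generalize n * u * n⁻¹ = b at *
    calc _ = a * (b * a) * b := by group
      _ = a * a * (b * b) := by rw [← cm.2]; group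
      _ = 1 := by rw [s1, s2, one_mul]
  · have := cmul h mT (hA.cm m hm t ht).1 (hA.cm n hn t ht).1
    rw [(hA.cm m hm t ht).2, (hA.cm n hn t ht).2, add_add_add_comm, ← pr_add_l] at this
    nth_rewrite 2 [p] at this
    rw [self_add, add_zero, e1, e2] at this
    refine ⟨this.1, this.2.trans (congrArg (pr · (ν t)) (funext fun v => ?_))⟩
    rw [← mv A v, Pi.add_apply, ind_eqv, ind_eqv, ind_X2, ← ind_eqv A, mul_one]

end N3C

open N3C in
theorem NN.xc {ν : G → V3 → ZMod 2} (h : NN M T S V π c) (hu : UU T S V c u) (hA : UA M T V π c u ν τ ε)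
    {t : G} (ht : t ∈ T) (h0 : ν t ≠ 0) : ∃ X ξ, XC M T V X π c ξ ν := by
  classical
  let X : Subgroup G :=
    { carrier := {e | ∃ η, QQ T V c ν e η}
      one_mem' := ⟨0, qq_V h hu hA (one_mem _)⟩
      mul_mem' := fun ⟨_, ha⟩ ⟨_, hb⟩ => ⟨_, ha.mul h hA hb⟩
      inv_mem' := fun ⟨η, ha⟩ => ⟨η, by rwa [inv_eq_of_mul_eq_one_right ha.2.1]⟩ }
  let ξ : G → V3 → ZMod 2 := fun e => if he : e ∈ X then he.choose else 0
  have sp : ∀ {a}, a ∈ X → QQ T V c ν a (ξ a) := fun {a} ha => by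
    simp only [ξ, dif_pos ha]; exact ha.choose_spec
  have un : ∀ {a η}, QQ T V c ν a η → ξ a = η := fun ha => (sp ⟨_, ha⟩).uniq h hA ht h0 ha
  refine ⟨X, ξ, fun a ha => ⟨0, qq_V h hu hA ha⟩, fun a ha => (sp ha).1,
    ⟨⟨⟨fun a b => Subtype.ext ((sp a.2).comm h (sp b.2))⟩⟩, fun a ha => by rw [sq, (sp ha).2.1]⟩,
    fun m hm => mem_normalizer_of_cj_le (cj_le_iff.2 fun a ha => ⟨_, (sp ha).conj h hA hm⟩),
    fun a ha b hb => un ((sp ha).mul h hA (sp hb)), fun a ha => (sp ha).2.2.2.1,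
    fun a ha => ⟨fun e => h.om a (sp ha).1 (sp ha).2.1 (mem_centralizer_iff.2 fun s hs => ?_),
      fun e => un (qq_V h hu hA e)⟩, fun η hη => ?_, fun m hm a ha v => ?_, hA.add', hA.ev', hA.eqv',
    fun a ha => (sp ha).2.2.2.2⟩
  · have := (sp ha).2.2.2.2 s hs
    rw [e, pr_zero_l, h.crd.zero _ this.1] at this
    exact (commutatorElement_eq_one_iff_mul_comm.1 this.2).symm
  · obtain ⟨q, hq⟩ := eSpan (fun η => ∃ q, QQ T V c ν q η) ⟨1, qq_V h hu hA (one_mem _)⟩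
      (fun _ _ ⟨_, ha⟩ ⟨_, hb⟩ => ⟨_, ha.mul h hA hb⟩) (ex_ind h hu hA) η hη
    exact ⟨q, ⟨η, hq⟩, un hq⟩
  · rw [un ((sp ha).conj h hA hm)]
    simp only [mv']

end Cfsg.Lib.K7.N3
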