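import Cfsg.Agent.K7.NDefs

/-!
# The linear conditions on the flags have a nine dimensional solution space
-/

set_option autoImplicit false

namespace Cfsg.Lib.K7.N3

open Cfsg Matrix
open Cfsg.Lib.P8 (L32 V3)

namespace N3P

def mk (n : ℕ) : Matrix (Fin 3) (Fin 3) (ZMod 2) := fun i j => if n.testBit (3 * i + j) then 1 else 0

def d3 (A : Matrix (Fin 3) (Fin 3) (ZMod 2)) : ZMod 2 :=
  A 0 0 * A 1 1 * A 2 2 - A 0 0 * A 1 2 * A 2 1 - A 0 1 * A 1 0 * A 2 2 + A 0 1 * A 1 2 * A 2 0 +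
    A 0 2 * A 1 0 * A 2 1 - A 0 2 * A 1 1 * A 2 0

def g (n : ℕ) : L32 := if h : d3 (mk n) = 1 then ⟨mk n, by rw [det_fin_three]; exact h⟩ else 1

def nn (a0 a1 a2 a3 a4 a5 a6 : ZMod 2) (v : V3) : ZMod 2 :=
  if v = ![0,0,1] then a0 else if v = ![0,1,0] then a1 else if v = ![0,1,1] then a2 else if v = ![1,0,0] then a3 else if v = ![1,0,1] then a4 else if v = ![1,1,0] then a5 else if v = ![1,1,1] then a6 else 0

theorem mk_eq_1' : type_of% @mk.eq_1 := @mk.eq_1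
theorem nn_eq_1' : type_of% @nn.eq_1 := @nn.eq_1

theorem sumV {M : Type*} [AddCommMonoid M] (F : V3 → M) : ∑ v, F v = F ![0,0,0] + (F ![0,0,1] + (F ![0,1,0] +
    (F ![0,1,1] + (F ![1,0,0] + (F ![1,0,1] + (F ![1,1,0] + F ![1,1,1])))))) := by
  have : (Finset.univ : Finset V3) =
      {![0,0,0], ![0,0,1], ![0,1,0], ![0,1,1], ![1,0,0], ![1,0,1], ![1,1,0], ![1,1,1]} := by decide +kernel
  rw [this, Finset.sum_insert (by decide), Finset.sum_insert (by decide), Finset.sum_insert (by decide),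
    Finset.sum_insert (by decide), Finset.sum_insert (by decide), Finset.sum_insert (by decide),
    Finset.sum_insert (by decide), Finset.sum_singleton]

theorem ev_nn {a0 a1 a2 a3 a4 a5 a6 : ZMod 2} (hs : a0 + a1 + a2 + a3 + a4 + a5 + a6 = 0) :
    Ev (nn a0 a1 a2 a3 a4 a5 a6) := by
  refine ⟨?_, ?_⟩
  · unfold nn
    rw [if_neg (by decide), if_neg (by decide), if_neg (by decide), if_neg (by decide), if_neg (by decide),
      if_neg (by decide), if_neg (by decide)]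
  · rw [sumV]
    simpa [nn, add_assoc] using hs

theorem c0 {f : L32 → V3} (h : Cd f) (a : ℕ) (φ : V3) (hφ : ph (g a) = φ) :
    φ 0 * f (g a) 0 + φ 1 * f (g a) 1 + φ 2 * f (g a) 2 = 0 := by
  have := h.mem (g a)
  rwa [hφ, dotProduct, Fin.sum_univ_three] at this

theorem o7 {Y : L32} (h1 : Y ^ 7 = 1) (h2 : Y ≠ 1) : orderOf Y = 7 :=
  haveI : Fact (Nat.Prime 7) := ⟨by norm_num⟩
  orderOf_eq_prime h1 h2

theorem c1 {f : L32 → V3} (h : Cd f) (y a k0 k1 k2 k3 k4 k5 k6 : ℕ) (B : Fin 7 → ℕ) (h1 : g y ^ 7 = 1)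
    (h2 : g y ≠ 1) (H : ∀ i : Fin 7, ((g (B i)).1 1 0 = 0 ∧ (g (B i)).1 2 0 = 0 ∧ (g (B i)).1 2 1 = 0) ∧
      g y ^ (i : ℕ) * g a = g (![k0, k1, k2, k3, k4, k5, k6] i) * g (B i)) :
    f (g k0) 0 + f (g k1) 0 + f (g k2) 0 + f (g k3) 0 + f (g k4) 0 + f (g k5) 0 + f (g k6) 0 = 0 ∧
    f (g k0) 1 + f (g k1) 1 + f (g k2) 1 + f (g k3) 1 + f (g k4) 1 + f (g k5) 1 + f (g k6) 1 = 0 ∧
    f (g k0) 2 + f (g k1) 2 + f (g k2) 2 + f (g k3) 2 + f (g k4) 2 + f (g k5) 2 + f (g k6) 2 = 0 := by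
  have e := h.n1 (g y) (g a) (o7 h1 h2)
  rw [Finset.sum_range fun i => f (g y ^ i * g a)] at e
  have e' : ∑ i : Fin 7, f (g (![k0, k1, k2, k3, k4, k5, k6] i)) = 0 := by
    rw [← e]
    exact Finset.sum_congr rfl fun i _ => by rw [(H i).2, h.inv _ _ (H i).1]
  rw [Fin.sum_univ_seven] at e'
  exact ⟨congrFun e' 0, congrFun e' 1, congrFun e' 2⟩

theorem c2 {f : L32 → V3} (h : Cd f) (y a : ℕ) (K B P : Fin 7 → ℕ) (h1 : g y ^ 7 = 1)
    (h2 : g y ≠ 1) (H : ∀ i : Fin 7, ((g (B i)).1 1 0 = 0 ∧ (g (B i)).1 2 0 = 0 ∧ (g (B i)).1 2 1 = 0) ∧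
      g a = g y ^ (i : ℕ) * (g (K i) * g (B i)) ∧ (g y ^ (i : ℕ)).1 = mk (P i)) (k : Fin 3) :
    ∑ i : Fin 7, ∑ l : Fin 3, mk (P i) k l * f (g (K i)) l = 0 := by
  have e := h.n2 (g y) (g a) (o7 h1 h2)
  rw [Finset.sum_range fun i => (g y ^ i).1 *ᵥ f ((g y ^ i)⁻¹ * g a)] at e
  have e' : ∑ i : Fin 7, mk (P i) *ᵥ f (g (K i)) = 0 := by
    rw [← e]
    refine Finset.sum_congr rfl fun i _ => ?_
    rw [inv_mul_eq_iff_eq_mul.2 (H i).2.1, h.inv _ _ (H i).1, (H i).2.2]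
  have := congrFun e' k
  rwa [Finset.sum_apply] at this

theorem cov : ∀ A : L32, ∃ j ∈ [84, 85, 86, 87, 92, 93, 94, 95, 98, 99, 106, 107, 140, 141, 142, 143, 161, 177, 266, 267, 273], pt A = pt (g j) ∧ ph A = ph (g j) := by
  have H : ∀ z φ : V3, z ≠ 0 → φ ≠ 0 → φ ⬝ᵥ z = 0 →
      ∃ j ∈ [84, 85, 86, 87, 92, 93, 94, 95, 98, 99, 106, 107, 140, 141, 142, 143, 161, 177, 266, 267, 273], z = pt (g j) ∧ φ = ph (g j) := by decide +kernel
  intro A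
  have m1 : (A⁻¹).1 * A.1 = 1 := congrArg Subtype.val (inv_mul_cancel A)
  refine H _ _ (fun e => ?_) (fun e => ?_) ?_
  · have : (A⁻¹).1 *ᵥ pt A = e0 := by rw [pt, mulVec_mulVec, m1, one_mulVec]
    rw [e, mulVec_zero] at this
    exact absurd this (by decide)
  · have : ph A ᵥ* A.1 = e2 := by rw [ph, vecMul_vecMul, m1, vecMul_one]
    rw [e, zero_vecMul] at this
    exact absurd this (by decide)
  · rw [pt, dotProduct_mulVec, ph, vecMul_vecMul, m1, vecMul_one]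
    decide

theorem same {f : L32 → V3} (h : Cd f) {A A' : L32} (h1 : pt A = pt A') (h2 : ph A = ph A') : f A = f A' := by
  have m1 : ∀ A : L32, (A⁻¹).1 * A.1 = 1 := fun A => congrArg Subtype.val (inv_mul_cancel A)
  have a1 : (A'⁻¹ * A).1 *ᵥ e0 = e0 := by
    change ((A'⁻¹).1 * A.1) *ᵥ e0 = e0
    rw [← mulVec_mulVec]
    change _ *ᵥ pt A = _
    rw [h1, pt, mulVec_mulVec, m1, one_mulVec]
  have a2 : e2 ᵥ* (A'⁻¹ * A).1 = e2 := by
    change e2 ᵥ* ((A'⁻¹).1 * A.1) = e2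
    rw [← vecMul_vecMul]
    change ph A' ᵥ* _ = _
    rw [← h2, ph, vecMul_vecMul, m1, vecMul_one]
  have hu : up (A'⁻¹ * A) := by
    generalize A'⁻¹ * A = B at a1 a2
    refine ⟨?_, ?_, ?_⟩
    · simpa [mulVec, dotProduct, Fin.sum_univ_three, e0] using congrFun a1 1
    · simpa [mulVec, dotProduct, Fin.sum_univ_three, e0] using congrFun a1 2
    · simpa [vecMul, dotProduct, Fin.sum_univ_three, e2] using congrFun a2 1
  rw [← h.inv A' _ hu, mul_inv_cancel_left]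

theorem one {x : V3} {A : L32} {n : V3 → ZMod 2} {τ : V3} (z φ w w' : V3) (hz : pt A = z) (hφ : ph A = φ)
    (hi : ∀ v, ind z φ v = (if v = w then 1 else 0) + (if v = w' then 1 else 0))
    (h0 : x 0 = n w * w 0 + n w' * w' 0 + cx τ φ 0) (h1 : x 1 = n w * w 1 + n w' * w' 1 + cx τ φ 1)
    (h2 : x 2 = n w * w 2 + n w' * w' 2 + cx τ φ 2) : x = pr (ind (pt A) (ph A)) n + cx τ (ph A) := by
  have hs : ∀ w : V3, ∑ v, ((if v = w then (1 : ZMod 2) else 0) * n v) • v = n w • w := fun w => by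
    rw [Finset.sum_eq_single w (fun b _ hb => by simp [hb]) (by simp)]
    simp
  have : pr (ind z φ) n = n w • w + n w' • w' := by
    rw [pr, ← hs, ← hs, ← Finset.sum_add_distrib]
    exact Finset.sum_congr rfl fun v _ => by rw [hi, add_mul, add_smul]
  rw [hz, hφ, this]
  funext i
  fin_cases i
  · exact h0
  · exact h1
  · exact h2

theorem fin {f : L32 → V3} (h : Cd f) (a0 a1 a2 a3 a4 a5 a6 t0 t1 t2 : ZMod 2)
    (hs : a0 + a1 + a2 + a3 + a4 + a5 + a6 = 0)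
    (H : (f (g 84) 0 = 0 ∧ f (g 84) 1 = a1 + a2 + t2 ∧ f (g 84) 2 = a2 + t1) ∧
      (f (g 85) 0 = a6 + t1 ∧ f (g 85) 1 = a1 + a6 + t2 + t0 ∧ f (g 85) 2 = a6 + t1) ∧
      (f (g 86) 0 = a5 + a6 + t2 ∧ f (g 86) 1 = a5 + a6 + t2 ∧ f (g 86) 2 = a6 + t0 + t1) ∧
      (f (g 87) 0 = a5 + t1 + t2 ∧ f (g 87) 1 = a2 + a5 + t2 + t0 ∧ f (g 87) 2 = a2 + t0 + t1) ∧
      (f (g 92) 0 = 0 ∧ f (g 92) 1 = a1 + t2 ∧ f (g 92) 2 = a0 + t1) ∧
      (f (g 93) 0 = a4 + t1 ∧ f (g 93) 1 = a1 + t2 + t0 ∧ f (g 93) 2 = a4 + t1) ∧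
      (f (g 94) 0 = a4 + a5 + t1 + t2 ∧ f (g 94) 1 = a5 + t2 + t0 ∧ f (g 94) 2 = a4 + t0 + t1) ∧
      (f (g 95) 0 = a5 + t2 ∧ f (g 95) 1 = a5 + t2 ∧ f (g 95) 2 = a0 + t0 + t1) ∧
      (f (g 98) 0 = a3 + a4 + t2 ∧ f (g 98) 1 = 0 ∧ f (g 98) 2 = a4 + t0) ∧
      (f (g 99) 0 = a3 + t2 ∧ f (g 99) 1 = 0 ∧ f (g 99) 2 = a0 + t0) ∧
      (f (g 106) 0 = a3 + a6 + t1 + t2 ∧ f (g 106) 1 = a6 + t0 ∧ f (g 106) 2 = a6 + t0) ∧
      (f (g 107) 0 = a3 + t1 + t2 ∧ f (g 107) 1 = a2 + t0 ∧ f (g 107) 2 = a2 + t0) ∧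
      (f (g 140) 0 = 0 ∧ f (g 140) 1 = a2 + t2 ∧ f (g 140) 2 = a0 + a2 + t1) ∧
      (f (g 141) 0 = a6 + t2 ∧ f (g 141) 1 = a6 + t2 ∧ f (g 141) 2 = a0 + a6 + t0 + t1) ∧
      (f (g 142) 0 = a4 + a6 + t1 ∧ f (g 142) 1 = a6 + t2 + t0 ∧ f (g 142) 2 = a4 + a6 + t1) ∧
      (f (g 143) 0 = a4 + t1 + t2 ∧ f (g 143) 1 = a2 + t2 + t0 ∧ f (g 143) 2 = a2 + a4 + t0 + t1) ∧
      (f (g 161) 0 = a4 + t2 ∧ f (g 161) 1 = 0 ∧ f (g 161) 2 = a0 + a4 + t0) ∧
      (f (g 177) 0 = a6 + t1 + t2 ∧ f (g 177) 1 = a2 + a6 + t0 ∧ f (g 177) 2 = a2 + a6 + t0) ∧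
      (f (g 266) 0 = a3 + a5 + t1 ∧ f (g 266) 1 = a5 + t0 ∧ f (g 266) 2 = 0) ∧
      (f (g 267) 0 = a3 + t1 ∧ f (g 267) 1 = a1 + t0 ∧ f (g 267) 2 = 0) ∧
      (f (g 273) 0 = a5 + t1 ∧ f (g 273) 1 = a1 + a5 + t0 ∧ f (g 273) 2 = 0)) :
    ∃ (n : V3 → ZMod 2) (τ : V3), Ev n ∧ ∀ A, f A = pr (ind (pt A) (ph A)) n + cx τ (ph A) := by
  obtain ⟨H0, H1, H2, H3, H4, H5, H6, H7, H8, H9, H10, H11, H12, H13, H14, H15, H16, H17, H18, H19, H20⟩ := H
  refine ⟨nn a0 a1 a2 a3 a4 a5 a6, ![t0, t1, t2], ev_nn hs, fun A => ?_⟩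
  obtain ⟨j, hj, h1, h2⟩ := cov A
  rw [same h h1 h2, h1, h2]
  simp only [List.mem_cons, List.not_mem_nil, or_false] at hj
  rcases hj with rfl | rfl | rfl | rfl | rfl | rfl | rfl | rfl | rfl | rfl | rfl | rfl | rfl | rfl | rfl | rfl | rfl | rfl | rfl | rfl | rfl
  · exact one ![0,0,1] ![1,0,0] ![0,1,0] ![0,1,1] (by decide +kernel) (by decide +kernel) (by decide +kernel)
      (by simpa [nn, cx, add_assoc] using H0.1) (by simpa [nn, cx, add_assoc] using H0.2.1) (by simpa [nn, cx, add_assoc] using H0.2.2)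
  · exact one ![1,0,1] ![1,0,1] ![0,1,0] ![1,1,1] (by decide +kernel) (by decide +kernel) (by decide +kernel)
      (by simpa [nn, cx, add_assoc] using H1.1) (by simpa [nn, cx, add_assoc] using H1.2.1) (by simpa [nn, cx, add_assoc] using H1.2.2)
  · exact one ![0,0,1] ![1,1,0] ![1,1,0] ![1,1,1] (by decide +kernel) (by decide +kernel) (by decide +kernel)
      (by simpa [nn, cx, add_assoc] using H2.1) (by simpa [nn, cx, add_assoc] using H2.2.1) (by simpa [nn, cx, add_assoc] using H2.2.2)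
  · exact one ![1,0,1] ![1,1,1] ![0,1,1] ![1,1,0] (by decide +kernel) (by decide +kernel) (by decide +kernel)
      (by simpa [nn, cx, add_assoc] using H3.1) (by simpa [nn, cx, add_assoc] using H3.2.1) (by simpa [nn, cx, add_assoc] using H3.2.2)
  · exact one ![0,1,1] ![1,0,0] ![0,0,1] ![0,1,0] (by decide +kernel) (by decide +kernel) (by decide +kernel)
      (by simpa [nn, cx, add_assoc] using H4.1) (by simpa [nn, cx, add_assoc] using H4.2.1) (by simpa [nn, cx, add_assoc] using H4.2.2)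
  · exact one ![1,1,1] ![1,0,1] ![0,1,0] ![1,0,1] (by decide +kernel) (by decide +kernel) (by decide +kernel)
      (by simpa [nn, cx, add_assoc] using H5.1) (by simpa [nn, cx, add_assoc] using H5.2.1) (by simpa [nn, cx, add_assoc] using H5.2.2)
  · exact one ![0,1,1] ![1,1,1] ![1,0,1] ![1,1,0] (by decide +kernel) (by decide +kernel) (by decide +kernel)
      (by simpa [nn, cx, add_assoc] using H6.1) (by simpa [nn, cx, add_assoc] using H6.2.1) (by simpa [nn, cx, add_assoc] using H6.2.2)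
  · exact one ![1,1,1] ![1,1,0] ![0,0,1] ![1,1,0] (by decide +kernel) (by decide +kernel) (by decide +kernel)
      (by simpa [nn, cx, add_assoc] using H7.1) (by simpa [nn, cx, add_assoc] using H7.2.1) (by simpa [nn, cx, add_assoc] using H7.2.2)
  · exact one ![0,0,1] ![0,1,0] ![1,0,0] ![1,0,1] (by decide +kernel) (by decide +kernel) (by decide +kernel)
      (by simpa [nn, cx, add_assoc] using H8.1) (by simpa [nn, cx, add_assoc] using H8.2.1) (by simpa [nn, cx, add_assoc] using H8.2.2)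
  · exact one ![1,0,1] ![0,1,0] ![0,0,1] ![1,0,0] (by decide +kernel) (by decide +kernel) (by decide +kernel)
      (by simpa [nn, cx, add_assoc] using H9.1) (by simpa [nn, cx, add_assoc] using H9.2.1) (by simpa [nn, cx, add_assoc] using H9.2.2)
  · exact one ![0,1,1] ![0,1,1] ![1,0,0] ![1,1,1] (by decide +kernel) (by decide +kernel) (by decide +kernel)
      (by simpa [nn, cx, add_assoc] using H10.1) (by simpa [nn, cx, add_assoc] using H10.2.1) (by simpa [nn, cx, add_assoc] using H10.2.2)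
  · exact one ![1,1,1] ![0,1,1] ![0,1,1] ![1,0,0] (by decide +kernel) (by decide +kernel) (by decide +kernel)
      (by simpa [nn, cx, add_assoc] using H11.1) (by simpa [nn, cx, add_assoc] using H11.2.1) (by simpa [nn, cx, add_assoc] using H11.2.2)
  · exact one ![0,1,0] ![1,0,0] ![0,0,1] ![0,1,1] (by decide +kernel) (by decide +kernel) (by decide +kernel)
      (by simpa [nn, cx, add_assoc] using H12.1) (by simpa [nn, cx, add_assoc] using H12.2.1) (by simpa [nn, cx, add_assoc] using H12.2.2)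
  · exact one ![1,1,0] ![1,1,0] ![0,0,1] ![1,1,1] (by decide +kernel) (by decide +kernel) (by decide +kernel)
      (by simpa [nn, cx, add_assoc] using H13.1) (by simpa [nn, cx, add_assoc] using H13.2.1) (by simpa [nn, cx, add_assoc] using H13.2.2)
  · exact one ![0,1,0] ![1,0,1] ![1,0,1] ![1,1,1] (by decide +kernel) (by decide +kernel) (by decide +kernel)
      (by simpa [nn, cx, add_assoc] using H14.1) (by simpa [nn, cx, add_assoc] using H14.2.1) (by simpa [nn, cx, add_assoc] using H14.2.2)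
  · exact one ![1,1,0] ![1,1,1] ![0,1,1] ![1,0,1] (by decide +kernel) (by decide +kernel) (by decide +kernel)
      (by simpa [nn, cx, add_assoc] using H15.1) (by simpa [nn, cx, add_assoc] using H15.2.1) (by simpa [nn, cx, add_assoc] using H15.2.2)
  · exact one ![1,0,0] ![0,1,0] ![0,0,1] ![1,0,1] (by decide +kernel) (by decide +kernel) (by decide +kernel)
      (by simpa [nn, cx, add_assoc] using H16.1) (by simpa [nn, cx, add_assoc] using H16.2.1) (by simpa [nn, cx, add_assoc] using H16.2.2)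
  · exact one ![1,0,0] ![0,1,1] ![0,1,1] ![1,1,1] (by decide +kernel) (by decide +kernel) (by decide +kernel)
      (by simpa [nn, cx, add_assoc] using H17.1) (by simpa [nn, cx, add_assoc] using H17.2.1) (by simpa [nn, cx, add_assoc] using H17.2.2)
  · exact one ![0,1,0] ![0,0,1] ![1,0,0] ![1,1,0] (by decide +kernel) (by decide +kernel) (by decide +kernel)
      (by simpa [nn, cx, add_assoc] using H18.1) (by simpa [nn, cx, add_assoc] using H18.2.1) (by simpa [nn, cx, add_assoc] using H18.2.2)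
  · exact one ![1,1,0] ![0,0,1] ![0,1,0] ![1,0,0] (by decide +kernel) (by decide +kernel) (by decide +kernel)
      (by simpa [nn, cx, add_assoc] using H19.1) (by simpa [nn, cx, add_assoc] using H19.2.1) (by simpa [nn, cx, add_assoc] using H19.2.2)
  · exact one ![1,0,0] ![0,0,1] ![0,1,0] ![1,1,0] (by decide +kernel) (by decide +kernel) (by decide +kernel)
      (by simpa [nn, cx, add_assoc] using H20.1) (by simpa [nn, cx, add_assoc] using H20.2.1) (by simpa [nn, cx, add_assoc] using H20.2.2)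

end N3P

open N3P in
theorem eLem {f : L32 → V3} (h : Cd f) :
    ∃ (n : V3 → ZMod 2) (τ : V3), Ev n ∧ ∀ A, f A = pr (ind (pt A) (ph A)) n + cx τ (ph A) := by
  have m0 := c0 h 84 ![1,0,0] (by decide +kernel)
  simp only [one_mul, zero_mul, add_zero, zero_add, cons_val_zero, cons_val_one, cons_val_two, head_cons, tail_cons] at m0
  have m1 := c0 h 85 ![1,0,1] (by decide +kernel)
  simp only [one_mul, zero_mul, add_zero, zero_add, cons_val_zero, cons_val_one, cons_val_two, head_cons, tail_cons] at m1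
  have m2 := c0 h 86 ![1,1,0] (by decide +kernel)
  simp only [one_mul, zero_mul, add_zero, zero_add, cons_val_zero, cons_val_one, cons_val_two, head_cons, tail_cons] at m2
  have m3 := c0 h 87 ![1,1,1] (by decide +kernel)
  simp only [one_mul, zero_mul, add_zero, zero_add, cons_val_zero, cons_val_one, cons_val_two, head_cons, tail_cons] at m3
  have m4 := c0 h 92 ![1,0,0] (by decide +kernel)
  simp only [one_mul, zero_mul, add_zero, zero_add, cons_val_zero, cons_val_one, cons_val_two, head_cons, tail_cons] at m4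
  have m5 := c0 h 93 ![1,0,1] (by decide +kernel)
  simp only [one_mul, zero_mul, add_zero, zero_add, cons_val_zero, cons_val_one, cons_val_two, head_cons, tail_cons] at m5
  have m6 := c0 h 94 ![1,1,1] (by decide +kernel)
  simp only [one_mul, zero_mul, add_zero, zero_add, cons_val_zero, cons_val_one, cons_val_two, head_cons, tail_cons] at m6
  have m7 := c0 h 95 ![1,1,0] (by decide +kernel)
  simp only [one_mul, zero_mul, add_zero, zero_add, cons_val_zero, cons_val_one, cons_val_two, head_cons, tail_cons] at m7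
  have m8 := c0 h 98 ![0,1,0] (by decide +kernel)
  simp only [one_mul, zero_mul, add_zero, zero_add, cons_val_zero, cons_val_one, cons_val_two, head_cons, tail_cons] at m8
  have m9 := c0 h 99 ![0,1,0] (by decide +kernel)
  simp only [one_mul, zero_mul, add_zero, zero_add, cons_val_zero, cons_val_one, cons_val_two, head_cons, tail_cons] at m9
  have m10 := c0 h 106 ![0,1,1] (by decide +kernel)
  simp only [one_mul, zero_mul, add_zero, zero_add, cons_val_zero, cons_val_one, cons_val_two, head_cons, tail_cons] at m10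
  have m11 := c0 h 107 ![0,1,1] (by decide +kernel)
  simp only [one_mul, zero_mul, add_zero, zero_add, cons_val_zero, cons_val_one, cons_val_two, head_cons, tail_cons] at m11
  have m12 := c0 h 140 ![1,0,0] (by decide +kernel)
  simp only [one_mul, zero_mul, add_zero, zero_add, cons_val_zero, cons_val_one, cons_val_two, head_cons, tail_cons] at m12
  have m13 := c0 h 141 ![1,1,0] (by decide +kernel)
  simp only [one_mul, zero_mul, add_zero, zero_add, cons_val_zero, cons_val_one, cons_val_two, head_cons, tail_cons] at m13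
  have m14 := c0 h 142 ![1,0,1] (by decide +kernel)
  simp only [one_mul, zero_mul, add_zero, zero_add, cons_val_zero, cons_val_one, cons_val_two, head_cons, tail_cons] at m14
  have m15 := c0 h 143 ![1,1,1] (by decide +kernel)
  simp only [one_mul, zero_mul, add_zero, zero_add, cons_val_zero, cons_val_one, cons_val_two, head_cons, tail_cons] at m15
  have m16 := c0 h 161 ![0,1,0] (by decide +kernel)
  simp only [one_mul, zero_mul, add_zero, zero_add, cons_val_zero, cons_val_one, cons_val_two, head_cons, tail_cons] at m16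
  have m17 := c0 h 177 ![0,1,1] (by decide +kernel)
  simp only [one_mul, zero_mul, add_zero, zero_add, cons_val_zero, cons_val_one, cons_val_two, head_cons, tail_cons] at m17
  have m18 := c0 h 266 ![0,0,1] (by decide +kernel)
  simp only [one_mul, zero_mul, add_zero, zero_add, cons_val_zero, cons_val_one, cons_val_two, head_cons, tail_cons] at m18
  have m19 := c0 h 267 ![0,0,1] (by decide +kernel)
  simp only [one_mul, zero_mul, add_zero, zero_add, cons_val_zero, cons_val_one, cons_val_two, head_cons, tail_cons] at m19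
  have m20 := c0 h 273 ![0,0,1] (by decide +kernel)
  simp only [one_mul, zero_mul, add_zero, zero_add, cons_val_zero, cons_val_one, cons_val_two, head_cons, tail_cons] at m20
  obtain ⟨e0_0, e0_1, e0_2⟩ := c1 h 244 84 84 143 142 106 99 95 273 ![273,307,277,275,309,311,311] (by decide +kernel) (by decide +kernel) (by decide +kernel)
  obtain ⟨e1_0, e1_1, e1_2⟩ := c1 h 244 85 85 107 161 86 267 140 94 ![273,311,279,307,309,305,277] (by decide +kernel) (by decide +kernel) (by decide +kernel)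
  obtain ⟨e2_0, e2_1, e2_2⟩ := c1 h 244 87 87 93 177 98 141 266 92 ![273,309,277,275,311,305,279] (by decide +kernel) (by decide +kernel) (by decide +kernel)
  obtain ⟨e3_0, e3_1, e3_2⟩ := c1 h 500 84 84 107 99 141 142 94 273 ![273,311,277,305,279,307,307] (by decide +kernel) (by decide +kernel) (by decide +kernel)
  obtain ⟨e4_0, e4_1, e4_2⟩ := c1 h 500 85 85 143 266 92 177 98 95 ![273,307,309,311,279,275,277] (by decide +kernel) (by decide +kernel) (by decide +kernel)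
  obtain ⟨e5_0, e5_1, e5_2⟩ := c1 h 396 84 84 99 93 141 94 177 266 ![273,275,311,307,277,277,277] (by decide +kernel) (by decide +kernel) (by decide +kernel)
  obtain ⟨e6_0, e6_1, e6_2⟩ := c1 h 396 85 85 95 143 106 273 140 98 ![273,307,305,311,311,279,277] (by decide +kernel) (by decide +kernel) (by decide +kernel)
  have e7 := c2 h 244 84 ![84,273,95,99,106,142,143] ![273,311,311,309,275,277,307] ![273,244,171,442,334,485,95] (by decide +kernel) (by decide +kernel) (by decide +kernel)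
  have e7_0 : f (g 84) 0 + f (g 273) 2 + f (g 95) 0 + f (g 95) 1 + f (g 99) 1 + f (g 106) 1 + f (g 106) 2 + f (g 142) 0 + f (g 142) 2 + f (g 143) 0 + f (g 143) 1 + f (g 143) 2 = 0 := by
    have := e7 0
    simpa [Fin.sum_univ_succ, mk, Nat.testBit, add_assoc] using this
  have e7_1 : f (g 84) 1 + f (g 273) 1 + f (g 273) 2 + f (g 95) 0 + f (g 95) 2 + f (g 99) 0 + f (g 99) 1 + f (g 99) 2 + f (g 106) 0 + f (g 142) 2 + f (g 143) 0 + f (g 143) 1 = 0 := by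
    have := e7 1
    simpa [Fin.sum_univ_succ, mk, Nat.testBit, add_assoc] using this
  have e7_2 : f (g 84) 2 + f (g 273) 0 + f (g 273) 1 + f (g 95) 1 + f (g 99) 1 + f (g 99) 2 + f (g 106) 0 + f (g 106) 2 + f (g 142) 0 + f (g 142) 1 + f (g 142) 2 + f (g 143) 0 = 0 := by
    have := e7 2
    simpa [Fin.sum_univ_succ, mk, Nat.testBit, add_assoc] using this
  have e8 := c2 h 244 85 ![85,94,140,267,86,161,107] ![273,277,305,309,307,279,311] ![273,244,171,442,334,485,95] (by decide +kernel) (by decide +kernel) (by decide +kernel)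
  have e8_0 : f (g 85) 0 + f (g 94) 2 + f (g 140) 0 + f (g 140) 1 + f (g 267) 1 + f (g 86) 1 + f (g 86) 2 + f (g 161) 0 + f (g 161) 2 + f (g 107) 0 + f (g 107) 1 + f (g 107) 2 = 0 := by
    have := e8 0
    simpa [Fin.sum_univ_succ, mk, Nat.testBit, add_assoc] using this
  have e8_1 : f (g 85) 1 + f (g 94) 1 + f (g 94) 2 + f (g 140) 0 + f (g 140) 2 + f (g 267) 0 + f (g 267) 1 + f (g 267) 2 + f (g 86) 0 + f (g 161) 2 + f (g 107) 0 + f (g 107) 1 = 0 := by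
    have := e8 1
    simpa [Fin.sum_univ_succ, mk, Nat.testBit, add_assoc] using this
  have e8_2 : f (g 85) 2 + f (g 94) 0 + f (g 94) 1 + f (g 140) 1 + f (g 267) 1 + f (g 267) 2 + f (g 86) 0 + f (g 86) 2 + f (g 161) 0 + f (g 161) 1 + f (g 161) 2 + f (g 107) 0 = 0 := by
    have := e8 2
    simpa [Fin.sum_univ_succ, mk, Nat.testBit, add_assoc] using this
  have e9 := c2 h 500 84 ![84,273,94,142,141,99,107] ![273,307,307,279,305,277,311] ![273,500,335,229,187,426,94] (by decide +kernel) (by decide +kernel) (by decide +kernel)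
  have e9_0 : f (g 84) 0 + f (g 273) 2 + f (g 94) 0 + f (g 94) 1 + f (g 94) 2 + f (g 142) 0 + f (g 142) 2 + f (g 141) 0 + f (g 141) 1 + f (g 99) 1 + f (g 107) 1 + f (g 107) 2 = 0 := by
    have := e9 0
    simpa [Fin.sum_univ_succ, mk, Nat.testBit, add_assoc] using this
  have e9_1 : f (g 84) 1 + f (g 273) 1 + f (g 273) 2 + f (g 94) 0 + f (g 142) 2 + f (g 141) 0 + f (g 141) 1 + f (g 141) 2 + f (g 99) 0 + f (g 99) 2 + f (g 107) 0 + f (g 107) 1 = 0 := by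
    have := e9 1
    simpa [Fin.sum_univ_succ, mk, Nat.testBit, add_assoc] using this
  have e9_2 : f (g 84) 2 + f (g 273) 0 + f (g 273) 1 + f (g 273) 2 + f (g 94) 0 + f (g 94) 2 + f (g 142) 0 + f (g 142) 1 + f (g 141) 1 + f (g 99) 1 + f (g 99) 2 + f (g 107) 0 = 0 := by
    have := e9 2
    simpa [Fin.sum_univ_succ, mk, Nat.testBit, add_assoc] using this
  have e10 := c2 h 396 84 ![84,266,177,94,141,93,99] ![273,277,277,277,307,311,275] ![273,396,486,247,379,157,106] (by decide +kernel) (by decide +kernel) (by decide +kernel)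
  have e10_0 : f (g 84) 0 + f (g 266) 2 + f (g 177) 1 + f (g 177) 2 + f (g 94) 0 + f (g 94) 1 + f (g 94) 2 + f (g 141) 0 + f (g 141) 1 + f (g 93) 0 + f (g 93) 2 + f (g 99) 1 = 0 := by
    have := e10 0
    simpa [Fin.sum_univ_succ, mk, Nat.testBit, add_assoc] using this
  have e10_1 : f (g 84) 1 + f (g 266) 0 + f (g 177) 2 + f (g 94) 1 + f (g 94) 2 + f (g 141) 0 + f (g 141) 1 + f (g 141) 2 + f (g 93) 0 + f (g 93) 1 + f (g 99) 0 + f (g 99) 2 = 0 := by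
    have := e10 1
    simpa [Fin.sum_univ_succ, mk, Nat.testBit, add_assoc] using this
  have e10_2 : f (g 84) 2 + f (g 266) 1 + f (g 266) 2 + f (g 177) 0 + f (g 177) 1 + f (g 177) 2 + f (g 94) 0 + f (g 94) 1 + f (g 141) 0 + f (g 141) 2 + f (g 93) 1 + f (g 99) 0 = 0 := by
    have := e10 2
    simpa [Fin.sum_univ_succ, mk, Nat.testBit, add_assoc] using this
  obtain ⟨e11_0, e11_1, e11_2⟩ := c1 h 204 84 84 161 106 87 93 141 266 ![273,305,309,311,307,279,275] (by decide +kernel) (by decide +kernel) (by decide +kernel)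
  have e12 := c2 h 204 84 ![84,266,141,93,87,106,161] ![273,275,279,307,311,309,305] ![273,204,355,477,431,190,114] (by decide +kernel) (by decide +kernel) (by decide +kernel)
  have e12_0 : f (g 84) 0 + f (g 266) 2 + f (g 141) 0 + f (g 141) 1 + f (g 93) 0 + f (g 93) 2 + f (g 87) 0 + f (g 87) 1 + f (g 87) 2 + f (g 106) 1 + f (g 106) 2 + f (g 161) 1 = 0 := by
    have := e12 0
    simpa [Fin.sum_univ_succ, mk, Nat.testBit, add_assoc] using this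
  have e12_1 : f (g 84) 1 + f (g 266) 0 + f (g 141) 2 + f (g 93) 0 + f (g 93) 1 + f (g 87) 0 + f (g 87) 2 + f (g 106) 0 + f (g 106) 1 + f (g 106) 2 + f (g 161) 1 + f (g 161) 2 = 0 := by
    have := e12 1
    simpa [Fin.sum_univ_succ, mk, Nat.testBit, add_assoc] using this
  have e12_2 : f (g 84) 2 + f (g 266) 0 + f (g 266) 1 + f (g 141) 0 + f (g 141) 2 + f (g 93) 0 + f (g 93) 1 + f (g 93) 2 + f (g 87) 1 + f (g 87) 2 + f (g 106) 1 + f (g 161) 0 = 0 := by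
    have := e12 2
    simpa [Fin.sum_univ_succ, mk, Nat.testBit, add_assoc] using this
  refine fin h (f (g 84) 1 + f (g 84) 2 + f (g 92) 1 + f (g 92) 2) (f (g 84) 2 + f (g 86) 0 + f (g 92) 2 + f (g 98) 0) (f (g 84) 1 + f (g 92) 1) (f (g 84) 1 + f (g 86) 0 + f (g 92) 2 + f (g 93) 0) (f (g 84) 1 + f (g 84) 2 + f (g 92) 1 + f (g 93) 0) (f (g 84) 1 + f (g 85) 0 + f (g 92) 2 + f (g 98) 0) (f (g 84) 1 + f (g 84) 2 + f (g 85) 0 + f (g 92) 1) (f (g 84) 1 + f (g 84) 2 + f (g 85) 0 + f (g 85) 1) (f (g 84) 1 + f (g 84) 2 + f (g 92) 1) (f (g 84) 2 + f (g 86) 0 + f (g 92) 1 + f (g 92) 2 + f (g 98) 0) ?_ ?_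
  · grind
  refine ⟨⟨?_, ?_, ?_⟩, ⟨?_, ?_, ?_⟩, ⟨?_, ?_, ?_⟩, ⟨?_, ?_, ?_⟩, ⟨?_, ?_, ?_⟩, ⟨?_, ?_, ?_⟩, ⟨?_, ?_, ?_⟩, ⟨?_, ?_, ?_⟩, ⟨?_, ?_, ?_⟩, ⟨?_, ?_, ?_⟩, ⟨?_, ?_, ?_⟩, ⟨?_, ?_, ?_⟩, ⟨?_, ?_, ?_⟩, ⟨?_, ?_, ?_⟩, ⟨?_, ?_, ?_⟩, ⟨?_, ?_, ?_⟩, ⟨?_, ?_, ?_⟩, ⟨?_, ?_, ?_⟩, ⟨?_, ?_, ?_⟩, ⟨?_, ?_, ?_⟩, ⟨?_, ?_, ?_⟩⟩
  · clear * - m0
    grind
  · clear * -
    grind
  · clear * -
    grind
  · clear * -
    grind
  · clear * -
    grind
  · clear * - m1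
    grind
  · clear * -
    grind
  · clear * - m2
    grind
  · clear * - e0_2 e10_1 e10_2 e12_1 e12_2 e1_1 e2_2 e3_1 e4_0 e4_2 e5_2 e6_0 e8_0 e9_2 m1 m11 m13 m14 m17 m3 m4 m5
    grind
  · clear * - e0_0 e0_1 e0_2 e11_2 e1_0 e1_2 e2_0 e2_2 e3_0 e3_2 e4_2 e5_0 e6_0 e6_1 e8_0 e8_1 e9_1 e9_2 m0 m11 m14 m18 m2 m4 m6 m8
    grind
  · clear * - e0_0 e0_2 e10_1 e10_2 e11_2 e1_0 e1_2 e2_1 e2_2 e3_0 e3_2 e4_1 e4_2 e5_0 e5_1 e6_1 e7_2 e8_0 e8_1 e9_1 e9_2 m0 m10 m11 m12 m13 m2 m7 m8 m9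
    grind
  · clear * - e0_1 e10_1 e10_2 e2_0 e2_1 e4_1 e5_1 e6_0 e7_2 m10 m12 m13 m14 m18 m3 m4 m6 m7 m9
    grind
  · clear * - m4
    grind
  · clear * -
    grind
  · clear * -
    grind
  · clear * -
    grind
  · clear * - e0_1 e10_1 e11_0 e11_2 e12_1 e12_2 e2_0 e4_1 e5_0 e6_0 e7_2 m10 m12 m13 m14 m16 m17 m18 m3 m4 m6 m7 m8
    grind
  · clear * - m5
    grind
  · clear * - e0_0 e0_1 e10_1 e11_0 e12_1 e12_2 e1_0 e1_2 e2_1 e3_0 e3_1 e6_1 e7_2 e8_0 e8_1 e9_1 e9_2 m0 m1 m12 m13 m16 m17 m2 m5 m6 m7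
    grind
  · clear * - e0_0 e0_2 e10_1 e10_2 e11_2 e1_0 e1_2 e2_2 e3_0 e3_2 e4_1 e4_2 e5_0 e6_1 e7_2 e8_0 e8_1 e9_1 e9_2 m0 m10 m11 m12 m13 m2 m7
    grind
  · clear * - e0_1 e0_2 e10_2 e11_0 e11_2 e12_1 e12_2 e2_1 e2_2 e3_1 e3_2 e4_1 e4_2 e5_0 m1 m10 m11 m16 m17 m5
    grind
  · clear * - e0_1 e0_2 e10_1 e11_0 e12_1 e12_2 e1_0 e1_2 e2_1 e3_0 e3_1 e3_2 e4_0 e5_0 e6_0 e6_1 e7_1 e8_0 e8_1 m0 m1 m11 m13 m14 m15 m16 m17 m2 m20 m4 m5 m6 m9
    grind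
  · clear * - e0_1 e0_2 e10_1 e11_0 e12_1 e12_2 e1_0 e1_2 e2_1 e3_0 e3_1 e3_2 e4_0 e5_0 e6_0 e6_1 e7_1 e8_0 e8_1 m0 m1 m11 m13 m14 m15 m16 m17 m2 m20 m4 m5 m6 m7 m9
    grind
  · clear * - e0_0 e0_1 e0_2 e10_2 e11_0 e1_1 e1_2 e2_0 e3_1 e3_2 e4_2 e5_1 e6_0 e6_2 e7_2 e8_0 e9_2 m1 m10 m11 m13 m14 m15 m16 m19 m4 m9
    grind
  · clear * -
    grind
  · clear * - m8
    grind
  · clear * - e10_1 e10_2 e11_2 e12_1 e12_2 e1_1 e1_2 e2_0 e2_1 e2_2 e3_0 e3_1 e3_2 e4_0 e4_2 e5_0 e5_1 e5_2 e6_2 e7_2 e8_0 m1 m11 m12 m17 m18 m19 m6 m7 m8 m9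
    grind
  · clear * - e0_2 e10_1 e11_0 e11_2 e12_1 e12_2 e2_1 e2_2 e3_1 e3_2 e4_2 e6_0 e7_2 m0 m1 m11 m12 m13 m14 m16 m17 m18 m5 m7 m8
    grind
  · clear * - m9
    grind
  · clear * - e0_2 e10_2 e11_0 e1_1 e1_2 e2_1 e2_2 e3_0 e4_0 e6_0 e6_2 e8_0 m13 m14 m16 m19 m3 m4 m5 m8
    grind
  · clear * - e0_2 e11_0 e12_2 e2_0 e2_1 e2_2 e3_0 e3_1 e3_2 e4_2 e5_0 e5_2 e9_2 m0 m1 m10 m11 m13 m17 m18 m20 m4 m5 m6 m8
    grind
  · clear * - e0_1 e10_1 e10_2 e3_0 e4_1 e5_0 e9_2 m18 m20 m8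
    grind
  · clear * - e0_1 e10_1 e10_2 e3_0 e4_1 e5_0 e9_2 m10 m18 m20 m8
    grind
  · clear * - e0_0 e10_1 e11_2 e12_1 e2_0 e4_0 e5_2 e6_0 e7_2 e9_2 m0 m10 m12 m14 m16 m20 m6 m7
    grind
  · clear * - e0_1 e10_2 e11_0 e11_2 e12_1 e12_2 e2_0 e3_0 e3_1 e4_1 e5_1 e6_0 e7_2 e9_2 m10 m12 m13 m14 m16 m17 m20 m3 m4 m6 m7 m8 m9
    grind
  · clear * - e0_1 e10_2 e11_0 e11_2 e12_1 e12_2 e2_0 e3_0 e3_1 e4_1 e5_1 e6_0 e7_2 e9_2 m10 m11 m12 m13 m14 m16 m17 m20 m3 m4 m6 m7 m8 m9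
    grind
  · clear * - m12
    grind
  · clear * - e0_2 e10_2 e11_2 e12_2 e1_0 e1_1 e2_0 e2_2 e3_0 e3_1 e3_2 e5_2 e6_2 e8_1 e9_2 m0 m1 m10 m11 m16 m17 m19 m2 m3 m4
    grind
  · clear * - e0_0 e0_2 e2_0 e2_1 e2_2 e5_0 e5_1 e5_2 e6_0 e6_2 m1 m12 m14 m3 m4 m6 m8 m9
    grind
  · clear * - e0_0 e12_1 e12_2 e1_0 e1_1 e2_0 e2_1 e3_2 e4_0 e4_1 e4_2 e5_1 e6_0 e6_1 e6_2 e7_2 e8_1 e9_1 e9_2 m0 m10 m11 m12 m14 m17 m18 m19 m2 m5 m6 m7 m8 m9
    grind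
  · clear * - e0_0 e12_1 e12_2 e1_0 e1_1 e2_0 e2_1 e3_2 e4_0 e4_1 e4_2 e5_1 e6_0 e6_1 e6_2 e7_2 e8_1 e9_1 e9_2 m0 m10 m11 m12 m13 m14 m17 m18 m19 m2 m5 m6 m7 m8 m9
    grind
  · clear * - e0_0 e0_2 e10_1 e10_2 e11_2 e12_1 e12_2 e1_1 e1_2 e2_0 e2_1 e2_2 e3_1 e3_2 e4_0 e5_0 e5_1 e6_2 e8_0 e9_2 m11 m12 m13 m17 m18 m19 m5 m6 m8 m9
    grind
  · clear * - e0_0 e0_2 e10_1 e11_0 e11_2 e12_1 e12_2 e2_1 e2_2 e3_1 e3_2 e4_2 e7_2 m1 m11 m13 m14 m16 m17 m18 m5 m7 m8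
    grind
  · clear * - e0_1 e0_2 e10_2 e11_2 e12_2 e1_0 e1_1 e2_0 e2_2 e3_0 e3_1 e3_2 e5_2 e6_1 e6_2 e8_1 e9_2 m0 m1 m10 m11 m16 m17 m19 m2 m3 m4 m8 m9
    grind
  · clear * - e0_0 e0_2 e10_1 e11_0 e11_2 e12_1 e12_2 e2_1 e2_2 e3_1 e3_2 e4_2 e7_2 m1 m11 m13 m16 m17 m18 m5 m7 m8
    grind
  · clear * - e10_1 e11_0 e11_2 e1_0 e1_1 e2_0 e2_2 e3_1 e3_2 e4_0 e4_1 e5_1 e6_0 e6_1 e6_2 e7_1 e7_2 e8_1 m0 m1 m10 m11 m12 m13 m14 m15 m16 m19 m2 m20 m6 m7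
    grind
  · clear * - e10_1 e10_2 e12_1 e12_2 e1_0 e1_1 e2_2 e3_1 e3_2 e5_0 e6_0 e6_1 e6_2 e7_1 e7_2 e8_1 m0 m1 m10 m11 m12 m14 m15 m17 m19 m2 m20 m3 m6 m8 m9
    grind
  · clear * - e10_2 e11_0 e11_2 e12_1 e12_2 e2_0 e4_0 e4_1 e5_0 e5_1 m13 m15 m16 m17 m3 m7 m8 m9
    grind
  · clear * - e0_0 e10_2 e12_1 e1_0 e1_1 e2_1 e3_0 e3_2 e4_0 e4_1 e4_2 e5_1 e6_1 e6_2 e8_1 e9_1 m11 m13 m19 m2 m20 m3 m4 m8 m9
    grind
  · clear * - m16
    grind
  · clear * - e0_0 e0_2 e10_1 e10_2 e12_1 e12_2 e1_1 e1_2 e2_2 e3_0 e3_1 e3_2 e4_0 e6_0 e6_2 e7_2 e8_0 m11 m14 m17 m19 m20 m3 m4 m7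
    grind
  · clear * - e0_0 e0_2 e10_2 e12_1 e12_2 e1_0 e1_1 e2_2 e3_1 e4_0 e4_1 e5_0 e5_1 e5_2 e6_1 e6_2 e8_1 e9_1 e9_2 m1 m10 m17 m18 m19 m2 m3 m4 m5 m6 m9
    grind
  · clear * - e0_0 e0_1 e0_2 e10_1 e10_2 e2_0 e2_1 e2_2 e3_0 e4_1 e4_2 e5_1 e5_2 e6_0 e9_2 m1 m10 m12 m14 m17 m3 m4 m6 m9
    grind
  · clear * - e0_0 e0_1 e0_2 e10_1 e10_2 e2_0 e2_1 e2_2 e3_0 e4_1 e4_2 e5_1 e5_2 e6_0 e9_2 m1 m10 m12 m14 m3 m4 m6 m9
    grind
  · clear * - e0_0 e0_1 e10_2 e11_2 e1_0 e1_2 e2_0 e2_1 e3_0 e3_1 e5_2 e6_1 e7_2 e8_0 e8_1 e9_1 e9_2 m1 m12 m18 m2 m3 m4 m6 m7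
    grind
  · clear * - e0_0 e10_1 e11_0 e1_1 e1_2 e2_0 e4_0 e4_2 e5_1 e5_2 e6_0 e6_2 e7_2 e8_0 e9_2 m1 m13 m14 m16 m17 m19 m5 m6 m7 m9
    grind
  · clear * - m18
    grind
  · clear * - e0_0 e0_1 e10_2 e11_0 e11_2 e12_1 e12_2 e1_0 e1_1 e1_2 e2_0 e3_1 e3_2 e4_1 e4_2 e5_1 e5_2 e6_0 e6_2 e8_0 m1 m10 m11 m12 m14 m17 m19 m3 m4 m5 m8 m9
    grind
  · clear * - e0_0 e0_1 e10_1 e10_2 e11_0 e11_2 e12_1 e1_2 e3_0 e4_2 e5_0 e5_1 e5_2 e6_0 e6_1 e6_2 e8_0 e9_1 e9_2 m1 m10 m14 m16 m19 m2 m20 m6 m8 m9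
    grind
  · clear * - m19
    grind
  · clear * - e0_1 e11_0 e11_2 e12_1 e1_1 e1_2 e3_1 e3_2 e4_1 e4_2 e5_1 e5_2 e6_0 e6_2 e7_2 e8_0 e9_2 m0 m1 m11 m13 m18 m19 m20 m6 m7 m8 m9
    grind
  · clear * - e10_1 e10_2 e11_0 e11_2 e12_2 e1_0 e1_2 e2_0 e2_1 e3_0 e3_1 e3_2 e4_0 e4_1 e5_0 e5_2 e6_1 e7_2 e8_0 e8_1 m0 m1 m11 m12 m13 m17 m18 m2 m20 m5 m7 m8
    grind
  · clear * - m20
    grind

end Cfsg.Lib.K7.N3
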