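import Cfsg.Agent.K7.NDefs

/-! # Linear algebra over the field with two elements -/

set_option autoImplicit false

namespace Cfsg.Lib.K7.N3

open Cfsg Subgroup Cfsg.Lib.Trans Cfsg.Lib.Gold Matrix
open Cfsg.Lib.P8 (L32 V3 O2 Om Jt Phi EA Pj Ty Mx Crd)
open scoped commutatorElement

universe u

theorem pr_add_l (η η' n : V3 → ZMod 2) : pr (η + η') n = pr η n + pr η' n := by
  simp only [pr, Pi.add_apply, add_mul, add_smul, Finset.sum_add_distrib]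

theorem pr_add_r (η n n' : V3 → ZMod 2) : pr η (n + n') = pr η n + pr η n' := by
  simp only [pr, Pi.add_apply, mul_add, add_smul, Finset.sum_add_distrib]

theorem pr_zero_l (n : V3 → ZMod 2) : pr 0 n = 0 := by simp [pr]

theorem pr_zero_r (η : V3 → ZMod 2) : pr η 0 = 0 := by simp [pr]

theorem cx_add_l (a b d : V3) : cx (a + b) d = cx a d + cx b d := by
  ext i; fin_cases i <;> simp [cx] <;> ring

theorem cx_add_r (a b d : V3) : cx a (b + d) = cx a b + cx a d := by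
  ext i; fin_cases i <;> simp [cx] <;> ring

theorem cx_zero_l (a : V3) : cx 0 a = 0 := by revert a; decide

theorem cx_zero_r (a : V3) : cx a 0 = 0 := by revert a; decide

theorem cx_self (ε : ZMod 2) (a : V3) : cx (ε • a) a = 0 := by revert ε a; decide

theorem cx_e2 (a : V3) (h : cx a e2 = 0) : a = a 2 • e2 := by revert a; decide

theorem cx_inj (a : V3) (h : ∀ b, cx a b = 0) : a = 0 := by revert a; decide

theorem cx_inj' (b : V3) (h : ∀ a, cx a b = 0) : b = 0 := by revert b; decide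

namespace N3Q

theorem cx_eq : ∀ a b : V3,
    cx a b = ![a 1 * b 2 - a 2 * b 1, a 2 * b 0 - a 0 * b 2, a 0 * b 1 - a 1 * b 0] := by decide

theorem adj' {R : Type} [CommRing R] (B : Matrix (Fin 3) (Fin 3) R) (a b : Fin 3 → R) :
    ![(a ᵥ* B) 1 * (b ᵥ* B) 2 - (a ᵥ* B) 2 * (b ᵥ* B) 1,
      (a ᵥ* B) 2 * (b ᵥ* B) 0 - (a ᵥ* B) 0 * (b ᵥ* B) 2,
      (a ᵥ* B) 0 * (b ᵥ* B) 1 - (a ᵥ* B) 1 * (b ᵥ* B) 0] =
    adjugate B *ᵥ ![a 1 * b 2 - a 2 * b 1, a 2 * b 0 - a 0 * b 2, a 0 * b 1 - a 1 * b 0] := by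
  rw [adjugate_fin_three]
  ext i
  fin_cases i <;> simp [vecMul, mulVec, dotProduct, Fin.sum_univ_three] <;> ring

theorem adj (B : Matrix (Fin 3) (Fin 3) (ZMod 2)) (a b : V3) :
    cx (a ᵥ* B) (b ᵥ* B) = adjugate B *ᵥ cx a b := by
  rw [cx_eq, cx_eq, adj']

theorem im (A : L32) : (A⁻¹).1 * A.1 = 1 := congrArg Subtype.val (inv_mul_cancel A)

theorem mi (A : L32) : A.1 * (A⁻¹).1 = 1 := congrArg Subtype.val (mul_inv_cancel A)

theorem inj (A : L32) : Function.Injective fun v : V3 => A.1 *ᵥ v := fun v w e => by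
  have := congrArg (fun x => (A⁻¹).1 *ᵥ x) e
  simpa only [mulVec_mulVec, im, one_mulVec] using this

theorem bij (A : L32) : Function.Bijective fun v : V3 => A.1 *ᵥ v :=
  Finite.injective_iff_bijective.1 (inj A)

theorem zero (A : L32) {v : V3} : A.1 *ᵥ v = 0 ↔ v = 0 :=
  ⟨fun e => inj A (e.trans (mulVec_zero _).symm), fun e => by rw [e, mulVec_zero]⟩

theorem ph_iff (A : L32) : ph A = e2 ↔ e2 = e2 ᵥ* A.1 :=
  ⟨fun e => by conv_rhs => rw [← e, ph, vecMul_vecMul, im, vecMul_one],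
    fun e => by rw [ph]; conv_lhs => rw [e, vecMul_vecMul, mi, vecMul_one]⟩

theorem ev : ∀ z φ : V3, z ≠ 0 → φ ≠ 0 → φ ⬝ᵥ z = 0 → ind z φ 0 = 0 ∧ ∑ v, ind z φ v = 0 := by
  decide +kernel

theorem pl_iff : ∀ A : L32, (A.1 2 0 = 0 ∧ A.1 2 1 = 0) ↔ e2 = e2 ᵥ* A.1 := by decide +kernel

theorem up_iff : ∀ A : L32, (A.1 1 0 = 0 ∧ A.1 2 0 = 0 ∧ A.1 2 1 = 0) ↔
    A.1 *ᵥ e0 = e0 ∧ e2 = e2 ᵥ* A.1 := by decide +kernel

theorem flag : ∀ z φ : V3, z ≠ 0 → φ ≠ 0 → φ ⬝ᵥ z = 0 →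
    ∃ A : L32, A.1 *ᵥ e0 = z ∧ φ ᵥ* A.1 = e2 := by decide +kernel

end N3Q

open N3Q

theorem cx_eqv (A : L32) (a b : V3) : cx (a ᵥ* (A⁻¹).1) (b ᵥ* (A⁻¹).1) = A.1 *ᵥ cx a b := by
  have e : adjugate (A⁻¹).1 = A.1 := by
    have h1 := mul_adjugate (A⁻¹).1
    rw [(A⁻¹).2, one_smul] at h1
    rw [← Matrix.one_mul (adjugate _), ← mi A, Matrix.mul_assoc, h1, Matrix.mul_one]
  rw [adj, e]

theorem pt_one : pt 1 = e0 := one_mulVec _

theorem ph_one : ph 1 = e2 := by rw [ph, inv_one]; exact vecMul_one _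

theorem pt_mul (A B : L32) : pt (A * B) = A.1 *ᵥ pt B := (mulVec_mulVec _ _ _).symm

theorem ph_mul (A B : L32) : ph (A * B) = ph B ᵥ* (A⁻¹).1 := by
  rw [ph, ph, _root_.mul_inv_rev, vecMul_vecMul]; rfl

theorem pt_ne (A : L32) : pt A ≠ 0 := fun e => absurd ((zero A).1 e) (by decide)

theorem ph_dot (A : L32) (v : V3) : ph A ⬝ᵥ (A.1 *ᵥ v) = v 2 := by
  rw [dotProduct_mulVec, ph, vecMul_vecMul, im, vecMul_one]
  revert v; decide

theorem ph_ne (A : L32) : ph A ≠ 0 := fun e => by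
  have := ph_dot A e2
  rw [e, zero_dotProduct] at this
  exact absurd this (by decide)

theorem ph_pt (A : L32) : ph A ⬝ᵥ pt A = 0 := ph_dot A e0

theorem pl_iff (A : L32) : pl A ↔ ph A = e2 := (N3Q.pl_iff A).trans (ph_iff A).symm

theorem up_iff (A : L32) : up A ↔ pt A = e0 ∧ ph A = e2 :=
  (N3Q.up_iff A).trans (and_congr_right' (ph_iff A).symm)

theorem ex_flag (z φ : V3) (hz : z ≠ 0) (hφ : φ ≠ 0) (h : φ ⬝ᵥ z = 0) :
    ∃ A : L32, pt A = z ∧ ph A = φ :=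
  let ⟨A, h1, h2⟩ := flag z φ hz hφ h
  ⟨A, h1, by rw [ph, ← h2, vecMul_vecMul, mi, vecMul_one]⟩

theorem pr_eqv (A : L32) (η η' n n' : V3 → ZMod 2) (h : ∀ v, η' (A.1 *ᵥ v) = η v)
    (h' : ∀ v, n' (A.1 *ᵥ v) = n v) : pr η' n' = A.1 *ᵥ pr η n := by
  rw [pr, pr, ← (bij A).sum_comp, mulVec_sum]
  exact Finset.sum_congr rfl fun v _ => by rw [h, h', mulVec_smul]

theorem ind_eqv (A B : L32) (v : V3) :
    ind (pt (A * B)) (ph (A * B)) (A.1 *ᵥ v) = ind (pt B) (ph B) v := by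
  have e : ph (A * B) ⬝ᵥ (A.1 *ᵥ v) = ph B ⬝ᵥ v := by
    rw [dotProduct_mulVec, ph_mul, vecMul_vecMul, im, vecMul_one]
  have f : A.1 *ᵥ v = A.1 *ᵥ pt B ↔ v = pt B := (inj A).eq_iff
  simp only [ind, e, pt_mul, ne_eq, zero, f]

theorem ev_ind (A : L32) : Ev (ind (pt A) (ph A)) := ev _ _ (pt_ne A) (ph_ne A) (ph_pt A)

theorem Ev.add {η η' : V3 → ZMod 2} (h : Ev η) (h' : Ev η') : Ev (η + η') :=
  ⟨by rw [Pi.add_apply, h.1, h'.1, add_zero], by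
    simp only [Pi.add_apply, Finset.sum_add_distrib, h.2, h'.2, add_zero]⟩

theorem ev_zero : Ev 0 := ⟨rfl, Finset.sum_const_zero⟩

theorem Ev.comp {η : V3 → ZMod 2} (h : Ev η) (A : L32) : Ev fun v => η (A.1 *ᵥ v) :=
  ⟨by simp only [mulVec_zero, h.1], ((bij A).sum_comp η).trans h.2⟩

end Cfsg.Lib.K7.N3
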