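import Cfsg.Agent.K7.NDefs

/-! Orthogonal subgroups of the fixed space of an involution. -/

set_option autoImplicit false
set_option maxHeartbeats 400000

namespace Cfsg.Lib.K7.N3

open Cfsg Subgroup Cfsg.Lib.Trans Cfsg.Lib.Gold Matrix
open Cfsg.Lib.P8 (L32 V3 O2 Om Jt Phi EA Pj Ty Mx Crd)

namespace N3S

theorem orth (B C : AddSubgroup (Fin 4 → ZMod 2)) (h : ∀ x ∈ C, ∀ y ∈ B, x ⬝ᵥ y = 0) :
    Nat.card B * Nat.card C ≤ 16 := by
  let β : LinearMap.BilinForm (ZMod 2) (Fin 4 → ZMod 2) := Matrix.toBilin' 1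
  have hβ : β.Nondegenerate :=
    LinearMap.BilinForm.nondegenerate_toBilin'_of_det_ne_zero' _ (by simp)
  have h1 := LinearMap.BilinForm.finrank_orthogonal hβ (AddSubgroup.toZModSubmodule 2 C)
  have h2 : AddSubgroup.toZModSubmodule 2 B ≤ β.orthogonal (AddSubgroup.toZModSubmodule 2 C) :=
    fun y hy => LinearMap.BilinForm.mem_orthogonal_iff.2 fun x hx => by
      change β x y = 0
      rw [Matrix.toBilin'_apply', Matrix.one_mulVec]
      exact h x hx y hy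
  have h3 := Submodule.finrank_mono h2
  have h4 := Submodule.finrank_le (AddSubgroup.toZModSubmodule 2 C)
  have h5 : Module.finrank (ZMod 2) (Fin 4 → ZMod 2) = 4 := by simp
  have h6 : ∀ D : AddSubgroup (Fin 4 → ZMod 2),
      Nat.card D = 2 ^ Module.finrank (ZMod 2) (AddSubgroup.toZModSubmodule 2 D) := fun D => by
    have := Module.natCard_eq_pow_finrank (K := ZMod 2) (V := AddSubgroup.toZModSubmodule 2 D)
    rwa [Nat.card_zmod] at this
  rw [h6, h6, ← pow_add]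
  exact Nat.pow_le_pow_right (n := 2) (j := 4) (by norm_num) (by omega)

theorem gen (P : (V3 → ZMod 2) → Prop) (p : Fin 4 → V3) (l : V3)
    (h1 : ∀ n, P n → (∀ i, n (p i) = 0) → n = 0)
    (h2 : ∀ η n, P η → P n → l ⬝ᵥ pr η n = (fun i => η (p i)) ⬝ᵥ fun i => n (p i))
    (B C : AddSubgroup (V3 → ZMod 2)) (hB : ∀ n ∈ B, P n) (hC : ∀ n ∈ C, P n)
    (h : ∀ η ∈ C, ∀ n ∈ B, pr η n = 0) : Nat.card B * Nat.card C ≤ 16 := by
  let φ : (V3 → ZMod 2) →+ (Fin 4 → ZMod 2) :=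
    { toFun := fun n i => n (p i), map_zero' := rfl, map_add' := fun _ _ => rfl }
  have key : ∀ D : AddSubgroup (V3 → ZMod 2), (∀ n ∈ D, P n) → Nat.card D ≤ Nat.card (D.map φ) :=
    fun D hD => Nat.card_le_card_of_injective (fun n => ⟨φ n.1, n.1, n.2, rfl⟩) fun a b e => by
      have e1 : φ (a.1 - b.1) = 0 := by rw [map_sub, sub_eq_zero]; exact congrArg Subtype.val e
      exact Subtype.ext (sub_eq_zero.1 (h1 _ (hD _ (sub_mem a.2 b.2)) fun i => congrFun e1 i))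
  refine (Nat.mul_le_mul (key B hB) (key C hC)).trans (orth _ _ ?_)
  rintro _ ⟨η, hη, rfl⟩ _ ⟨n, hn, rfl⟩
  refine (h2 η n (hC η hη) (hB n hn)).symm.trans ?_
  rw [h η hη n hn, dotProduct_zero]


/-- A function on the points given by its values. -/
def mk (a b c d e f g h : ZMod 2) : V3 → ZMod 2 := fun v =>
  if v 0 = 0 then if v 1 = 0 then if v 2 = 0 then a else b else if v 2 = 0 then c else d
  else if v 1 = 0 then if v 2 = 0 then e else f else if v 2 = 0 then g else h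

theorem mk_eq_1' : type_of% @mk.eq_1 := @mk.eq_1

theorem all8 : ∀ v : V3, v = ![0, 0, 0] ∨ v = ![0, 0, 1] ∨ v = ![0, 1, 0] ∨ v = ![0, 1, 1] ∨
    v = ![1, 0, 0] ∨ v = ![1, 0, 1] ∨ v = ![1, 1, 0] ∨ v = ![1, 1, 1] := by decide

theorem ex_mk (n : V3 → ZMod 2) (h : n 0 = 0) : ∃ b c d e f g h, n = mk 0 b c d e f g h := by
  refine ⟨n ![0, 0, 1], n ![0, 1, 0], n ![0, 1, 1], n ![1, 0, 0], n ![1, 0, 1],
    n ![1, 1, 0], n ![1, 1, 1], funext fun v => ?_⟩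
  have h0 : n ![0, 0, 0] = 0 := (congrArg n (by decide : (![0, 0, 0] : V3) = 0)).trans h
  rcases all8 v with e | e | e | e | e | e | e | e <;> rw [e]
  · exact h0
  all_goals rfl

theorem five : ∀ s : L32, s.1 1 0 = 0 ∧ s.1 2 0 = 0 ∧ s.1 2 1 = 0 → s ≠ 1 → s * s = 1 →
    s.1 = !![1, 0, 0; 0, 1, 1; 0, 0, 1] ∨ s.1 = !![1, 0, 1; 0, 1, 0; 0, 0, 1] ∨
    s.1 = !![1, 0, 1; 0, 1, 1; 0, 0, 1] ∨ s.1 = !![1, 1, 0; 0, 1, 0; 0, 0, 1] ∨
    s.1 = !![1, 1, 1; 0, 1, 0; 0, 0, 1] := by decide +kernel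

/-- The list of the functions fixed by a transvection with centre `z` and axis `φ`. -/
def fx (p : Fin 4 → V3) (z : V3) (x : Fin 4 → ZMod 2) : V3 → ZMod 2 := fun v =>
  if v = 0 then 0 else if v = p 0 then x 0 else if v = p 1 then x 1 else
    if v = p 2 ∨ v = p 2 + z then x 2 else if v = p 3 ∨ v = p 3 + z then x 3 else x 0 + x 1

theorem fx_eq_1' : type_of% @fx.eq_1 := @fx.eq_1

theorem gen' (A : Matrix (Fin 3) (Fin 3) (ZMod 2)) (p : Fin 4 → V3) (l : V3)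
    (h0 : ∀ b c d e f g h : ZMod 2, ∑ v, mk 0 b c d e f g h v = 0 →
      (∀ v, mk 0 b c d e f g h (A *ᵥ v) = mk 0 b c d e f g h v) →
      mk 0 b c d e f g h = fx p (p 0) fun i => mk 0 b c d e f g h (p i))
    (h1 : fx p (p 0) 0 = 0)
    (h2 : ∀ x y, l ⬝ᵥ pr (fx p (p 0) x) (fx p (p 0) y) = x ⬝ᵥ y)
    (B C : AddSubgroup (V3 → ZMod 2))
    (hB : ∀ n ∈ B, Ev n ∧ ∀ v, n (A *ᵥ v) = n v) (hC : ∀ η ∈ C, Ev η ∧ ∀ v, η (A *ᵥ v) = η v)
    (h : ∀ η ∈ C, ∀ n ∈ B, pr η n = 0) : Nat.card B * Nat.card C ≤ 16 := by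
  have key : ∀ n : V3 → ZMod 2, (Ev n ∧ ∀ v, n (A *ᵥ v) = n v) → n = fx p (p 0) fun i => n (p i) :=
    fun n hn => by
      obtain ⟨b, c, d, e, f, g, h, rfl⟩ := ex_mk n hn.1.1
      exact h0 b c d e f g h hn.1.2 hn.2
  refine gen (fun n => n = fx p (p 0) fun i => n (p i)) p l (fun n a b => ?_) (fun η n a b => ?_) B C
    (fun n hn => key n (hB n hn)) (fun n hn => key n (hC n hn)) h
  · rw [a, ← h1]; congr 1; exact funext b
  · rw [← h2, ← a, ← b]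

end N3S

theorem eO (s : L32) (hs : up s) (h1 : s ≠ 1) (h2 : s * s = 1) (B C : AddSubgroup (V3 → ZMod 2))
    (hB : ∀ n ∈ B, Ev n ∧ ∀ v, n (s.1 *ᵥ v) = n v) (hC : ∀ η ∈ C, Ev η ∧ ∀ v, η (s.1 *ᵥ v) = η v)
    (h : ∀ η ∈ C, ∀ n ∈ B, pr η n = 0) : Nat.card B * Nat.card C ≤ 16 := by
  rcases N3S.five s hs h1 h2 with e | e | e | e | e <;> rw [e] at hB hC
  · exact N3S.gen' _ ![![0, 1, 0], ![1, 1, 0], ![0, 0, 1], ![1, 0, 1]] ![0, 1, 0]
      (by decide +kernel) (by decide +kernel) (by unfold pr; decide +kernel) B C hB hC h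
  · exact N3S.gen' _ ![![1, 0, 0], ![1, 1, 0], ![0, 0, 1], ![0, 1, 1]] ![1, 0, 0]
      (by decide +kernel) (by decide +kernel) (by unfold pr; decide +kernel) B C hB hC h
  · exact N3S.gen' _ ![![1, 1, 0], ![1, 0, 0], ![0, 0, 1], ![0, 1, 1]] ![1, 0, 0]
      (by decide +kernel) (by decide +kernel) (by unfold pr; decide +kernel) B C hB hC h
  · exact N3S.gen' _ ![![1, 0, 0], ![1, 0, 1], ![0, 1, 0], ![0, 1, 1]] ![1, 0, 0]
      (by decide +kernel) (by decide +kernel) (by unfold pr; decide +kernel) B C hB hC h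
  · exact N3S.gen' _ ![![1, 0, 0], ![1, 1, 1], ![0, 1, 0], ![0, 0, 1]] ![1, 0, 0]
      (by decide +kernel) (by decide +kernel) (by unfold pr; decide +kernel) B C hB hC h

end Cfsg.Lib.K7.N3
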