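import Cfsg.Agent.K7.Loc

/-!
# Pushing up `L₃(2)` with a fixed point free element of order seven: definitions
-/

set_option autoImplicit false

namespace Cfsg.Lib.K7.N3

open Cfsg Subgroup Cfsg.Lib.Trans Cfsg.Lib.Gold Matrix
open Cfsg.Lib.P8 (L32 V3 O2 Om Jt Phi EA Pj Ty Mx Crd)
open scoped commutatorElement

universe u

def e0 : V3 := ![1, 0, 0]
def e1 : V3 := ![0, 1, 0]
def e2 : V3 := ![0, 0, 1]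

/-- Upper triangular. -/
def up (A : L32) : Prop := A.1 1 0 = 0 ∧ A.1 2 0 = 0 ∧ A.1 2 1 = 0

/-- Stabilizes the standard plane. -/
def pl (A : L32) : Prop := A.1 2 0 = 0 ∧ A.1 2 1 = 0

/-- The image of the standard point. -/
def pt (A : L32) : V3 := A.1 *ᵥ e0

/-- The functional defining the image of the standard plane. -/
def ph (A : L32) : V3 := e2 ᵥ* (A⁻¹).1

/-- Cross product. -/
def cx (a b : V3) : V3 := ![a 1 * b 2 + a 2 * b 1, a 2 * b 0 + a 0 * b 2, a 0 * b 1 + a 1 * b 0]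

/-- The pairing of functions on the points. -/
def pr (η n : V3 → ZMod 2) : V3 := ∑ v, (η v * n v) • v

/-- Functions of even weight on the seven points. -/
def Ev (η : V3 → ZMod 2) : Prop := η 0 = 0 ∧ ∑ v, η v = 0

/-- The two points of the plane `φ` other than `z`. -/
def ind (z φ : V3) : V3 → ZMod 2 := fun w => if w ≠ 0 ∧ w ≠ z ∧ φ ⬝ᵥ w = 0 then 1 else 0

/-- The linear conditions on a function on the flags. -/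
structure Cd (f : L32 → V3) : Prop where
  inv : ∀ A B, up B → f (A * B) = f A
  mem : ∀ A, ph A ⬝ᵥ f A = 0
  n1 : ∀ Y A : L32, orderOf Y = 7 → ∑ i ∈ Finset.range 7, f (Y ^ i * A) = 0
  n2 : ∀ Y A : L32, orderOf Y = 7 → ∑ i ∈ Finset.range 7, (Y ^ i).1 *ᵥ f ((Y ^ i)⁻¹ * A) = 0

section
variable {G : Type u} [Group G]

/-- Elements of order seven of `M` act without fixed points on `T`. -/
def Fp (M T : Subgroup G) : Prop := ∀ σ ∈ M, orderOf σ = 7 → ∀ w ∈ T, σ * w = w * σ → w = 1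

/-- Pairing data: `u` pairs `R` into the natural module `Y / ker κ`. -/
structure PD (M T R Y : Subgroup G) (ρ : G → L32) (κ : G → V3) (u : G) : Prop where
  pj : Pj M T ρ
  nT : M ≤ Ns T
  fp : Fp M T
  leR : R ≤ T
  nR : M ≤ Ns R
  leY : Y ≤ T
  nY : M ≤ Ns Y
  add : ∀ a ∈ Y, ∀ b ∈ Y, κ (a * b) = κ a + κ b
  eqv : ∀ h ∈ M, ∀ a ∈ Y, κ (h * a * h⁻¹) = (ρ h).1 *ᵥ κ a
  uT : u ∈ T
  cm : ∀ t ∈ R, ⁅u, t⁆ ∈ Y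
  c2 : ∀ t ∈ R, κ ⁅u, t⁆ 2 = 0
  inv : ∀ s ∈ M, up (ρ s) → ∀ t ∈ R, κ ⁅s * u * s⁻¹, t⁆ = κ ⁅u, t⁆

/-- The configuration. -/
structure NN (M T S V : Subgroup G) (π : G → L32) (c : G → V3) : Prop where
  pj : Pj M T π
  nT : M ≤ Ns T
  crd : Crd M V π c
  leV : V ≤ T
  cV : V ≤ Cs T
  nV : M ≤ Ns V
  om : ∀ w ∈ T, w * w = 1 → w ∈ Cs T → w ∈ V
  fp : Fp M T
  memS : ∀ g, g ∈ S ↔ g ∈ M ∧ up (π g)
  mx : ∀ C : Subgroup G, C ≠ ⊥ → C ≤ T → M ≤ Ns C → Ns C ≤ M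
  ne : ¬ T ≤ V

/-- An elementary abelian subgroup of maximal order of `S` not contained in `T`. -/
def Of (S T : Subgroup G) : Prop :=
  ∃ A : Subgroup G, A ≤ S ∧ EA A ∧ ¬ A ≤ T ∧ ∀ E : Subgroup G, E ≤ S → EA E → Nat.card E ≤ Nat.card A

/-- The module of order `2 ^ 9`. -/
structure XC (M T V X : Subgroup G) (π : G → L32) (c : G → V3) (ξ ν : G → V3 → ZMod 2) : Prop where
  leV : V ≤ X
  leT : X ≤ T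
  ea : EA X
  nX : M ≤ Ns X
  add : ∀ a ∈ X, ∀ b ∈ X, ξ (a * b) = ξ a + ξ b
  ev : ∀ a ∈ X, Ev (ξ a)
  ker : ∀ a ∈ X, ξ a = 0 ↔ a ∈ V
  sur : ∀ η, Ev η → ∃ a ∈ X, ξ a = η
  eqv : ∀ h ∈ M, ∀ a ∈ X, ∀ v, ξ (h * a * h⁻¹) ((π h).1 *ᵥ v) = ξ a v
  add' : ∀ a ∈ T, ∀ b ∈ T, ν (a * b) = ν a + ν b
  ev' : ∀ t ∈ T, Ev (ν t)
  eqv' : ∀ h ∈ M, ∀ t ∈ T, ∀ v, ν (h * t * h⁻¹) ((π h).1 *ᵥ v) = ν t v
  cm : ∀ a ∈ X, ∀ t ∈ T, ⁅a, t⁆ ∈ V ∧ c ⁅a, t⁆ = pr (ξ a) (ν t)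

/-- An involution `u` of `T` outside `V` whose coset is fixed by `S`. -/
structure UU (T S V : Subgroup G) (c : G → V3) (u : G) : Prop where
  uT : u ∈ T
  uV : u ∉ V
  sq : u * u = 1
  cS : ∀ s ∈ S, ⁅u, s⁆ ∈ V
  c2 : ∀ t ∈ T, c ⁅u, t⁆ 2 = 0

/-- The parameters of the action of such an involution. -/
structure UA (M T V : Subgroup G) (π : G → L32) (c : G → V3) (u : G) (ν : G → V3 → ZMod 2) (τ : G → V3)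
    (ε : ZMod 2) : Prop where
  add : ∀ a ∈ T, ∀ b ∈ T, τ (a * b) = τ a + τ b
  eqv : ∀ h ∈ M, ∀ t ∈ T, τ (h * t * h⁻¹) = τ t ᵥ* ((π h)⁻¹).1
  add' : ∀ a ∈ T, ∀ b ∈ T, ν (a * b) = ν a + ν b
  ev' : ∀ t ∈ T, Ev (ν t)
  eqv' : ∀ h ∈ M, ∀ t ∈ T, ∀ v, ν (h * t * h⁻¹) ((π h).1 *ᵥ v) = ν t v
  cm : ∀ m ∈ M, ∀ t ∈ T, ⁅m * u * m⁻¹, t⁆ ∈ V ∧
    c ⁅m * u * m⁻¹, t⁆ = pr (ind (pt (π m)) (ph (π m))) (ν t) + cx (τ t) (ph (π m))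
  nu : ∀ m ∈ M, ν (m * u * m⁻¹) = 0
  tu : ∀ m ∈ M, τ (m * u * m⁻¹) = ε • ph (π m)

/-- The action of such an involution. -/
structure UB (M T V : Subgroup G) (π : G → L32) (c : G → V3) (u : G) (τ : G → V3) (ε : ZMod 2) : Prop where
  add : ∀ a ∈ T, ∀ b ∈ T, τ (a * b) = τ a + τ b
  eqv : ∀ h ∈ M, ∀ t ∈ T, τ (h * t * h⁻¹) = τ t ᵥ* ((π h)⁻¹).1
  sur : ∀ φ, ∃ t ∈ T, τ t = φ
  cm : ∀ m ∈ M, ∀ t ∈ T, ⁅m * u * m⁻¹, t⁆ ∈ V ∧ c ⁅m * u * m⁻¹, t⁆ = cx (τ t) (ph (π m))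
  tu : ∀ m ∈ M, τ (m * u * m⁻¹) = ε • ph (π m)

/-- The element `g` and the involution `u`. -/
structure GU (M T S V : Subgroup G) (π : G → L32) (c : G → V3) (g u : G) : Prop where
  gS : g ∈ Ns S
  g2 : g * g ∈ S
  gM : g ∉ M
  gz : ∀ v ∈ V, c v = e0 → g * v * g⁻¹ = v
  gW : ∀ v ∈ V, c v 2 = 0 → g * v * g⁻¹ ∈ V ∧ c (g * v * g⁻¹) 2 = 0
  gW' : ∀ v ∈ V, c v 2 = 0 → g⁻¹ * v * g ∈ V ∧ c (g⁻¹ * v * g) 2 = 0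
  uu : UU T S V c u
  u1 : g⁻¹ * u * g ∈ V ∧ c (g⁻¹ * u * g) 2 = 1
  u2 : g * u * g⁻¹ ∈ V ∧ c (g * u * g⁻¹) 2 = 1
  ga : ∀ m ∈ M, pl (π m) → g⁻¹ * m * g ∈ M ∧ pl (π (g⁻¹ * m * g))

/-- The module of order `2 ^ 6`. -/
structure XB (M T V X : Subgroup G) (π : G → L32) (c : G → V3) (u : G) (τ ξ : G → V3) : Prop where
  leV : V ≤ X
  leT : X ≤ T
  ea : EA X
  nX : M ≤ Ns X
  uX : u ∈ X
  xu : ξ u = e2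
  add : ∀ a ∈ X, ∀ b ∈ X, ξ (a * b) = ξ a + ξ b
  ker : ∀ a ∈ X, ξ a = 0 ↔ a ∈ V
  sur : ∀ φ, ∃ a ∈ X, ξ a = φ
  eqv : ∀ h ∈ M, ∀ a ∈ X, ξ (h * a * h⁻¹) = ξ a ᵥ* ((π h)⁻¹).1
  add' : ∀ a ∈ T, ∀ b ∈ T, τ (a * b) = τ a + τ b
  eqv' : ∀ h ∈ M, ∀ t ∈ T, τ (h * t * h⁻¹) = τ t ᵥ* ((π h)⁻¹).1
  cm : ∀ a ∈ X, ∀ t ∈ T, ⁅a, t⁆ ∈ V ∧ c ⁅a, t⁆ = cx (τ t) (ξ a)

/-- The conjugate module. -/
structure XG (T S X : Subgroup G) (ξ : G → V3) (g : G) : Prop where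
  le : ∀ a ∈ X, g * a * g⁻¹ ∈ T
  cS : ∀ a ∈ X, ξ a 0 = 0 → ∀ s ∈ S, ⁅g * a * g⁻¹, s⁆ ∈ X

end

theorem e0_eq_1' : type_of% @e0.eq_1 := @e0.eq_1
theorem e1_eq_1' : type_of% @e1.eq_1 := @e1.eq_1
theorem e2_eq_1' : type_of% @e2.eq_1 := @e2.eq_1
theorem up_eq_1' : type_of% @up.eq_1 := @up.eq_1
theorem pl_eq_1' : type_of% @pl.eq_1 := @pl.eq_1
theorem pt_eq_1' : type_of% @pt.eq_1 := @pt.eq_1
theorem ph_eq_1' : type_of% @ph.eq_1 := @ph.eq_1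
theorem cx_eq_1' : type_of% @cx.eq_1 := @cx.eq_1
theorem pr_eq_1' : type_of% @pr.eq_1 := @pr.eq_1
theorem Ev_eq_1' : type_of% @Ev.eq_1 := @Ev.eq_1
theorem ind_eq_1' : type_of% @ind.eq_1 := @ind.eq_1
theorem Fp_eq_1' : type_of% @Fp.eq_1.{u} := @Fp.eq_1.{u}
theorem Of_eq_1' : type_of% @Of.eq_1.{u} := @Of.eq_1.{u}

end Cfsg.Lib.K7.N3
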