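import Cfsg.Agent.K7.LocB

/-!
# Simple groups of order `p * 3 ^ a * 2 ^ b`: assembly of the non-Sylow case
-/

set_option autoImplicit false

namespace Cfsg.Lib.K7

open Cfsg Subgroup Cfsg.Lib.Trans Cfsg.Lib.Gold
open Cfsg.Lib.P8 (L32 V3 O2 Om Jt Phi EA SR4 Ch E9 Pj Ty Sec SecOK Mx Crd)
open Cfsg.Lib.K35 (PSL Alt A3 NC)
open scoped commutatorElement

universe u

namespace NSAsm

theorem uf (h1 : StU1) (h2 : StU2) (h3 : StU3) (h4 : StU4) : UF :=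
  ⟨h1.1, h1.2.1, h1.2.2.2, h2.1, h3, h2.2, h4.1, h4.2⟩

theorem cardc {G : Type u} [Group G] (V : Subgroup G) (g x : G) :
    Nat.card ↥(V ⊓ C1 (g⁻¹ * x * g)) = Nat.card ↥(cj g V ⊓ C1 x) := by
  rw [← card_cj g (V ⊓ C1 (g⁻¹ * x * g))]
  congr 3
  ext y
  simp only [mem_cj, mem_inf, mem_centralizer_singleton_iff]
  refine and_congr_right fun _ => ⟨fun h => ?_, fun h => ?_⟩
  · calc y * x = g * (g⁻¹ * y * g * (g⁻¹ * x * g)) * g⁻¹ := by group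
      _ = g * (g⁻¹ * x * g * (g⁻¹ * y * g)) * g⁻¹ := by rw [h]
      _ = x * y := by group
  · calc g⁻¹ * y * g * (g⁻¹ * x * g) = g⁻¹ * (y * x) * g := by group
      _ = g⁻¹ * (x * y) * g := by rw [h]
      _ = _ := by group

theorem g2 (uf : UF) (hPG : StPG.{u}) (hGF : StGF.{u}) (hGA : StGA.{u}) (hGB : StGB.{u})
    (hGC : StGC.{u}) (hGD : StGD.{u}) (hGE : StGE.{u}) {G : Type u} [Group G] [Finite G]
    {M S₀ : Subgroup G} {g : G} {X : Type u} [Group X] [Finite X] {π : G → X} {L : Subgroup X}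
    (nb : NB 7 M S₀ g) (no : NO 7 M S₀ g) (tx : TX M π L) (h : U33 L) : False := by
  obtain ⟨ρ, pg⟩ := hPG G M S₀ g X π L no tx h
  have fa := hGF G M _ ρ pg
  obtain ⟨ea, c64⟩ := hGB G M S₀ g ρ uf nb no pg fa (hGA G M _ ρ uf pg fa)
  obtain ⟨x, xM, ox, xN, c1, c2, hn⟩ := hGC G M S₀ g ρ uf nb no pg ea c64
  obtain ⟨r, gx⟩ := hGD G M _ ρ pg fa ea no.nT x xM ox c1
  have x0 : g⁻¹ * x * g ∈ M := by
    rw [← no.nT, ← mem_cj, cj_normalizer]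
    exact xN
  have o0 : orderOf (g⁻¹ * x * g) = 3 := by
    rw [← ox]
    exact (MulAut.conj g⁻¹).orderOf_eq x |>.symm ▸ by simp
  obtain ⟨r', gx'⟩ := hGD G M _ ρ pg fa ea no.nT _ x0 o0 (by rw [cardc, c2])
  refine hn (hGE G nb.gl M _ g x r r' gx gx' ?_)
  exact ((cj_mono g no.leT).trans (cj_eq_of_mem_normalizer nb.nor).le).trans nb.syl.le

theorem l3 (hCoB : StCoB.{u}) (hNS : StNS.{u}) (hV6 : StV6.{u}) (hB16 : StB16.{u}) (hSh6 : StSh6.{u})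
    (hCP : StCP.{u})
    (hN3 : ∀ {G : Type u} [Group G] [Finite G] {M S : Subgroup G} {g : G}, Gl G 7 → Mx M (O2 M) →
      Ty7 M → IsSylowIn 2 S M → Nat.card (Om (O2 M)) = 8 → ¬ O2 M ≤ Om (O2 M) → g ∈ Ns S →
      g * g ∈ S → g ∈ M)
    {G : Type u} [Group G] [Finite G] {M S₀ : Subgroup G} {g : G}
    (nb : NB 7 M S₀ g) (no : NO 7 M S₀ g) (ty : Ty7 M) : False := by
  obtain ⟨W, π, c, z, nl⟩ := hCoB G M S₀ g nb no ty
  have ns := hNS G M S₀ W g π c z nl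
  by_cases hW : Om (O2 M) = W
  · exact nb.out (hN3 nb.gl nb.mx ty nb.syl (by rw [hW]; exact ns.cW) (by rw [hW]; exact ns.neT)
      nb.nor nb.sq)
  · obtain ⟨F, v6⟩ := hV6 G M S₀ W g π c z nl ns hW
    have le := hB16 G M S₀ W F g π c z nl ns v6
    obtain ⟨h, m', cp⟩ := hCP G 7 M S₀ g nb no le
    exact hSh6 G M S₀ W F g π c z h m' nl ns v6 le cp

end NSAsm

theorem basm (hTyp : StTyp.{u}) (hB0 : StB0.{u}) (hNO : StNO.{u}) (hN13 : StN13.{u}) (hN17 : StN17.{u})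
    (hN7 : StN7.{u}) (hN8a : StN8a.{u}) (hN8b : StN8b.{u})
    (hU : ∀ {G : Type u} [Group G] [Finite G] {M S₀ : Subgroup G} {g : G} {X : Type u} [Group X]
      [Finite X] {π : G → X} {L : Subgroup X}, NB 7 M S₀ g → NO 7 M S₀ g → TX M π L → U33 L → False)
    (hL : ∀ {G : Type u} [Group G] [Finite G] {M S₀ : Subgroup G} {g : G}, NB 7 M S₀ g →
      NO 7 M S₀ g → Ty7 M → False) : StB.{u} := by
  intro G _ _ p gl M S₀ mx ns syl nc
  by_contra hn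
  obtain ⟨g, nb⟩ := hB0 G p gl M S₀ mx ns syl nc hn
  have ty := hTyp G p gl M mx.ch mx.ne ns
  have no := hNO G p M S₀ g nb ty
  obtain ⟨X, _, _, π, L, t, nor, cs, soc⟩ := ty
  have tx : TX M π L := ⟨t, nor, cs⟩
  rcases soc with ⟨rfl, h | h | h⟩ | ⟨rfl, h⟩ | ⟨rfl, h⟩
  · exact hL nb no (hN7 G M S₀ g X π L nb no tx h)
  · exact hN8b G M S₀ g X π L nb no tx h (hN8a G M S₀ g X π L nb no tx h)
  · exact hU nb no tx h
  · exact hN13 G M S₀ g X π L nb no tx h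
  · exact hN17 G M S₀ g X π L nb no tx h

end Cfsg.Lib.K7
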