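import Cfsg.Agent.K7.LocB

/-! A critical pair. -/

set_option autoImplicit false

namespace Cfsg.Lib.K7

open Cfsg Subgroup Cfsg.Lib.Trans Cfsg.Lib.Gold
open Cfsg.Lib.P8 (L32 V3 O2 Om Jt Phi EA SR4 Ch E9 Pj Ty Sec SecOK Mx Crd)
open Cfsg.Lib.K35 (PSL Alt A3 NC)
open scoped commutatorElement

universe u

namespace NSCP

theorem fam {G : Type u} [Group G] (M : Subgroup G) {g : G} (hg : g * g ∈ M) :
    ∃ H : ℕ → G → Prop, (∀ x, H 0 x ↔ x ∈ M) ∧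
      (∀ n x, H (n + 1) x ↔ ∃ m ∈ M, ∃ h, H n h ∧ x = m * g * h) ∧
      (∀ n x, H (n + 1) x ↔ ∃ m ∈ M, ∃ h, H n h ∧ x = h * g * m) ∧
      (∀ n x, H n x → ∀ m ∈ M, H n (m * x)) ∧ (∀ n x, H n x → ∀ m ∈ M, H n (x * m)) ∧
      ∀ n x, H n x → H n x⁻¹ := by
  obtain ⟨H, h0, hs⟩ : ∃ H : ℕ → G → Prop, (∀ x, H 0 x ↔ x ∈ M) ∧
      ∀ n x, H (n + 1) x ↔ ∃ m ∈ M, ∃ h, H n h ∧ x = m * g * h :=
    ⟨fun n => Nat.rec (· ∈ M) (fun _ P x => ∃ m ∈ M, ∃ h, P h ∧ x = m * g * h) n,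
      fun _ => Iff.rfl, fun _ _ => Iff.rfl⟩
  have hl : ∀ n x, H n x → ∀ m ∈ M, H n (m * x) := by
    rintro (_ | n) x hx m hm
    · exact (h0 _).2 (mul_mem hm ((h0 _).1 hx))
    · obtain ⟨m₁, h1, h, h2, rfl⟩ := (hs _ _).1 hx
      exact (hs _ _).2 ⟨m * m₁, mul_mem hm h1, h, h2, by group⟩
  have hr : ∀ n x, H n x → ∀ m ∈ M, H n (x * m) := by
    intro n
    induction n with
    | zero => exact fun x hx m hm => (h0 _).2 (mul_mem ((h0 _).1 hx) hm)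
    | succ n ih =>
      intro x hx m hm
      obtain ⟨m₁, h1, h, h2, rfl⟩ := (hs _ _).1 hx
      exact (hs _ _).2 ⟨m₁, h1, h * m, ih h h2 m hm, by group⟩
  have hc : ∀ n x, H n x → H (n + 1) (x * g) := by
    intro n
    induction n with
    | zero => exact fun x hx => (hs _ _).2 ⟨x, (h0 _).1 hx, 1, (h0 _).2 (one_mem _), by group⟩
    | succ n ih =>
      intro x hx
      obtain ⟨m₁, h1, h, h2, rfl⟩ := (hs _ _).1 hx
      exact (hs _ _).2 ⟨m₁, h1, h * g, ih h h2, by group⟩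
  have hu : ∀ n x, H (n + 1) x → ∃ m ∈ M, ∃ h, H n h ∧ x = h * g * m := by
    intro n
    induction n with
    | zero =>
      intro x hx
      obtain ⟨m₁, h1, h, h2, rfl⟩ := (hs _ _).1 hx
      exact ⟨h, (h0 _).1 h2, m₁, (h0 _).2 h1, rfl⟩
    | succ n ih =>
      intro x hx
      obtain ⟨m₁, h1, h, h2, rfl⟩ := (hs _ _).1 hx
      obtain ⟨m, hm, h', h3, rfl⟩ := ih h h2
      exact ⟨m, hm, m₁ * g * h', (hs _ _).2 ⟨m₁, h1, h', h3, rfl⟩, by group⟩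
  refine ⟨H, h0, hs, fun n x => ⟨hu n x, ?_⟩, hl, hr, fun n => ?_⟩
  · rintro ⟨m, hm, h, h1, rfl⟩
    exact hr _ _ (hc _ _ h1) m hm
  · induction n with
    | zero => exact fun x hx => (h0 _).2 (inv_mem ((h0 _).1 hx))
    | succ n ih =>
      intro x hx
      obtain ⟨m₁, h1, h, h2, rfl⟩ := (hs _ _).1 hx
      have := hr _ _ (hc _ _ (hr _ _ (ih h h2) _ (inv_mem hg))) _ (inv_mem h1)
      rwa [show h⁻¹ * (g * g)⁻¹ * g * m₁⁻¹ = (m₁ * g * h)⁻¹ by group] at this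

theorem swp {G : Type u} [Group G] {T V : Subgroup G} {a b : G} (h : V ≤ cj (a⁻¹ * b) T) :
    cj a V ≤ cj b T := by
  rw [cj_mul] at h
  exact cj_le_iff_le_cj_inv.2 h

end NSCP

open NSCP in
theorem cp : StCP.{u} := by
  classical
  intro G _ _ p M S₀ g nb no hV
  have hg : g * g ∈ M := nb.syl.le nb.sq
  have nT : ∀ m ∈ M, cj m (O2 M) = O2 M := fun m hm => cj_eq_of_mem_normalizer (no.nT.ge hm)
  have nV : ∀ m ∈ M, cj m (Om (O2 M)) = Om (O2 M) := fun m hm =>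
    cj_eq_of_mem_normalizer (no.nV.ge hm)
  have VT : Om (O2 M) ≤ O2 M := fun v hv => ((no.memV v).1 hv).1
  obtain ⟨H, h0, hs, ht, hl, hr, hi⟩ := fam M hg
  have two : ∀ m₁ ∈ M, ∀ m₂ ∈ M, ∀ h, Om (O2 M) ≤ cj h (O2 M) →
      Om (O2 M) ≤ cj (m₁ * h * m₂) (O2 M) := fun m₁ h1 m₂ h2 h hh => by
    rw [cj_mul, cj_mul, nT m₂ h2]
    exact (nV m₁ h1).ge.trans (cj_mono m₁ hh)
  have hex : ∃ n, ∃ h, H n h ∧ ¬ Om (O2 M) ≤ cj h (O2 M) := by
    by_contra hne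
    push Not at hne
    let N : Subgroup G := ⨆ h : {h // ∃ n, H n h}, cj (h : G) (Om (O2 M))
    have hN : N ≤ O2 M := iSup_le fun ⟨h, n, hn⟩ =>
      cj_le_iff_le_cj_inv.2 (hne n _ (hi n h hn))
    have key : ∀ a : G, (∀ n h, H n h → ∃ n', H n' (a * h)) → a ∈ Ns N := fun a ha =>
      mem_normalizer_of_cj_le (by
        rw [cj_iSup]
        refine iSup_le fun ⟨h, n, hn⟩ => ?_
        rw [cj_cj]
        exact le_iSup (fun h : {h // ∃ n, H n h} => cj (h : G) (Om (O2 M))) ⟨a * h, ha n h hn⟩)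
    have h1 := no.nrm N (nb.syl.isPGroup.to_le (hN.trans no.leT))
      (fun m hm => key m fun n h hn => ⟨n, hl n h hn m hm⟩)
      (key g fun n h hn => ⟨n + 1, (hs _ _).2 ⟨1, one_mem _, h, hn, by group⟩⟩)
    apply no.neV
    rw [eq_bot_iff, ← h1, ← cj_one (Om (O2 M))]
    exact le_iSup (fun h : {h // ∃ n, H n h} => cj (h : G) (Om (O2 M)))
      ⟨1, 0, (h0 _).2 (one_mem _)⟩
  obtain ⟨x, hx, hx'⟩ := Nat.find_spec hex
  have hmin := fun m => Nat.find_min hex (m := m)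
  generalize Nat.find hex = b at hx hmin
  rcases b with _ | _ | n
  · exact absurd (VT.trans (nT x ((h0 _).1 hx)).ge) hx'
  · obtain ⟨m₁, h1, h, h2, rfl⟩ := (hs _ _).1 hx
    refine absurd (two m₁ h1 h ((h0 _).1 h2) g ?_) hx'
    have := cj_le_iff_le_cj_inv.1 hV
    rwa [show g⁻¹ = g * (g * g)⁻¹ by group, cj_mul, nT _ (inv_mem hg)] at this
  · have good : ∀ h, H (n + 1) h → Om (O2 M) ≤ cj h (O2 M) := fun h hh => by
      by_contra hc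
      exact hmin (n + 1) (by omega) ⟨h, hh, hc⟩
    obtain ⟨m₁, h1, h, h2, rfl⟩ := (hs _ _).1 hx
    obtain ⟨m₂, h3, k, h4, rfl⟩ := (ht _ _).1 h2
    have e1 : H (n + 1) (g * k * g * g) :=
      (hs _ _).2 ⟨1, one_mem _, k * (g * g), hr _ _ h4 _ hg, by group⟩
    have e2 : ∃ m' ∈ M, ∀ m ∈ M, H (n + 1) ((m * g)⁻¹ * (g * k * g * g * m' * g)) := by
      rcases n with _ | j
      · refine ⟨(k * (g * g))⁻¹ * (g * g)⁻¹,
          mul_mem (inv_mem (mul_mem ((h0 _).1 h4) hg)) (inv_mem hg), fun m hm => ?_⟩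
        exact (hs _ _).2 ⟨(g * g)⁻¹, inv_mem hg, m⁻¹, (h0 _).2 (inv_mem hm), by group⟩
      · obtain ⟨m₃, h5, k', h6, rfl⟩ := (ht _ _).1 h4
        refine ⟨(m₃ * (g * g))⁻¹ * (g * g)⁻¹,
          mul_mem (inv_mem (mul_mem h5 hg)) (inv_mem hg), fun m hm => ?_⟩
        exact (hs _ _).2 ⟨(g * g)⁻¹, inv_mem hg, m⁻¹ * g * k',
          (hs _ _).2 ⟨m⁻¹, inv_mem hm, k', h6, rfl⟩, by group⟩
    obtain ⟨m', hm', e3⟩ := e2
    refine ⟨g * k * g, m', hm', fun hc => hx' ?_, swp (good _ ?_), good _ e1,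
      cj_le_iff_le_cj_inv.2 (good _ (hi _ _ e1)), fun m hm => swp (good _ (e3 m hm))⟩
    · have := two m₁ h1 m₂ h3 _ hc
      rwa [show m₁ * (g * k * g) * m₂ = m₁ * g * (k * g * m₂) by group] at this
    · have := hi _ _ ((ht _ _).2 ⟨1, one_mem _, k, h4, rfl⟩)
      rwa [show (k * g * 1)⁻¹ = (g * k * g)⁻¹ * g by group] at this

end Cfsg.Lib.K7
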