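import Cfsg.Agent.K7.LocB

/-!
# Two applications of the rank one lemma
-/

set_option autoImplicit false

namespace Cfsg.Lib.K7

open Cfsg Subgroup Cfsg.Lib.Trans Cfsg.Lib.Gold
open Cfsg.Lib.P8 (L32 V3 O2 Om Jt Phi EA SR4 Ch E9 Pj Ty Sec SecOK Mx Crd)
open Cfsg.Lib.K35 (PSL Alt A3 NC)
open scoped commutatorElement

universe u

namespace NSD8

variable {G : Type u} [Group G]

theorem mem_C1 {a g : G} : g ∈ C1 a ↔ g * a = a * g := mem_centralizer_singleton_iff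

theorem mem_Ns_iff {X : Subgroup G} {g : G} : g ∈ Ns X ↔ cj g X = X := cj_eq_self_iff.symm

theorem zp {z e : G} (hz : z * z = 1) (he : e ∈ zpowers z) : e = 1 ∨ e = z := by
  let H : Subgroup G :=
    { carrier := {e | e = 1 ∨ e = z}
      one_mem' := Or.inl rfl
      mul_mem' := by
        rintro a b (rfl | rfl) (rfl | rfl) <;> simp [hz]
      inv_mem' := by
        rintro a (rfl | rfl)
        · simp
        · exact Or.inr (inv_eq_of_mul_eq_one_left hz) }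
  exact (zpowers_le.2 (show z ∈ H from Or.inr rfl)) he

theorem cmul (c a b : G) : ⁅c, a * b⁆ = ⁅c, a⁆ * (a * ⁅c, b⁆ * a⁻¹) := by
  simp only [commutatorElement_def]; group

theorem cl [Finite G] (hR1a : StR1a.{u}) (hR1b : StR1b.{u}) {M S₀ : Subgroup G} {g : G}
    (no : NO 7 M S₀ g) (h2 : IsPGroup 2 (O2 M)) (hTM : O2 M ≤ M) {z w c : G} (zV : z ∈ Om (O2 M))
    (z1 : z ≠ 1) (wT : w ∈ O2 M) (cT : c ∈ O2 M) (cc : c * c = 1) (cV : c ∉ Om (O2 M))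
    (hc : ∀ τ ∈ O2 M, ⁅c, τ⁆ ∈ zpowers z)
    (hw : ∀ τ ∈ O2 M, ⁅w, τ⁆ ∈ Om (O2 M) ∨ ⁅w, τ⁆ * c ∈ Om (O2 M))
    (hn : ∃ τ ∈ O2 M, ⁅w, τ⁆ ∉ Om (O2 M)) : False := by
  obtain ⟨σ, σM, o7⟩ := no.ex
  have fp := no.fp σ σM o7
  have nT : σ ∈ Ns (O2 M) := by rw [no.nT]; exact σM
  have cen : ∀ v ∈ Om (O2 M), ∀ τ ∈ O2 M, ⁅v, τ⁆ ∈ (⊥ : Subgroup G) := fun v hv τ hτ => by
    rw [mem_bot, commutatorElement_eq_one_iff_mul_comm]
    exact (mem_C1.1 (((no.memV v).1 hv).2.2 hτ)).symm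
  obtain ⟨zT, zz, -⟩ := (no.memV z).1 zV
  have r1 : Rk (O2 M) (Om (O2 M)) σ w c :=
    { two := h2, o7 := o7, nT := nT, fp := fp, le := fun v hv => ((no.memV v).1 hv).1
      nV := by rw [no.nV]; exact hTM
      sV := by rw [no.nV]; exact σM
      aT := wT, cT := cT, cV := cV
      cc := by rw [cc]; exact one_mem _
      cz := fun τ hτ => (zpowers_le.2 zV) (hc τ hτ)
      ac := hw, ne := hn }
  have nb : ∀ x : G, x ∈ Ns (⊥ : Subgroup G) := fun x => by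
    rw [mem_Ns_iff]; exact Subgroup.map_bot _
  have r2 : Rk (O2 M) ⊥ σ c z :=
    { two := h2, o7 := o7, nT := nT, fp := fp, le := bot_le
      nV := fun x _ => nb x
      sV := nb σ
      aT := cT, cT := zT
      cV := by rw [mem_bot]; exact z1
      cc := by rw [mem_bot]; exact zz
      cz := cen z zV
      ac := fun τ hτ => by
        rcases zp zz (hc τ hτ) with h | h
        · left; rw [mem_bot]; exact h
        · right; rw [mem_bot, h]; exact zz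
      ne := by
        by_contra hcon
        push Not at hcon
        refine cV ((no.memV c).2 ⟨cT, cc, fun τ hτ => mem_C1.2 ?_⟩)
        have := hcon τ hτ
        rw [mem_bot, commutatorElement_eq_one_iff_mul_comm] at this
        exact this.symm }
  refine hR1b G _ _ σ c z r2 (hR1a G _ _ σ c z r2) ?_
  rcases hR1a G _ _ σ w c r1 with h | h
  · exact Or.inl (cen _ h)
  · exact Or.inr (cen _ h)

theorem m1 : ∀ m : L32, m.1 1 0 = 0 → m.1 2 0 = 0 → m.1 2 1 = 0 →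
    (![0, 1, 0] + m.1.mulVec ![0, 1, 0] = 0 ∨ ![0, 1, 0] + m.1.mulVec ![0, 1, 0] = ![1, 0, 0]) ∧
    (m.1.mulVec ![0, 1, 0] = ![0, 1, 0] → m.1 0 1 = 0) ∧
    ((![0, 0, 1] + m.1.mulVec ![0, 0, 1] = 0 ∨ ![0, 0, 1] + m.1.mulVec ![0, 0, 1] = ![1, 0, 0]) ∨
      (![0, 0, 1] + m.1.mulVec ![0, 0, 1] + ![0, 1, 0] = 0 ∨
        ![0, 0, 1] + m.1.mulVec ![0, 0, 1] + ![0, 1, 0] = ![1, 0, 0])) ∧
    (m.1 1 2 ≠ 0 → (![0, 0, 1] + m.1.mulVec ![0, 0, 1] + ![0, 1, 0] = 0 ∨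
        ![0, 0, 1] + m.1.mulVec ![0, 0, 1] + ![0, 1, 0] = ![1, 0, 0])) := by
  decide +kernel

theorem conjU {M V : Subgroup G} {g z k u : G} (hk : k ∈ Yy M g z) (hu : u ∈ Uu M V g z) :
    k * u * k⁻¹ ∈ Uu M V g z := by
  have : cj k (Uu M V g z) ≤ Uu M V g z := by
    unfold Uu
    rw [cj, Subgroup.map_iSup]
    refine iSup_le fun k' => le_iSup_of_le (⟨k, hk⟩ * k') ?_
    intro y hy
    have h1 : k⁻¹ * y * k ∈ cj (k' : G) (V ⊔ cj g V) := mem_cj.1 hy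
    have h2 := mem_cj.1 h1
    refine mem_cj.2 ?_
    have : ((⟨k, hk⟩ * k' : Yy M g z) : G) = k * k' := rfl
    rw [this]
    convert h2 using 1
    group
  refine this (mem_cj.2 ?_)
  convert hu using 1
  group

end NSD8

open NSD8

theorem d8 (hR1a : StR1a.{u}) (hR1b : StR1b.{u}) : StD8.{u} := by
  intro G _ _ M S₀ V g π c z s nl ns hV hle sT sB s12 t tT
  have no := nl.no
  have nb := nl.nb
  have SM : S₀ ≤ M := fun h hh => ((nl.memS h).1 hh).1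
  have gS : ∀ τ ∈ S₀, g⁻¹ * τ * g ∈ S₀ := fun τ hτ => by
    have := mem_Ns_iff.1 nb.nor
    rw [← this] at hτ
    exact mem_cj.1 hτ
  have gS' : ∀ τ ∈ S₀, g * τ * g⁻¹ ∈ S₀ := fun τ hτ => by
    have := mem_Ns_iff.1 nb.nor
    rw [← this]
    refine mem_cj.2 ?_
    convert hτ using 1
    group
  have T'S : ∀ y ∈ cj g (O2 M), y ∈ S₀ := fun y hy => by
    have := gS' _ (no.leT (mem_cj.1 hy))
    convert this using 1
    group
  have T'T : ∀ y ∈ cj g (O2 M), g * y * g⁻¹ ∈ O2 M := fun y hy => by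
    have h1 : g * g ∈ Ns (O2 M) := by rw [no.nT]; exact SM nb.sq
    have h2 := mem_Ns_iff.1 h1
    rw [← h2]
    refine mem_cj.2 ?_
    convert mem_cj.1 hy using 1
    group
  obtain ⟨tM, t10, t20, t21⟩ := (nl.memS t).1 (T'S t tT)
  refine ⟨t10, t20, t21, ?_⟩
  by_contra t01
  have vv : ∀ v ∈ V, v * v = 1 := fun v hv => ((no.memV v).1 (hV ▸ hv)).2.1
  have vi : ∀ v ∈ V, v⁻¹ = v := fun v hv => inv_eq_of_mul_eq_one_left (vv v hv)
  have nV : ∀ h ∈ M, ∀ v ∈ V, h * v * h⁻¹ ∈ V := fun h hh v hv => by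
    have := mem_Ns_iff.1 (nl.nW hh)
    rw [← this]
    refine mem_cj.2 ?_
    convert hv using 1
    group
  have z1 : z ≠ 1 := fun h => by
    have := ns.oz
    rw [h, orderOf_one] at this
    omega
  have cm : ∀ h ∈ M, ∀ v ∈ V, ⁅v, h⁆ ∈ V ∧ c ⁅v, h⁆ = c v + (π h).1.mulVec (c v) := fun h hh v hv => by
    have e : ⁅v, h⁆ = v * (h * v * h⁻¹) := by
      rw [commutatorElement_def, vi v hv]; group
    rw [e]
    exact ⟨mul_mem hv (nV h hh v hv), by rw [nl.crd.add _ hv _ (nV h hh v hv), nl.crd.eqv h hh v hv]⟩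
  have zz : ∀ a ∈ V, (c a = 0 ∨ c a = ![1, 0, 0]) → g * a * g⁻¹ ∈ zpowers (g * z * g⁻¹) := by
    intro a ha h
    rcases h with h | h
    · rw [(nl.crd.zero a ha).1 h]; simp
    · have h1 : c (a * z) = 0 := by
        rw [nl.crd.add a ha z nl.zW, h, nl.cz]; decide
      have h2 := (nl.crd.zero _ (mul_mem ha nl.zW)).1 h1
      have h3 : a = z := by rw [eq_inv_of_mul_eq_one_left h2, vi z nl.zW]
      rw [h3]; exact mem_zpowers _
  have gV : ∀ v ∈ V, g * v * g⁻¹ ∈ O2 M := fun v hv => hle (mem_cj.2 (by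
    convert hv using 1
    group))
  have z'V : g * z * g⁻¹ ∈ Om (O2 M) := by
    refine (no.memV _).2 ⟨gV z nl.zW, ?_, fun τ hτ => mem_C1.2 ?_⟩
    · have : g * z * g⁻¹ * (g * z * g⁻¹) = g * (z * z) * g⁻¹ := by group
      rw [this, vv z nl.zW]; group
    · have := mem_C1.1 (ns.zS (gS τ (no.leT hτ)))
      calc τ * (g * z * g⁻¹) = g * (g⁻¹ * τ * g * z) * g⁻¹ := by group
        _ = g * z * g⁻¹ * τ := by rw [this]; group
  have zle := zpowers_le.2 z'V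
  obtain ⟨c0, c0V, hc0⟩ := nl.crd.sur ![0, 1, 0]
  obtain ⟨v0, v0V, hv0⟩ := nl.crd.sur ![0, 0, 1]
  have cc : ∀ v τ : G, ⁅g * v * g⁻¹, τ⁆ = g * ⁅v, g⁻¹ * τ * g⁆ * g⁻¹ := fun v τ => by
    simp only [commutatorElement_def]; group
  have cV : g * c0 * g⁻¹ ∉ Om (O2 M) := fun h => by
    have h1 := mem_C1.1 (((no.memV _).1 h).2.2 (T'T t tT))
    have h2 : t * c0 * t⁻¹ = c0 := by
      calc t * c0 * t⁻¹ = g⁻¹ * (g * t * g⁻¹ * (g * c0 * g⁻¹)) * g * t⁻¹ := by group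
        _ = c0 := by rw [h1]; group
    have h3 := nl.crd.eqv t tM c0 c0V
    rw [h2, hc0] at h3
    exact t01 ((m1 (π t) t10 t20 t21).2.1 h3.symm)
  have key : ∀ τ : G, g⁻¹ * τ * g ∈ M →
      (![0, 0, 1] + (π (g⁻¹ * τ * g)).1.mulVec ![0, 0, 1] + ![0, 1, 0] = 0 ∨
        ![0, 0, 1] + (π (g⁻¹ * τ * g)).1.mulVec ![0, 0, 1] + ![0, 1, 0] = ![1, 0, 0]) →
      ⁅g * v0 * g⁻¹, τ⁆ * (g * c0 * g⁻¹) ∈ Om (O2 M) := fun τ hτ h => by
    obtain ⟨h1, h2⟩ := cm _ hτ v0 v0V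
    have := zz _ (mul_mem h1 c0V) (by rw [nl.crd.add _ h1 _ c0V, h2, hv0, hc0]; exact h)
    refine zle ?_
    convert this using 1
    rw [cc]; group
  refine cl hR1a hR1b no nl.ty.two nl.ty.le z'V (w := g * v0 * g⁻¹) (c := g * c0 * g⁻¹) ?_
    (gV v0 v0V) (gV c0 c0V) ?_ cV ?_ ?_ ?_
  · intro h
    apply z1
    calc z = g⁻¹ * (g * z * g⁻¹) * g := by group
      _ = 1 := by rw [h]; group
  · have : g * c0 * g⁻¹ * (g * c0 * g⁻¹) = g * (c0 * c0) * g⁻¹ := by group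
    rw [this, vv c0 c0V]; group
  · intro τ hτ
    obtain ⟨a, a10, a20, a21⟩ := (nl.memS _).1 (gS τ (no.leT hτ))
    obtain ⟨h1, h2⟩ := cm _ a c0 c0V
    rw [cc]
    exact zz _ h1 (by rw [h2, hc0]; exact (m1 _ a10 a20 a21).1)
  · intro τ hτ
    obtain ⟨a, a10, a20, a21⟩ := (nl.memS _).1 (gS τ (no.leT hτ))
    rcases (m1 _ a10 a20 a21).2.2.1 with h | h
    · left
      obtain ⟨h1, h2⟩ := cm _ a v0 v0V
      rw [cc]
      exact zle (zz _ h1 (by rw [h2, hv0]; exact h))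
    · exact Or.inr (key τ a h)
  · refine ⟨g * s * g⁻¹, T'T s sT, fun h => cV ?_⟩
    have e : g⁻¹ * (g * s * g⁻¹) * g = s := by group
    have sM : s ∈ M := SM (T'S s sT)
    have := key (g * s * g⁻¹) (by rw [e]; exact sM)
      (by rw [e]; exact (m1 _ sB.1 sB.2.1 sB.2.2.1).2.2.2 s12)
    exact (mul_mem_cancel_left h).1 this

theorem i3 (hR1a : StR1a.{u}) (hR1b : StR1b.{u}) : StI3.{u} := by
  intro G _ _ M S₀ V g π c z x s ib i1 i2 u hu t tT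
  have nl := ib.nl
  have ns := ib.ns
  have no := nl.no
  have hV := ib.eq
  have zle : zpowers z ≤ V := zpowers_le.2 nl.zW
  have zz : z * z = 1 := ((no.memV z).1 (hV ▸ nl.zW)).2.1
  have z1 : z ≠ 1 := fun h => by
    have := ns.oz
    rw [h, orderOf_one] at this
    omega
  have TQ : O2 M ≤ O2 (M ⊓ C1 z) := fun y hy => by
    refine (i1.memQ y).2 ⟨nl.ty.le hy, ?_⟩
    rw [(nl.ty.ker y (nl.ty.le hy)).2 hy]
    unfold inA
    decide
  have QS : O2 (M ⊓ C1 z) ≤ S₀ := fun y hy => by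
    obtain ⟨h1, h2⟩ := (i1.memQ y).1 hy
    exact (nl.memS y).2 ⟨h1, h2.1, h2.2.1, h2.2.2.1⟩
  have KQ : Kk M g z ≤ O2 (M ⊓ C1 z) := inf_le_left
  have sS : s ∈ S₀ := by
    have h0 := mem_Ns_iff.1 nl.nb.nor
    rw [← h0]
    exact mem_cj.2 (no.leT (mem_cj.1 ib.sT))
  have two : ∀ a ∈ O2 M, ∀ b ∈ O2 M, a ∉ Kk M g z → b ∉ Kk M g z → a * b ∈ Kk M g z := by
    intro a ha b hb a1 b1
    have h1 := relIndex_mul_relIndex _ _ _ KQ QS
    rw [i1.i4] at h1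
    have h2 : (O2 (M ⊓ C1 z)).relIndex S₀ ≠ 1 := fun h => by
      rw [relIndex_eq_one] at h
      exact ib.s12 ((i1.memQ s).1 (h sS)).2.2.2.2
    have h3 : (Kk M g z).relIndex (O2 (M ⊓ C1 z)) ≠ 1 := fun h => by
      rw [relIndex_eq_one] at h
      exact a1 (h (TQ ha))
    have h4 : (Kk M g z).relIndex (O2 (M ⊓ C1 z)) = 2 := by
      generalize (Kk M g z).relIndex (O2 (M ⊓ C1 z)) = p at *
      generalize (O2 (M ⊓ C1 z)).relIndex S₀ = q at *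
      have : p ≤ 4 := Nat.le_of_dvd (by norm_num) ⟨q, h1.symm⟩
      interval_cases p <;> omega
    have := (mul_mem_iff_of_index_two (H := (Kk M g z).subgroupOf (O2 (M ⊓ C1 z))) h4
      (a := ⟨a, TQ ha⟩) (b := ⟨b, TQ hb⟩)).2 (by simp [mem_subgroupOf, a1, b1])
    exact this
  by_cases tK : t ∈ Kk M g z
  · exact zle (i2.UK u hu t tK)
  by_contra hc
  have Tz : ∀ a ∈ O2 M, ∀ e ∈ zpowers z, a * e * a⁻¹ = e := fun a ha e he => by
    rcases zp zz he with rfl | rfl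
    · group
    · rw [mem_C1.1 (ns.zS (no.leT ha))]; group
  have tY : t ∈ Yy M g z := (le_sup_left : M ⊓ C1 z ≤ _) ⟨nl.ty.le tT, ns.zS (no.leT tT)⟩
  have cU : ⁅u, t⁆ ∈ Uu M V g z := by
    have := mul_mem hu (conjU tY (inv_mem hu))
    convert this using 1
    rw [commutatorElement_def]; group
  have cc : ⁅u, t⁆ * ⁅u, t⁆ = 1 := by
    have := i2.ea.2 _ cU
    rwa [pow_two] at this
  have ci : ⁅u, t⁆⁻¹ = ⁅u, t⁆ := inv_eq_of_mul_eq_one_left cc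
  have dK : ∀ τ ∈ O2 M, τ ∉ Kk M g z → τ * t⁻¹ ∈ Kk M g z := fun τ hτ h =>
    two τ hτ t⁻¹ (inv_mem tT) h (fun h' => tK (inv_mem_iff.1 h'))
  have ct : ⁅⁅u, t⁆, t⁆ ∈ zpowers z := by
    have := i2.UK u hu _ (two t tT t tT tK tK)
    rw [cmul] at this
    convert this using 1
    rw [commutatorElement_def ⁅u, t⁆, ci]; group
  refine cl hR1a hR1b no nl.ty.two nl.ty.le (z := z) (w := u) (c := ⁅u, t⁆) (hV ▸ nl.zW) z1
    (i2.leT hu) (i2.leT cU) cc (hV ▸ hc) ?_ ?_ ⟨t, tT, hV ▸ hc⟩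
  · intro τ hτ
    by_cases h : τ ∈ Kk M g z
    · exact i2.UK _ cU τ h
    · have e : τ = τ * t⁻¹ * t := by group
      rw [e, cmul, Tz _ (mul_mem hτ (inv_mem tT)) _ ct]
      exact mul_mem (i2.UK _ cU _ (dK τ hτ h)) ct
  · intro τ hτ
    rw [hV]
    by_cases h : τ ∈ Kk M g z
    · exact Or.inl (zle (i2.UK _ hu τ h))
    · right
      have h1 := mul_mem (i2.UK _ hu _ (dK τ hτ h)) (inv_mem (i2.UK _ cU _ (dK τ hτ h)))
      refine zle ?_
      convert h1 using 1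
      have e : τ = τ * t⁻¹ * t := by group
      generalize τ * t⁻¹ = d at *
      rw [e, cmul, commutatorElement_def ⁅u, t⁆ d]
      simp only [mul_inv_rev, inv_inv, ci]
      group

end Cfsg.Lib.K7
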