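import Cfsg.Agent.K7.NSG1a

/-!
# The order of `U` in the linear configuration
-/

set_option autoImplicit false
set_option linter.unusedSectionVars false

namespace Cfsg.Lib.K7

open Cfsg Subgroup Cfsg.Lib.Trans Cfsg.Lib.Gold
open Cfsg.Lib.P8 (L32 V3 O2 Om Jt Phi EA SR4 Ch E9 Pj Ty Sec SecOK Mx Crd)
open Cfsg.Lib.K35 (PSL Alt A3 NC)
open scoped commutatorElement

universe u

namespace NSG1

variable {G : Type u} [Group G] [Finite G] {Y K U V V' : Subgroup G} {z x x' t s : G}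

/-- An additive model of `U / ⟨z⟩` with the action of `Y`. -/
structure Md (Y U : Subgroup G) (z : G) {A : Type u} [AddCommGroup A] (π : G → A)
    (ρ : G → A →+ A) : Prop where
  add : ∀ a ∈ U, ∀ b ∈ U, π (a * b) = π a + π b
  ker : ∀ a ∈ U, π a = 0 ↔ a ∈ zpowers z
  surj : ∀ α, ∃ a ∈ U, π a = α
  act : ∀ y ∈ Y, ∀ a ∈ U, ρ y (π a) = π (y * a * y⁻¹)
  nU : Y ≤ Ns U
  sq : ∀ a ∈ U, a * a = 1
  zU : z ∈ U
  oz : orderOf z = 2

theorem model (nU : Y ≤ Ns U) (ea : EA U) (zU : z ∈ U) (oz : orderOf z = 2) (Yz : Y ≤ C1 z) :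
    ∃ (A : Type u) (_ : AddCommGroup A) (_ : Finite A) (π : G → A) (ρ : G → A →+ A),
      Md Y U z π ρ := by
  classical
  have cm : ∀ a b : U, a * b = b * a := ea.1.is_comm.comm
  let _ : CommGroup U := { (inferInstance : Group U) with mul_comm := cm }
  let N : Subgroup U := (zpowers z).subgroupOf U
  let c : ∀ y ∈ Y, U →* U := fun y hy => MonoidHom.mk'
    (fun a => ⟨y * a * y⁻¹, mem_normalizer_conj (nU hy) a.2⟩) fun a b => Subtype.ext (by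
      simp only [coe_mul]; group)
  have hc : ∀ y hy, N ≤ N.comap (c y hy) := fun y hy a ha => by
    obtain ⟨k, hk⟩ := mem_zpowers_iff.1 (show (a : G) ∈ zpowers z from ha)
    change y * a * y⁻¹ ∈ zpowers z
    rw [← hk, (Commute.zpow_right (mem_centralizer_singleton_iff.1 (Yz hy)) k).eq, mul_inv_cancel_right]
    exact zpow_mem_zpowers z k
  refine ⟨Additive (U ⧸ N), inferInstance, inferInstance,
    fun g => if h : g ∈ U then Additive.ofMul (QuotientGroup.mk ⟨g, h⟩) else 0,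
    fun y => if h : y ∈ Y then MonoidHom.toAdditive (QuotientGroup.map N N (c y h) (hc y h)) else 0,
    fun a ha b hb => ?_, fun a ha => ?_, fun α => ?_, fun y hy a ha => ?_, nU,
    fun a ha => by rw [← sq, ea.2 a ha], zU, oz⟩
  · simp only [dif_pos ha, dif_pos hb, dif_pos (mul_mem ha hb)]
    rfl
  · simp only [dif_pos ha]
    exact (QuotientGroup.eq_one_iff (N := N) _).trans mem_subgroupOf
  · obtain ⟨a, ha⟩ := QuotientGroup.mk_surjective (Additive.toMul α)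
    exact ⟨a, a.2, by simp only [dif_pos a.2]; exact congrArg Additive.ofMul ha⟩
  · simp only [dif_pos ha, dif_pos hy, dif_pos (mem_normalizer_conj (nU hy) ha)]
    rfl

variable {A : Type u} [AddCommGroup A] [Finite A] {π : G → A} {ρ : G → A →+ A}

namespace Md

variable (m : Md Y U z π ρ)
include m

theorem one : π 1 = 0 := (m.ker 1 (one_mem _)).2 (one_mem _)

theorem two (α : A) : α + α = 0 := by
  obtain ⟨a, ha, rfl⟩ := m.surj α
  rw [← m.add a ha a ha, m.sq a ha, m.one]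

theorem cU {y a : G} (hy : y ∈ Y) (ha : a ∈ U) : y * a * y⁻¹ ∈ U :=
  mem_normalizer_conj (m.nU hy) ha

theorem mul {y w : G} (hy : y ∈ Y) (hw : w ∈ Y) (α : A) : ρ (y * w) α = ρ y (ρ w α) := by
  obtain ⟨a, ha, rfl⟩ := m.surj α
  rw [m.act _ (mul_mem hy hw) a ha, m.act w hw a ha, m.act y hy _ (m.cU hw ha)]
  congr 1; group

theorem comm {y a : G} (hy : y ∈ Y) (ha : a ∈ U) : π ⁅a, y⁆ = π a + ρ y (π a) := by
  rw [m.act y hy a ha, ← m.add a ha _ (m.cU hy ha), commutatorElement_def,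
    inv_eq_of_mul_eq_one_right (m.sq a ha)]
  congr 1; group

theorem fix {y a : G} (hy : y ∈ Y) (ha : a ∈ U) : ρ y (π a) = π a ↔ ⁅a, y⁆ ∈ zpowers z := by
  have hU : ⁅a, y⁆ ∈ U := by
    have := mul_mem ha (m.cU hy (inv_mem ha))
    rwa [← mul_assoc, ← mul_assoc] at this
  rw [← m.ker _ hU, m.comm hy ha]
  exact ⟨fun e => by rw [e, m.two], fun e => add_left_cancel (e.trans (m.two _).symm)⟩

/-- The preimage of a subgroup. -/
def pre (B : AddSubgroup A) : Subgroup G where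
  carrier := {g | g ∈ U ∧ π g ∈ B}
  one_mem' := ⟨one_mem _, m.one ▸ zero_mem _⟩
  mul_mem' ha hb := ⟨mul_mem ha.1 hb.1, m.add _ ha.1 _ hb.1 ▸ add_mem ha.2 hb.2⟩
  inv_mem' {a} ha := by rwa [inv_eq_of_mul_eq_one_right (m.sq a ha.1)]

/-- The image of a subgroup. -/
def im (H : Subgroup G) : AddSubgroup A where
  carrier := {α | ∃ a ∈ H ⊓ U, π a = α}
  zero_mem' := ⟨1, one_mem _, m.one⟩
  add_mem' := by
    rintro _ _ ⟨a, ha, rfl⟩ ⟨b, hb, rfl⟩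
    exact ⟨a * b, mul_mem ha hb, m.add a ha.2 b hb.2⟩
  neg_mem' {a} ha := by rwa [neg_eq_of_add_eq_zero_right (m.two a)]

theorem pre_im {H : Subgroup G} (h1 : H ≤ U) (h2 : z ∈ H) : m.pre (m.im H) = H := by
  refine le_antisymm ?_ fun a ha => ⟨h1 ha, a, ⟨ha, h1 ha⟩, rfl⟩
  rintro g ⟨hg, a, ha, e⟩
  exact (H.mul_mem_cancel_left ha.1).1 (zpowers_le.2 h2 ((m.ker _ (mul_mem ha.2 hg)).1 (by
    rw [m.add a ha.2 g hg, e, m.two])))

theorem card_pre (B : AddSubgroup A) : Nat.card (m.pre B) = 2 * Nat.card B := by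
  let f : m.pre B →* Multiplicative B := MonoidHom.mk'
    (fun a => Multiplicative.ofAdd ⟨π a, a.2.2⟩) fun a b =>
      Subtype.ext (m.add _ a.2.1 _ b.2.1)
  have l : zpowers z ≤ m.pre B := zpowers_le.2 ⟨m.zU, (m.ker z m.zU).2 (mem_zpowers z) ▸ zero_mem _⟩
  have k : f.ker = (zpowers z).subgroupOf (m.pre B) := by
    ext a
    exact Subtype.ext_iff.trans (m.ker _ a.2.1)
  have r : f.range = ⊤ := MonoidHom.range_eq_top.2 fun β => by
    obtain ⟨a, ha, e⟩ := m.surj (Multiplicative.toAdd β).1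
    exact ⟨⟨a, ha, e ▸ (Multiplicative.toAdd β).2⟩, Subtype.ext e⟩
  rw [← f.ker.card_mul_index, index_ker, r, k, card_top,
    Nat.card_congr (subgroupOfEquivOfLe l).toEquiv, Nat.card_zpowers, m.oz]
  rfl

theorem hb (h : Hf Y K U V z x t s) (sY : s ∈ Y) (ss : s * s ∈ K) (KY : K ≤ Y)
    (UK : ∀ u ∈ U, ∀ k ∈ K, ⁅u, k⁆ ∈ zpowers z) : Hb (m.im V) (ρ x) (ρ t) (ρ s) := by
  have kk : ∀ k ∈ K, ∀ α, ρ k α = α := fun k hk α => by
    obtain ⟨a, ha, rfl⟩ := m.surj α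
    exact (m.fix (KY hk) ha).2 (UK a ha k hk)
  have c := m.card_pre (m.im V)
  rw [m.pre_im h.le h.zV, h.card] at c
  refine ⟨by omega, fun α => ?_, ?_, ?_, ?_, fun α => ?_, fun α => ?_, fun α => ?_, fun α => ?_, ?_⟩
  · rw [← m.mul h.xY h.xY, ← m.mul (mul_mem h.xY h.xY) h.xY, ← pow_three', ← h.ox,
      pow_orderOf_eq_one, kk 1 (one_mem _)]
  · rintro _ ⟨a, ha, rfl⟩
    exact ⟨_, ⟨mem_normalizer_conj h.xV ha.1, m.cU h.xY ha.2⟩, (m.act x h.xY a ha.2).symm⟩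
  · rintro _ ⟨a, ha, rfl⟩ e
    exact (m.ker a ha.2).2 (h.xfp a ha.1 ((m.fix h.xY ha.2).1 e))
  · rintro _ ⟨a, ha, rfl⟩
    rw [m.act t h.tY a ha.2, ← mem_centralizer_singleton_iff.1 (h.tV ha.1), mul_inv_cancel_right]
  · obtain ⟨a, ha, rfl⟩ := m.surj α
    exact ⟨_, ⟨h.tU a ha, h.le (h.tU a ha)⟩, m.comm h.tY ha⟩
  · rw [← m.mul h.tY h.tY, kk _ h.tt]
  · rw [← m.mul h.tY h.xY, ← m.mul h.xY h.tY, ← kk _ h.tx (ρ (x * t) α),
      ← m.mul (KY h.tx) (mul_mem h.xY h.tY), commutatorElement_def]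
    congr 2; group
  · have e : ∀ β, ρ s β = ρ s⁻¹ β := fun β => by
      rw [← kk _ ss (ρ s⁻¹ β), ← m.mul (KY ss) (inv_mem sY), mul_inv_cancel_right]
    rw [e (ρ x α), ← m.mul sY h.xY, ← m.mul (mul_mem sY h.xY) (inv_mem sY),
      ← m.mul (mul_mem (mul_mem sY h.xY) (inv_mem sY)) h.xY, kk _ h.sx]
  · obtain ⟨v, hv, e⟩ := h.nsV
    exact ⟨_, ⟨v, ⟨hv, h.le hv⟩, rfl⟩, fun c => e ((m.fix sY (h.le hv)).1 c)⟩

theorem min (h : LG Y K U V V' z x x' t s) (H : AddSubgroup A) (h1 : m.im V ≤ H)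
    (h2 : m.im V' ≤ H) (h3 : ∀ u ∈ H, ρ x u ∈ H) (h4 : ∀ u ∈ H, ρ x' u ∈ H)
    (h5 : ∀ u ∈ H, ρ t u ∈ H) (h6 : ∀ u ∈ H, ρ s u ∈ H) : H = ⊤ := by
  have k : ∀ y ∈ Y, (∀ u ∈ H, ρ y u ∈ H) → y ∈ Ns (m.pre H) := fun y hy e =>
    mem_normalizer_of_cj_le (cj_le_iff.2 fun a ha =>
      ⟨m.cU hy ha.1, m.act y hy a ha.1 ▸ e _ ha.2⟩)
  have := h.min (m.pre H) (fun a ha => ⟨h.a.le ha, h1 ⟨a, ⟨ha, h.a.le ha⟩, rfl⟩⟩)
    (fun a ha => ⟨h.b.le ha, h2 ⟨a, ⟨ha, h.b.le ha⟩, rfl⟩⟩) (h.gen.trans (sup_le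
      (fun y hy => k y (h.KY hy) fun α hα => by
        obtain ⟨a, ha, rfl⟩ := m.surj α
        rwa [(m.fix (h.KY hy) ha).2 (h.UK a ha y hy)])
      ((closure_le _).2 (by
        rintro y (rfl | rfl | rfl | rfl)
        exacts [k _ h.a.xY h3, k _ h.b.xY h4, k _ h.a.tY h5, k _ h.b.tY h6]))))
  refine eq_top_iff.2 fun α _ => ?_
  obtain ⟨a, ha, rfl⟩ := m.surj α
  exact (this ha).2

theorem exa (h : LG Y K U V V' z x x' t s) : ∃ a ∈ m.im V, a ∈ m.im V' ∧ a ≠ 0 := by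
  obtain ⟨v, hv, e⟩ : ∃ v ∈ V ⊓ V', v ∉ zpowers z := by
    by_contra! c
    have := Subgroup.card_le_of_le (show V ⊓ V' ≤ zpowers z from c)
    rw [h.cap, Nat.card_zpowers, h.oz] at this
    omega
  have hU := h.a.le hv.1
  exact ⟨_, ⟨v, ⟨hv.1, hU⟩, rfl⟩, ⟨v, ⟨hv.2, hU⟩, rfl⟩, fun c => e ((m.ker v hU).1 c)⟩

theorem cen {y : G} (hy : y ∈ Y) (e : Nat.card (ρ y + AddMonoidHom.id A).ker ≤ 2)
    (C : Subgroup G) (h1 : C ≤ U) (h2 : ∀ c ∈ C, ⁅c, y⁆ ∈ zpowers z) : Nat.card C ≤ 4 := by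
  have := Subgroup.card_le_of_le (show C ≤ m.pre (ρ y + AddMonoidHom.id A).ker from fun c hc =>
    ⟨h1 hc, show ρ y (π c) + π c = 0 by rw [(m.fix hy (h1 hc)).2 (h2 c hc), m.two]⟩)
  rw [m.card_pre] at this
  omega

end Md

end NSG1

open NSG1

theorem lg1 : StLG1.{u} := fun G _ _ Y K U V V' z x x' t s h => by
  obtain ⟨A, _, _, π, ρ, m⟩ := model h.nU h.ea (h.a.le h.a.zV) h.oz h.Yz
  obtain ⟨a, a1, a2, a0⟩ := m.exa h
  obtain ⟨c1, c2, c3, c4⟩ := main1 m.two (m.hb h.a h.b.tY h.b.tt h.KY h.UK)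
    (m.hb h.b h.a.tY h.a.tt h.KY h.UK) a1 a2 a0 (m.min h)
  have c := m.card_pre ⊤
  rw [show m.pre ⊤ = U from Subgroup.ext fun g => and_iff_left trivial, AddSubgroup.card_top] at c
  exact ⟨by omega, by omega, m.cen h.a.xY c3, m.cen h.b.xY c4⟩

theorem lg4 : StLG4.{u} := fun G _ _ Y K U V V' z x x' t s h e => by
  obtain ⟨A, _, _, π, ρ, m⟩ := model h.nU h.ea (h.a.le h.a.zV) h.oz h.Yz
  obtain ⟨a, a1, a2, a0⟩ := m.exa h
  have xY := h.a.xY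
  obtain ⟨c1, c2⟩ := main4 m.two (m.hb h.a h.b.tY h.b.tt h.KY h.UK)
    (m.hb h.b h.a.tY h.a.tt h.KY h.UK) a1 a2 a0 (m.min h) fun α => by
      obtain ⟨b, hb, eb⟩ := m.surj (ρ (x' * x) α)
      rw [← m.mul xY h.b.xY, ← m.mul h.b.xY xY, ← eb, ← (m.fix (h.KY e) hb).2 (h.UK b hb _ e), eb,
        ← m.mul (h.KY e) (mul_mem h.b.xY xY), commutatorElement_def]
      congr 2; group
  have l : V ⊔ V' ⊔ cj x V' ≤ U :=
    sup_le (sup_le h.a.le h.b.le) (cj_le_iff.2 fun v hv => m.cU xY (h.b.le hv))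
  refine ⟨le_antisymm (fun g hg => ?_) l, fun v hv => ?_⟩
  · rw [← m.pre_im l (mem_sup_left (mem_sup_left h.a.zV)), c2 (m.im (V ⊔ V' ⊔ cj x V'))
      (by rintro _ ⟨v, hv, rfl⟩; exact ⟨v, ⟨mem_sup_left (mem_sup_left hv.1), hv.2⟩, rfl⟩)
      (by rintro _ ⟨v, hv, rfl⟩; exact ⟨v, ⟨mem_sup_left (mem_sup_right hv.1), hv.2⟩, rfl⟩)
      (by
        rintro _ ⟨v, hv, rfl⟩
        exact ⟨_, ⟨mem_sup_right ⟨v, hv.1, rfl⟩, m.cU xY hv.2⟩, (m.act x xY v hv.2).symm⟩)]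
    exact ⟨hg, trivial⟩
  · have vU := h.b.le hv
    have u1 := m.cU xY vU
    have u2 := m.cU (mul_mem xY xY) vU
    refine zpowers_le.2 h.a.zV ((m.ker _ (mul_mem (mul_mem vU u1) u2)).1 ?_)
    rw [m.add _ (mul_mem vU u1) _ u2, m.add _ vU _ u1, ← m.act x xY v vU,
      ← m.act _ (mul_mem xY xY) v vU, m.mul xY xY]
    exact c1 _ ⟨v, ⟨hv, vU⟩, rfl⟩

end Cfsg.Lib.K7
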