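import Cfsg.Agent.K7.LocB

/-!
# The linear configuration on an elementary abelian group
-/

set_option autoImplicit false
set_option linter.unusedSectionVars false

namespace Cfsg.Lib.K7.NSG1

variable {A : Type*} [AddCommGroup A]

/-- Adjoining an element of order two. -/
def ad (h2 : ∀ a : A, a + a = 0) (H : AddSubgroup A) (e : A) : AddSubgroup A where
  carrier := {x | x ∈ H ∨ x + e ∈ H}
  zero_mem' := Or.inl (zero_mem _)
  add_mem' := by
    rintro a b (ha | ha) (hb | hb)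
    · exact Or.inl (add_mem ha hb)
    · exact Or.inr (add_assoc a b e ▸ add_mem ha hb)
    · exact Or.inr (add_right_comm a e b ▸ add_mem ha hb)
    · refine Or.inl ?_
      have := add_mem ha hb
      rwa [add_add_add_comm, h2 e, add_zero] at this
  neg_mem' := fun {a} ha => by rwa [neg_eq_of_add_eq_zero_right (h2 a)]

theorem ad_eq_1' : type_of% @ad.eq_1 := @ad.eq_1

section

variable (h2 : ∀ a : A, a + a = 0) {H K : AddSubgroup A} {e x : A}

theorem mem_ad : x ∈ ad h2 H e ↔ x ∈ H ∨ x + e ∈ H := Iff.rfl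

theorem le_ad : H ≤ ad h2 H e := fun _ h => Or.inl h

theorem self_ad : e ∈ ad h2 H e := Or.inr (by rw [h2]; exact zero_mem _)

theorem ad_le (h : H ≤ K) (he : e ∈ K) : ad h2 H e ≤ K := fun _ hx =>
  hx.elim (fun a => h a) fun a => (add_mem_cancel_right he).1 (h a)

variable [Finite A]

theorem card_ad : Nat.card (ad h2 H e) ≤ 2 * Nat.card H := by
  have := Nat.card_le_card_of_surjective (α := H ⊕ H) (β := ad h2 H e)
    (Sum.elim (fun a => ⟨a, Or.inl a.2⟩) fun a => ⟨a + e, Or.inr (by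
      rw [add_assoc, h2, add_zero]; exact a.2)⟩) (by
      rintro ⟨x, hx | hx⟩
      · exact ⟨.inl ⟨x, hx⟩, rfl⟩
      · exact ⟨.inr ⟨_, hx⟩, Subtype.ext (by simp [add_assoc, h2])⟩)
  rwa [Nat.card_sum, ← two_mul] at this

omit h2 in
theorem two_le (h : H ≤ K) (h1 : x ∈ K) (h3 : x ∉ H) : 2 * Nat.card H ≤ Nat.card K := by
  obtain ⟨c, hc⟩ := AddSubgroup.card_dvd_of_le h
  have p : 0 < Nat.card K := Nat.card_pos
  have c1 : c ≠ 1 := fun e => h3 ((AddSubgroup.eq_of_le_of_card_ge h (by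
    rw [hc, e, mul_one])).ge h1)
  have c0 : c ≠ 0 := fun e => by rw [e, mul_zero] at hc; omega
  rw [hc, mul_comm]
  exact Nat.mul_le_mul_left _ (by omega)

end

/-- One half of the configuration. -/
structure Hb (W : AddSubgroup A) (X T S : A →+ A) : Prop where
  card : Nat.card W = 4
  x3 : ∀ u, X (X (X u)) = u
  xW : ∀ w ∈ W, X w ∈ W
  fp : ∀ w ∈ W, X w = w → w = 0
  tW : ∀ w ∈ W, T w = w
  tU : ∀ u, u + T u ∈ W
  tt : ∀ u, T (T u) = u
  tx : ∀ u, T (X u) = X (T u)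
  sx : ∀ u, S (X (S (X u))) = u
  ns : ∃ w ∈ W, S w ≠ w

variable [Finite A] (h2 : ∀ a : A, a + a = 0) {W W' : AddSubgroup A} {X X' T S : A →+ A} {a : A}

omit [Finite A] in
theorem Hb.nrm (h : Hb W X T S) {w : A} (hw : w ∈ W) : w + X w + X (X w) = 0 :=
  h.fp _ (add_mem (add_mem hw (h.xW _ hw)) (h.xW _ (h.xW _ hw)))
    (by rw [map_add, map_add, h.x3]; abel)

include h2

theorem Hb.le (h : Hb W X T S) (ha : a ∈ W) (a0 : a ≠ 0) {K : AddSubgroup A} (h1 : a ∈ K)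
    (h3 : X a ∈ K) : W ≤ K := by
  have l1 : ad h2 ⊥ a ≤ W := ad_le h2 bot_le ha
  have n1 : X a ∉ ad h2 ⊥ a := by
    rintro (e | e)
    · exact a0 (by rw [← h.x3 a, AddSubgroup.mem_bot.1 e, map_zero, map_zero])
    · exact a0 (h.fp a ha (add_right_cancel ((AddSubgroup.mem_bot.1 e).trans (h2 a).symm)))
  have c1 := two_le (H := ⊥) bot_le (self_ad h2 (H := ⊥) (e := a)) a0
  have c2 := two_le (le_ad h2) (self_ad h2) n1
  rw [AddSubgroup.card_bot] at c1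
  rw [← AddSubgroup.eq_of_le_of_card_ge (ad_le h2 l1 (h.xW a ha)) (by rw [h.card]; omega)]
  exact ad_le h2 (ad_le h2 bot_le h1) h3

omit [Finite A] in
theorem comm_mem (h : Hb W X T S) (h' : Hb W' X' S T) (u : A) :
    ∃ w ∈ W, ∃ v ∈ W, X' u + u = w + X' (X' v) := by
  refine ⟨_, h.tU u, _, h.tU (X' (T u)), ?_⟩
  have e : T (X' (T u)) = X' (X' u) := by
    conv_lhs => rw [← h'.x3 u]
    exact h'.sx _
  rw [e, map_add, map_add, h'.x3, h'.x3, add_assoc, ← add_assoc (T u), h2, zero_add, add_comm]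

theorem half (h : Hb W X T S) (h' : Hb W' X' S T) (ha : a ∈ W) (ha' : a ∈ W') (a0 : a ≠ 0) :
    16 ≤ Nat.card (X' + AddMonoidHom.id A).range ∧
      ∀ u, X' u + u ∈ ad h2 (ad h2 W (X' a)) (X' (X' (X a))) := by
  have inv : ∀ u, X' u ∈ W' → u ∈ W' := fun u e => h'.x3 u ▸ h'.xW _ (h'.xW _ e)
  have aa : X' (X' a) = a + X' a :=
    (eq_neg_of_add_eq_zero_right (h'.nrm ha')).trans (neg_eq_of_add_eq_zero_right (h2 _))
  constructor
  · have mE : ∀ u, X' u + u ∈ (X' + AddMonoidHom.id A).range := fun u => ⟨u, rfl⟩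
    have l1 : W' ≤ (X' + AddMonoidHom.id A).range := h'.le h2 ha' a0
      (by have := mE (X' a); rwa [aa, add_assoc, h2, add_zero] at this)
      (by have := mE (X' (X' a)); rwa [h'.x3, aa, ← add_assoc, h2, zero_add] at this)
    obtain ⟨w, hw, sw⟩ := h.ns
    have n1 : X' w + w ∉ W' := fun e => sw (by
      have e1 := h'.tW _ e
      have e2 := h'.tU w
      have e3 := h'.nrm e2
      have e4 := h'.tW _ (h'.xW _ e)
      simp only [map_add, h'.tx] at e1 e3 e4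
      have e5 : S w + w = (w + S w + (X' w + X' (S w)) + (X' (X' w) + X' (X' (S w)))) +
          (X' (X' (S w)) + X' (S w)) + (X' (X' w) + X' w) -
          ((X' w + X' w) + (X' (S w) + X' (S w)) + (X' (X' w) + X' (X' w)) +
            (X' (X' (S w)) + X' (X' (S w)))) := by abel
      rw [e3, e4, zero_add, h2 (X' (X' w) + X' w), h2 (X' w), h2 (X' (S w)), h2 (X' (X' w)),
        h2 (X' (X' (S w)))] at e5
      exact add_right_cancel ((by simpa using e5 : S w + w = 0).trans (h2 w).symm))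
    have n2 : X' (X' w + w) ∉ ad h2 W' (X' w + w) := by
      rintro (e | e)
      · exact n1 (inv _ e)
      · refine n1 (inv _ (inv _ ?_))
        have e5 : X' (X' (X' w + w)) = X' (X' w + w) + (X' w + w) - (X' w + X' w) := by
          simp only [map_add, h'.x3]; abel
        rwa [e5, h2, sub_zero]
    have c1 := two_le (le_ad h2) (self_ad h2) n1
    have c2 := two_le (ad_le h2 l1 (mE w)) (by rw [map_add]; exact mE _) n2
    rw [h'.card] at c1
    omega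
  · intro u
    obtain ⟨w, hw, v, hv, e⟩ := comm_mem h2 h h' u
    rw [e]
    refine add_mem (le_ad h2 (le_ad h2 hw)) ?_
    exact h.le h2 ha a0 (K := (ad h2 (ad h2 W (X' a)) (X' (X' (X a)))).comap (X'.comp X'))
      (le_ad h2 (show X' (X' a) ∈ _ from aa ▸ add_mem (le_ad h2 ha) (self_ad h2))) (self_ad h2) hv

theorem inv_of {H : AddSubgroup A} {f : A →+ A} (h : ∀ u, f u + u ∈ H) : ∀ u ∈ H, f u ∈ H :=
  fun u hu => (add_mem_cancel_right hu).1 (h u)

theorem main1 (h : Hb W X T S) (h' : Hb W' X' S T) (ha : a ∈ W) (ha' : a ∈ W') (a0 : a ≠ 0)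
    (min : ∀ H : AddSubgroup A, W ≤ H → W' ≤ H → (∀ u ∈ H, X u ∈ H) → (∀ u ∈ H, X' u ∈ H) →
      (∀ u ∈ H, T u ∈ H) → (∀ u ∈ H, S u ∈ H) → H = ⊤) :
    16 ≤ Nat.card A ∧ Nat.card A ≤ 32 ∧ Nat.card (X + AddMonoidHom.id A).ker ≤ 2 ∧
      Nat.card (X' + AddMonoidHom.id A).ker ≤ 2 := by
  obtain ⟨c1, m1⟩ := half h2 h h' ha ha' a0
  obtain ⟨c2, m2⟩ := half h2 h' h ha' ha a0
  have l1 : W ≤ ad h2 (ad h2 (ad h2 W (X' a)) (X' (X' (X a)))) (X (X (X' a))) :=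
    ((le_ad h2).trans (le_ad h2)).trans (le_ad h2)
  have l2 : W' ≤ ad h2 (ad h2 (ad h2 W (X' a)) (X' (X' (X a)))) (X (X (X' a))) :=
    h'.le h2 ha' a0 (l1 ha) (le_ad h2 (le_ad h2 (self_ad h2)))
  have e := min _ l1 l2
    (inv_of h2 fun u => ad_le h2 (ad_le h2 l2 (l1 (h.xW a ha))) (self_ad h2) (m2 u))
    (inv_of h2 fun u => le_ad h2 (m1 u)) (inv_of h2 fun u => l1 (add_comm u _ ▸ h.tU u))
    (inv_of h2 fun u => l2 (add_comm u _ ▸ h'.tU u))
  have d1 := card_ad h2 (H := ad h2 (ad h2 W (X' a)) (X' (X' (X a)))) (e := X (X (X' a)))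
  have d2 := card_ad h2 (H := ad h2 W (X' a)) (e := X' (X' (X a)))
  have d3 := card_ad h2 (H := W) (e := X' a)
  rw [e, AddSubgroup.card_top] at d1
  rw [h.card] at d3
  have k : ∀ f : A →+ A, 16 ≤ Nat.card f.range → 16 ≤ Nat.card A ∧ Nat.card f.ker ≤ 2 :=
    fun f hf => by
    have := f.ker.card_mul_index
    rw [AddSubgroup.index_ker] at this
    have p : 0 < Nat.card f.ker := Nat.card_pos
    constructor <;> nlinarith
  exact ⟨(k _ c1).1, by omega, (k _ c2).2, (k _ c1).2⟩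

theorem main4 (h : Hb W X T S) (h' : Hb W' X' S T) (ha : a ∈ W) (ha' : a ∈ W') (a0 : a ≠ 0)
    (min : ∀ H : AddSubgroup A, W ≤ H → W' ≤ H → (∀ u ∈ H, X u ∈ H) → (∀ u ∈ H, X' u ∈ H) →
      (∀ u ∈ H, T u ∈ H) → (∀ u ∈ H, S u ∈ H) → H = ⊤) (c : ∀ u, X (X' u) = X' (X u)) :
    (∀ w ∈ W', w + X w + X (X w) = 0) ∧
      ∀ H : AddSubgroup A, W ≤ H → W' ≤ H → (∀ w ∈ W', X w ∈ H) → H = ⊤ := by
  have n : ∀ w ∈ W', w + X w + X (X w) = 0 := fun w hw =>
    h'.le h2 ha' a0 (K := (AddMonoidHom.id A + X + X.comp X).ker) (h.nrm ha)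
      (show X' a + X (X' a) + X (X (X' a)) = 0 by
        rw [c, c, ← map_add, ← map_add, h.nrm ha, map_zero]) hw
  refine ⟨n, fun H h1 h3 h4 => eq_top_iff.2 ?_⟩
  have l1 : W ≤ W ⊔ W' ⊔ W'.map X := le_sup_left.trans le_sup_left
  have l2 : W' ≤ W ⊔ W' ⊔ W'.map X := le_sup_right.trans le_sup_left
  have l3 : ∀ w ∈ W', X w ∈ W ⊔ W' ⊔ W'.map X := fun w hw =>
    AddSubgroup.mem_sup_right ⟨w, hw, rfl⟩
  have key : ∀ f : A →+ A, (∀ w ∈ W, f w ∈ W ⊔ W' ⊔ W'.map X) →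
      (∀ w ∈ W', f w ∈ W ⊔ W' ⊔ W'.map X) → (∀ w ∈ W', f (X w) ∈ W ⊔ W' ⊔ W'.map X) →
      ∀ u ∈ W ⊔ W' ⊔ W'.map X, f u ∈ W ⊔ W' ⊔ W'.map X := fun f f1 f2 f3 u hu =>
    (sup_le (sup_le f1 f2) (by rintro _ ⟨w, hw, rfl⟩; exact f3 w hw) :
      _ ≤ (W ⊔ W' ⊔ W'.map X).comap f) hu
  rw [← min _ l1 l2 (key X (fun w hw => l1 (h.xW w hw)) l3 fun w hw => by
      rw [eq_neg_of_add_eq_zero_right (n w hw)]
      exact neg_mem (add_mem (l2 hw) (l3 w hw)))
    (key X' (h.le h2 ha a0 (K := (W ⊔ W' ⊔ W'.map X).comap X') (l2 (h'.xW a ha'))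
      (show X' (X a) ∈ _ from c a ▸ l3 _ (h'.xW a ha'))) (fun w hw => l2 (h'.xW w hw))
      fun w hw => c w ▸ l3 _ (h'.xW w hw))
    (inv_of h2 fun u => l1 (add_comm u _ ▸ h.tU u))
    (inv_of h2 fun u => l2 (add_comm u _ ▸ h'.tU u))]
  exact sup_le (sup_le h1 h3) (by rintro _ ⟨w, hw, rfl⟩; exact h4 w hw)

end Cfsg.Lib.K7.NSG1
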