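import Cfsg.Agent.K7.LocB
import Cfsg.Agent.Rank2.Fpf3

/-! The type `G₂(2)`: the 2-core is abelian. -/

set_option autoImplicit false

namespace Cfsg.Lib.K7

open Cfsg Subgroup Cfsg.Lib.Trans Cfsg.Lib.Gold
open Cfsg.Lib.P8 (L32 V3 O2 Om Jt Phi EA SR4 Ch E9 Pj Ty Sec SecOK Mx Crd)
open Cfsg.Lib.K35 (PSL Alt A3 NC)
open scoped commutatorElement

universe u

namespace NSGA

open Rank2

variable {H X : Type*} [Group H] [Finite H] [Group X] {f : H →* X}

omit [Finite H] in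
theorem lift (hK : IsPGroup 2 f.ker) (a : H) (o : Odd (orderOf (f a))) :
    ∃ b ∈ zpowers a, f b = f a ∧ orderOf b = orderOf (f a) := by
  obtain ⟨k, hk⟩ := hK ⟨a ^ orderOf (f a), by rw [MonoidHom.mem_ker, map_pow, pow_orderOf_eq_one]⟩
  have hk : (a ^ orderOf (f a)) ^ 2 ^ k = 1 := congrArg Subtype.val hk
  obtain ⟨e, e1, e2⟩ :=
    Nat.chineseRemainder (Nat.Coprime.pow_right k (Nat.coprime_two_right.2 o)) 1 0
  obtain ⟨d, rfl⟩ := (Nat.modEq_zero_iff_dvd).1 e2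
  have p : f (a ^ (2 ^ k * d)) = f a := by rw [map_pow, pow_eq_pow_iff_modEq.2 e1, pow_one]
  refine ⟨_, npow_mem_zpowers a _, p,
    Nat.dvd_antisymm (orderOf_dvd_of_pow_eq_one ?_) (p ▸ orderOf_map_dvd f _)⟩
  rw [← pow_mul, mul_comm, pow_mul, pow_mul, hk, one_pow]

omit [Finite H] in
theorem fpf {K : Subgroup H} [K.Normal] (hK : IsPGroup 2 K) {r : H} (r3 : r ^ 3 = 1)
    (fr : ∀ k ∈ K, k * r = r * k → k = 1) : Fpf3 (MulAut.conjNormal r : MulAut K) :=
  ⟨hK, fun x => by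
    rw [← MulAut.mul_apply, ← MulAut.mul_apply, ← map_mul, ← map_mul, ← pow_three', r3, map_one,
      MulAut.one_apply], fun x e => Subtype.ext (fr x x.2 (by
    have : r * x * r⁻¹ = x := congrArg Subtype.val e
    exact (mul_inv_eq_iff_eq_mul.1 this).symm))⟩

theorem word {K : Type*} [Group K] [Finite K] {a b : MulAut K} (ha : Fpf3 a) (hb : Fpf3 b) (x y : K) :
    (b * b * a * b * b * a * a * b * b) ⁅x, y⁆ = ⁅x, y⁆ := by
  have e : a (b ⁅x, y⁆) = a (a (b (b (a (a (b (b ⁅x, y⁆))))))) := by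
    rw [← hb.comm_right, ← ha.comm_right, ← hb.comm_left, ← ha.comm_left, map_commutatorElement,
      map_commutatorElement]
  simp only [MulAut.mul_apply]
  rw [← a.injective e, hb.cube]

theorem comm_of {R S : X} (r3 : R ^ 3 = 1) (s3 : S ^ 3 = 1)
    (e : S * S * R * S * S * R * R * S * S = 1) : R * S = S * R := by
  have e1 : R * (S * S) = S * S * R := by
    calc _ = (S * S)⁻¹ * (S * S * R * S * S * R * R * S * S) * (S * S)⁻¹ * (R ^ 3)⁻¹ * R := by
          rw [pow_three']; group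
      _ = S * S * (S ^ 3 * S ^ 3)⁻¹ * R := by rw [e, r3, pow_three']; group
      _ = _ := by rw [s3]; group
  have : Commute R ((S * S) * (S * S)) := Commute.mul_right e1 e1
  rwa [show S * S * (S * S) = S ^ 3 * S by rw [pow_three']; group, s3, one_mul] at this

theorem main {H : Type*} [Group H] [Finite H] {f : H →* Gm} (uf : UF) (hK : IsPGroup 2 f.ker)
    (alt : L0 ≤ f.range) (fp : ∀ y, orderOf y = 7 → ∀ k ∈ f.ker, k * y = y * k → k = 1)
    (fa : ∀ r, orderOf r = 3 → Cl (f r) → ∀ k ∈ f.ker, k * r = r * k → k = 1) {a b : H}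
    (ha : a ∈ f.ker) (hb : b ∈ f.ker) : ⁅a, b⁆ = 1 := by
  have : Finite Gm := Nat.finite_of_card_ne_zero (by rw [Chev.card_GamU33]; decide)
  have lf : ∀ {R}, R ∈ L0 → Cl R → ∃ r, f r = R ∧ r ^ 3 = 1 ∧
      Fpf3 (MulAut.conjNormal r : MulAut f.ker) := fun {R} h1 h2 => by
    obtain ⟨m, rfl⟩ := alt h1
    obtain ⟨r, -, e1, e2⟩ := lift hK m (by rw [h2.1]; decide)
    rw [h2.1] at e2
    have r3 : r ^ 3 = 1 := e2 ▸ pow_orderOf_eq_one r
    exact ⟨r, e1, r3, fpf hK r3 (fa r e2 (e1 ▸ h2))⟩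
  obtain ⟨R, R0, S, S0, cR, cS, ne⟩ := uf.nab
  obtain ⟨r, rfl, r3, fr⟩ := lf R0 cR
  obtain ⟨s, rfl, s3, fs⟩ := lf S0 cS
  let C : Subgroup H := centralizer {c | ∃ x ∈ f.ker, ∃ y ∈ f.ker, c = ⁅x, y⁆}
  have nC : C.Normal := ⟨fun m hm g => by
    rintro _ ⟨x, hx, y, hy, rfl⟩
    have := hm _ ⟨_, (MonoidHom.normal_ker f).conj_mem' x hx g, _,
      (MonoidHom.normal_ker f).conj_mem' y hy g, rfl⟩
    calc _ = g * (⁅g⁻¹ * x * g, g⁻¹ * y * g⁆ * m) * g⁻¹ := by simp only [commutatorElement_def]; group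
      _ = _ := by rw [this]; simp only [commutatorElement_def]; group⟩
  have wC : s * s * r * s * s * r * r * s * s ∈ C := by
    rintro _ ⟨x, hx, y, hy, rfl⟩
    have := word fr fs ⟨x, hx⟩ ⟨y, hy⟩
    simp only [← map_mul] at this
    exact (mul_inv_eq_iff_eq_mul.1 (congrArg Subtype.val this)).symm
  have nN : ((C.map f).subgroupOf L0).Normal := ⟨fun n hn g => by
    obtain ⟨c, hc, e⟩ := mem_subgroupOf.1 hn
    obtain ⟨m, e'⟩ := alt g.2
    exact mem_subgroupOf.2 ⟨_, nC.conj_mem c hc m, by rw [map_mul, map_mul, map_inv, e, e']; rfl⟩⟩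
  have := uf.sim
  have top := nN.eq_bot_or_eq_top.resolve_left fun e => ne (by
    have w0 : f (s * s * r * s * s * r * r * s * s) ∈ L0 := by
      simp only [map_mul]
      repeat' apply mul_mem
      all_goals assumption
    have : (⟨_, w0⟩ : L0) ∈ (C.map f).subgroupOf L0 := mem_subgroupOf.2 ⟨_, wC, rfl⟩
    rw [e, mem_bot, Subtype.ext_iff] at this
    exact comm_of (by rw [← map_pow, r3, map_one]) (by rw [← map_pow, s3, map_one])
      (by simpa only [map_mul, OneMemClass.coe_one] using this))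
  have c7 : 7 ∣ Nat.card L0 := by
    have := L0.card_mul_index
    rw [uf.idx, Chev.card_GamU33] at this
    omega
  have := Fact.mk (by norm_num : Nat.Prime 7)
  obtain ⟨σ, o7⟩ := exists_prime_orderOf_dvd_card' 7 c7
  obtain ⟨c, hc, e⟩ := mem_subgroupOf.1 (top ▸ mem_top σ : σ ∈ (C.map f).subgroupOf L0)
  have o7' : orderOf (f c) = 7 := by rw [e, Subgroup.orderOf_coe, o7]
  obtain ⟨y, hy, -, oy⟩ := lift hK c (by rw [o7']; decide)
  refine fp y (oy.trans o7') _ ?_ (zpowers_le.2 hc hy _ ⟨a, ha, b, hb, rfl⟩)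
  exact mul_mem (mul_mem (mul_mem ha hb) (inv_mem ha)) (inv_mem hb)

end NSGA

theorem ga : StGA.{u} := by
  intro G _ _ M T π uf h fa
  let f : M →* Gm := MonoidHom.mk' (fun a => π a) fun a b => h.mul a a.2 b b.2
  have mk : ∀ {a : M}, a ∈ f.ker ↔ (a : G) ∈ T := fun {a} => h.ker a a.2
  have tr : ∀ {y : M}, T ⊓ C1 (y : G) = ⊥ → ∀ k ∈ f.ker, k * y = y * k → k = 1 := fun e k hk c =>
    Subtype.ext (mem_bot.1 (e ▸ ⟨mk.1 hk, mem_centralizer_singleton_iff.2 (congrArg Subtype.val c)⟩))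
  refine ⟨⟨fun a b => Subtype.ext ?_⟩⟩
  have := NSGA.main (f := f) uf
    (fun k => (h.two ⟨_, mk.1 k.2⟩).imp fun _ e => Subtype.ext (Subtype.ext (by
      simpa using congrArg Subtype.val e)))
    (fun σ hσ => (h.alt σ hσ).elim fun m hm => ⟨⟨m, hm.1⟩, hm.2⟩)
    (fun y oy => tr (h.fp y y.2 (by rw [Subgroup.orderOf_coe, oy])))
    (fun r o c => tr (fa r r.2 (by rw [Subgroup.orderOf_coe, o]) c))
    (a := ⟨a, h.le a.2⟩) (b := ⟨b, h.le b.2⟩) (mk.2 a.2) (mk.2 b.2)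
  have := commutatorElement_eq_one_iff_mul_comm.1 this
  exact congrArg (fun x : M => (x : G)) this

end Cfsg.Lib.K7
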