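import Cfsg.Agent.K7.LocB
import Cfsg.Agent.Solv.CardModEq

/-!
# Fixed points of an element of order three on two elementary abelian groups of order 64
-/

set_option autoImplicit false

namespace Cfsg.Lib.K7.NSGCe

open Cfsg Subgroup Cfsg.Lib.Trans Cfsg.Lib.Gold
open Cfsg.Lib.P8 (EA)
open scoped commutatorElement

variable {G : Type*} [Group G] [Finite G]

theorem md {L : Subgroup G} {x : G} (ox : orderOf x = 3) (h : x ∈ Ns L) :
    Nat.card L % 3 = Nat.card ↥(L ⊓ C1 x) % 3 := by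
  have := Fact.mk Nat.prime_three
  have h1 : IsPGroup 3 (zpowers x) := IsPGroup.of_card (n := 1) (by rw [Nat.card_zpowers, ox]; rfl)
  have h2 := Solv.card_modEq_card_inf_centralizer h1 (zpowers_le.2 h)
  have e : centralizer ((zpowers x : Subgroup G) : Set G) = C1 x := by
    rw [zpowers_eq_closure, centralizer_closure]
  rw [e] at h2
  exact h2

theorem dv {n : ℕ} (h : n ∣ 64) : n = 1 ∨ n = 2 ∨ n = 4 ∨ n = 8 ∨ n = 16 ∨ n = 32 ∨ n = 64 := by
  have : n ∈ Nat.divisors 64 := Nat.mem_divisors.2 ⟨h, by norm_num⟩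
  have e : Nat.divisors 64 = {1, 2, 4, 8, 16, 32, 64} := by decide
  simpa [e] using this

theorem fin {V V2 : Subgroup G} {x : G} (eV : EA V) (eV2 : EA V2) (c : Nat.card V = 64)
    (c2 : Nat.card V2 = 64) (cU : Nat.card ↥(V ⊓ V2) = 8) (n : V2 ≤ Ns V) (n2 : V ≤ Ns V2)
    (ox : orderOf x = 3) (xV : x ∈ Ns V) (xV2 : x ∈ Ns V2) (cs : Cs V ≤ V)
    (h1 : ∃ a ∈ V2, ⁅a, x⁆ ∉ V) (h2 : ∀ t ∈ V2, t ∉ V → ⁅t, x⁆ ∈ V → V ⊓ C1 t ≤ V2) :
    Nat.card ↥(V ⊓ C1 x) = 4 ∧ Nat.card ↥(V2 ⊓ C1 x) = 4 ∧ ¬ V2 ⊓ C1 x ≤ V := by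
  have cm : ∀ {A : Subgroup G}, EA A → ∀ a ∈ A, ∀ b ∈ A, a * b = b * a := fun h a ha b hb =>
    congrArg Subtype.val (h.1.is_comm.comm ⟨a, ha⟩ ⟨b, hb⟩)
  have sq : ∀ {A : Subgroup G}, EA A → ∀ a ∈ A, a * a = 1 := fun h a ha => by
    simpa [pow_two] using h.2 a ha
  have x3 : x * x * x = 1 := by
    have := pow_orderOf_eq_one x
    rw [ox] at this
    simpa [pow_succ] using this
  have xU : x ∈ Ns (V ⊓ V2) := by
    rw [mem_normalizer_iff] at xV xV2 ⊢
    exact fun a => and_congr (xV a) (xV2 a)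
  have m1 := md ox xV
  have m2 := md ox xV2
  have m3 := md ox xU
  rw [c] at m1
  rw [c2] at m2
  rw [cU] at m3
  have ne : ¬ V2 ⊓ C1 x ≤ V := fun h => by
    have : V ⊓ V2 ⊓ C1 x = V2 ⊓ C1 x := by
      rw [inf_assoc]
      exact inf_eq_right.2 h
    rw [this] at m3
    omega
  obtain ⟨t, ⟨tV2, tx⟩, tV⟩ := SetLike.not_le_iff_exists.1 ne
  have tx' : t * x = x * t := mem_centralizer_singleton_iff.1 tx
  have kt := h2 t tV2 tV (by rw [commutatorElement_eq_one_iff_mul_comm.2 tx']; exact V.one_mem)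
  have cV : ∀ v ∈ V, t * v * t⁻¹ ∈ V := fun v hv => (mem_normalizer_iff.1 (n tV2) v).1 hv
  have cU' : ∀ v ∈ V, ⁅t, v⁆ ∈ V ⊓ V2 := fun v hv => by
    refine ⟨V.mul_mem (cV v hv) (V.inv_mem hv), ?_⟩
    have := V2.mul_mem tV2 ((mem_normalizer_iff.1 (n2 hv) _).1 (V2.inv_mem tV2))
    simpa [commutatorElement_def, mul_assoc] using this
  have xc : ∀ v, ⁅t, x * v * x⁻¹⁆ = x * ⁅t, v⁆ * x⁻¹ := fun v => by
    have e : t = x * t * x⁻¹ := by rw [← tx']; group
    conv_lhs => rw [e]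
    simp only [commutatorElement_def]
    group
  have mul : ∀ v ∈ V, ∀ w ∈ V, ⁅t, v * w⁆ = ⁅t, v⁆ * ⁅t, w⁆ := fun v hv w hw => by
    have e := cm eV _ (V.inv_mem hv) _ (cU' w hw).1
    have e2 : ⁅t, v * w⁆ = t * v * t⁻¹ * (⁅t, w⁆ * v⁻¹) := by
      simp only [commutatorElement_def]
      group
    rw [e2, ← e]
    simp only [commutatorElement_def]
    group
  have c0 : Nat.card ↥(V ⊓ V2 ⊓ C1 x) = 2 := by
    have d := card_dvd_of_le (inf_le_left : V ⊓ V2 ⊓ C1 x ≤ _)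
    rw [cU] at d
    have d8 := Nat.le_of_dvd (by norm_num) d
    by_contra hne
    have e8 : Nat.card ↥(V ⊓ V2 ⊓ C1 x) = 8 := by
      rcases dv (d.trans (by norm_num)) with h | h | h | h | h | h | h <;> omega
    have le : V ⊓ V2 ≤ C1 x := inf_eq_left.1 (eq_of_le_of_card_ge inf_le_left (by omega))
    have xCs : x ∈ Cs V := by
      rw [mem_centralizer_iff]
      intro v hv
      have hx : x * v * x⁻¹ ∈ V := (mem_normalizer_iff.1 xV v).1 hv
      have a1 : ⁅t, x * v * x⁻¹ * v⁆ = 1 := by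
        rw [mul _ hx _ hv, xc, ← mem_centralizer_singleton_iff.1 (le (cU' v hv)), mul_inv_cancel_right]
        exact sq eV _ (cU' v hv).1
      have a2 : x * v * x⁻¹ * v ∈ V ⊓ V2 := ⟨V.mul_mem hx hv, kt ⟨V.mul_mem hx hv,
        mem_centralizer_singleton_iff.2 (commutatorElement_eq_one_iff_mul_comm.1 a1).symm⟩⟩
      set u := x * v * x⁻¹ * v with hu
      have ux : u * x = x * u := mem_centralizer_singleton_iff.1 (le a2)
      have uu := sq eV _ a2.1
      have vv := sq eV _ hv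
      have b1 : x * v = u * v * x := by
        rw [hu, mul_assoc _ v v, vv]
        group
      have b2 : x * x * x * v = u * u * u * v * (x * x * x) := by
        calc x * x * x * v = x * x * (x * v) := by group
          _ = x * (x * u) * v * x := by rw [b1]; group
          _ = x * (u * x) * v * x := by rw [ux]
          _ = (x * u) * (x * v) * x := by group
          _ = u * x * (u * v * x) * x := by rw [b1, ← ux]
          _ = u * (x * u) * v * x * x := by group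
          _ = u * u * (x * v) * x * x := by rw [← ux]; group
          _ = u * u * u * v * (x * x * x) := by rw [b1]; group
      rw [x3, uu, one_mul, one_mul, mul_one] at b2
      have u1 : u = 1 := by simpa using b2.symm
      rw [b1, u1, one_mul]
    have xx := sq eV x (cs xCs)
    rw [xx, one_mul] at x3
    rw [x3, orderOf_one] at ox
    omega
  refine ⟨?_, ?_, ne⟩
  · let φ : ↥(V ⊓ C1 x) →* ↥(V ⊓ V2 ⊓ C1 x) := MonoidHom.mk'
      (fun v => ⟨⁅t, v.1⁆, cU' _ v.2.1, by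
        have e : v.1 * x = x * v.1 := mem_centralizer_singleton_iff.1 v.2.2
        have := xc v.1
        rw [← e, mul_inv_cancel_right] at this
        refine mem_centralizer_singleton_iff.2 ?_
        conv_lhs => rw [this]
        group⟩)
      fun v w => Subtype.ext (mul _ v.2.1 _ w.2.1)
    have k1 : Nat.card φ.ker ≤ 2 := by
      rw [← c0]
      refine Nat.card_le_card_of_injective (fun k => ⟨k.1.1, ⟨k.1.2.1, kt ⟨k.1.2.1, ?_⟩⟩, k.1.2.2⟩) ?_
      · have : ⁅t, k.1.1⁆ = 1 := congrArg Subtype.val (MonoidHom.mem_ker.1 k.2)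
        exact mem_centralizer_singleton_iff.2 (commutatorElement_eq_one_iff_mul_comm.1 this).symm
      · intro a b h
        exact Subtype.ext (Subtype.ext (Subtype.mk.inj h))
    have k2 : φ.ker.index ≤ 2 := by
      rw [index_ker, ← c0]
      exact Nat.card_le_card_of_injective _ Subtype.val_injective
    have k3 := φ.ker.card_mul_index
    have k4 : Nat.card ↥(V ⊓ C1 x) ≤ 2 * 2 := k3 ▸ Nat.mul_le_mul k1 k2
    have k5 := Subgroup.card_le_of_le (inf_le_inf_right (C1 x) (inf_le_left : V ⊓ V2 ≤ V))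
    omega
  · have d := card_dvd_of_le (inf_le_left : V2 ⊓ C1 x ≤ _)
    rw [c2] at d
    have k5 := Subgroup.card_le_of_le (inf_le_inf_right (C1 x) (inf_le_right : V ⊓ V2 ≤ V2))
    by_contra hne
    have ge : 16 ≤ Nat.card ↥(V2 ⊓ C1 x) := by
      rcases dv d with h | h | h | h | h | h | h <;> omega
    obtain ⟨a, ha, hx⟩ := h1
    apply hx
    -- `V2` is the product of `V ⊓ V2` and `V2 ⊓ C1 x`
    let ψ : ↥(V ⊓ V2) × ↥(V2 ⊓ C1 x) →* V2 := MonoidHom.mk'
      (fun p => ⟨p.1.1 * p.2.1, V2.mul_mem p.1.2.2 p.2.2.1⟩) fun p q => Subtype.ext (by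
        have e := cm eV2 _ q.1.2.2 _ p.2.2.1
        change p.1.1 * q.1.1 * (p.2.1 * q.2.1) = p.1.1 * p.2.1 * (q.1.1 * q.2.1)
        rw [mul_assoc, ← mul_assoc q.1.1, e]
        group)
    have k1 : Nat.card ψ.ker ≤ 2 := by
      rw [← c0]
      have hk : ∀ k : ψ.ker, k.1.1.1 * k.1.2.1 = 1 := fun k =>
        congrArg Subtype.val (MonoidHom.mem_ker.1 k.2)
      refine Nat.card_le_card_of_injective (fun k => ⟨k.1.1.1, k.1.1.2, ?_⟩) ?_
      · rw [eq_inv_of_mul_eq_one_left (hk k)]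
        exact (C1 x).inv_mem k.1.2.2.2
      · intro a b h
        have e : a.1.1.1 = b.1.1.1 := Subtype.mk.inj h
        refine Subtype.ext (Prod.ext (Subtype.ext e) (Subtype.ext ?_))
        exact mul_left_cancel (a := a.1.1.1) ((hk a).trans (e ▸ (hk b).symm))
    have k3 := ψ.ker.card_mul_index
    rw [index_ker, Nat.card_prod, cU] at k3
    have k4 : 64 ≤ Nat.card ψ.range := by nlinarith
    have top : ψ.range = ⊤ := eq_top_of_le_card _ (by omega)
    obtain ⟨p, hp⟩ : (⟨a, ha⟩ : V2) ∈ ψ.range := top ▸ mem_top _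
    have e : p.1.1 * p.2.1 = a := congrArg Subtype.val hp
    have px : p.2.1 * x = x * p.2.1 := mem_centralizer_singleton_iff.1 p.2.2.2
    have e2 : ⁅a, x⁆ = p.1.1 * (x * p.1.1⁻¹ * x⁻¹) := by
      rw [← e, commutatorElement_def, mul_assoc p.1.1, px]
      group
    rw [e2]
    exact V.mul_mem p.1.2.1 ((mem_normalizer_iff.1 xV _).1 (V.inv_mem p.1.2.1))

end Cfsg.Lib.K7.NSGCe
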