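import Cfsg.Agent.K7.LocB

/-!
# Simple groups of order `p * 3 ^ a * 2 ^ b`: the subgroup `U`
-/

set_option autoImplicit false

namespace Cfsg.Lib.K7

open Cfsg Subgroup Cfsg.Lib.Trans Cfsg.Lib.Gold
open Cfsg.Lib.P8 (L32 V3 O2 Om Jt Phi EA SR4 Ch E9 Pj Ty Sec SecOK Mx Crd)
open Cfsg.Lib.K35 (PSL Alt A3 NC)
open scoped commutatorElement

universe u

namespace NSI2a

theorem form (m : L32) (h : inA m) : ∃ b c : ZMod 2, m.1 = !![1, b, c; 0, 1, 0; 0, 0, 1] := by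
  have hd := m.2
  obtain ⟨h1, h2, h3, h4⟩ := h
  rw [Matrix.det_fin_three, h1, h2, h3, h4] at hd
  have key : ∀ a b c d e : ZMod 2,
      a * d * e - a * 0 * 0 - b * 0 * e + b * 0 * 0 + c * 0 * 0 - c * d * 0 = 1 →
        a = 1 ∧ d = 1 ∧ e = 1 := by decide
  obtain ⟨e1, e2, e3⟩ := key _ _ _ _ _ hd
  refine ⟨m.1 0 1, m.1 0 2, ?_⟩
  ext i j
  fin_cases i <;> fin_cases j <;> simp [h1, h2, h3, h4, e1, e2, e3]

theorem actA (m : L32) (h : inA m) (v : V3) :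
    v + m.1.mulVec v = 0 ∨ v + m.1.mulVec v + ![1, 0, 0] = 0 := by
  obtain ⟨b, c, e⟩ := form m h
  rw [e]
  clear e
  revert b c v
  decide +kernel

theorem sqA (m : L32) (h : inA m) : m * m = 1 := by
  obtain ⟨b, c, e⟩ := form m h
  apply Subtype.ext
  rw [Matrix.SpecialLinearGroup.coe_mul, Matrix.SpecialLinearGroup.coe_one]
  show m.1 * m.1 = 1
  rw [e]
  clear e
  revert b c
  decide +kernel

theorem oneA : inA 1 := by
  refine ⟨?_, ?_, ?_, ?_⟩ <;> decide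

variable {G : Type u} [Group G]

theorem mem_C1 {a g : G} : g ∈ C1 a ↔ g * a = a * g := by
  simp [mem_centralizer_iff, eq_comm]

theorem mem_Cs {U : Subgroup G} {g : G} : g ∈ Cs U ↔ ∀ u ∈ U, u * g = g * u := mem_centralizer_iff

theorem mem_Ns_iff {X : Subgroup G} {g : G} : g ∈ Ns X ↔ cj g X = X := cj_eq_self_iff.symm

theorem mem_Ns_Cs {X : Subgroup G} {g : G} (h : g ∈ Ns X) : g ∈ Ns (Cs X) := by
  rw [mem_Ns_iff] at *
  rw [cj_centralizer, h]

theorem conj_mem_of_Ns {X : Subgroup G} {k x : G} (hk : k ∈ Ns X) (hx : x ∈ X) :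
    k * x * k⁻¹ ∈ X := (mem_normalizer_iff.1 hk x).1 hx

theorem conj_eq_of_C1 {k x : G} (hk : k ∈ C1 x) : k * x * k⁻¹ = x := by
  rw [mem_C1.1 hk, mul_inv_cancel_right]

theorem conj_zp {k z w : G} (hk : k ∈ C1 z) (hw : w ∈ zpowers z) : k * w * k⁻¹ ∈ zpowers z := by
  have h1 : cj k (zpowers z) = zpowers z := by rw [cj_zpowers, conj_eq_of_C1 hk]
  rw [← h1]
  exact conj_mem_cj.2 hw

/-- The elements of `K` that are central modulo `z`. -/
def ZK (K : Subgroup G) (z : G) (h : K ≤ C1 z) : Subgroup G where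
  carrier := {a | a ∈ K ∧ ∀ k ∈ K, ⁅a, k⁆ ∈ zpowers z}
  one_mem' := ⟨one_mem _, fun k _ => by rw [commutatorElement_one_left]; exact one_mem _⟩
  mul_mem' := by
    rintro a b ⟨ha, ha'⟩ ⟨hb, hb'⟩
    refine ⟨mul_mem ha hb, fun k hk => ?_⟩
    have e : ⁅a * b, k⁆ = a * ⁅b, k⁆ * a⁻¹ * ⁅a, k⁆ := by
      simp only [commutatorElement_def]; group
    rw [e]
    exact mul_mem (conj_zp (h ha) (hb' k hk)) (ha' k hk)
  inv_mem' := by
    rintro a ⟨ha, ha'⟩
    refine ⟨inv_mem ha, fun k hk => ?_⟩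
    have e : ⁅a⁻¹, k⁆ = a⁻¹ * ⁅a, k⁆⁻¹ * a⁻¹⁻¹ := by
      simp only [commutatorElement_def]; group
    rw [e]
    exact conj_zp (h (inv_mem ha)) (inv_mem (ha' k hk))

/-- The elements of order at most two of an abelian subgroup. -/
def SqU (U : Subgroup G) (h : ∀ a ∈ U, ∀ b ∈ U, a * b = b * a) : Subgroup G where
  carrier := {a | a ∈ U ∧ a * a = 1}
  one_mem' := ⟨one_mem _, mul_one _⟩
  mul_mem' := by
    rintro a b ⟨ha, ha'⟩ ⟨hb, hb'⟩
    refine ⟨mul_mem ha hb, ?_⟩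
    calc a * b * (a * b) = a * (b * a) * b := by group
      _ = a * a * (b * b) := by rw [← h a ha b hb]; group
      _ = 1 := by rw [ha', hb', mul_one]
  inv_mem' := by
    rintro a ⟨ha, ha'⟩
    exact ⟨inv_mem ha, by rw [← mul_inv_rev, ha', inv_one]⟩

theorem Uu_le {M V X : Subgroup G} {g z : G} (h1 : V ≤ X) (h2 : cj g V ≤ X)
    (h3 : ∀ k ∈ Yy M g z, ∀ a ∈ X, k * a * k⁻¹ ∈ X) : Uu M V g z ≤ X := by
  refine iSup_le fun k => ?_
  exact cj_le_iff.2 fun a ha => h3 k k.2 a (sup_le h1 h2 ha)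

theorem le_Uu {M V : Subgroup G} {g z k : G} (hk : k ∈ Yy M g z) :
    cj k (V ⊔ cj g V) ≤ Uu M V g z :=
  le_iSup (fun k : Yy M g z => cj (k : G) (V ⊔ cj g V)) ⟨k, hk⟩

theorem cj_Uu {M V : Subgroup G} {g z h : G} (h1 : ∀ k ∈ Yy M g z, h * k * h⁻¹ ∈ Yy M g z)
    (h2 : cj h (V ⊔ cj g V) ≤ V ⊔ cj g V) : cj h (Uu M V g z) ≤ Uu M V g z := by
  unfold Uu
  rw [cj_iSup]
  refine iSup_le fun k => ?_
  have e : cj h (cj (k : G) (V ⊔ cj g V)) = cj (h * k * h⁻¹) (cj h (V ⊔ cj g V)) := by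
    rw [cj_cj, cj_cj, inv_mul_cancel_right]
  rw [e]
  exact (cj_mono _ h2).trans (le_Uu (h1 k k.2))

theorem cj_Uu' {M V : Subgroup G} {g z h : G} (h1 : h ∈ Yy M g z) :
    cj h (Uu M V g z) ≤ Uu M V g z := by
  unfold Uu
  rw [cj_iSup]
  refine iSup_le fun k => ?_
  rw [cj_cj]
  exact le_Uu (mul_mem h1 k.2)

end NSI2a

open NSI2a in
theorem i2 (hDp : StDp.{u}) : StI2.{u} := by
  intro G _ _ M S₀ V g π c z x s ib i1
  have nl := ib.nl
  have no := nl.no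
  have nb := nl.nb
  have ty := nl.ty
  have crd := nl.crd
  have hV := ib.eq
  have nT : Ns (O2 M) = M := no.nT
  have nV : Ns V = M := by rw [← hV]; exact no.nV
  have cV : Cs V = O2 M := by rw [← hV]; exact no.cV
  have TM : O2 M ≤ M := ty.le
  have SM : S₀ ≤ M := nb.syl.le
  have sqV : ∀ v ∈ V, v * v = 1 := fun v hv => ((no.memV v).1 (by rw [hV]; exact hv)).2.1
  have VT : V ≤ O2 M := fun v hv => ((no.memV v).1 (by rw [hV]; exact hv)).1
  have ggM : g * g ∈ M := SM nb.sq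
  have ggz : g * g ∈ C1 z := ib.ns.zS nb.sq
  have ggV : cj g (cj g V) = V := by
    rw [cj_cj]; exact mem_Ns_iff.1 (by rw [nV]; exact ggM)
  have ggP : cj g (cj g (M ⊓ C1 z)) = M ⊓ C1 z := by
    rw [cj_cj]; exact cj_eq_of_mem (mem_inf.2 ⟨ggM, ggz⟩)
  have TQ : O2 M ≤ O2 (M ⊓ C1 z) := fun t ht =>
    (i1.memQ t).2 ⟨TM ht, by rw [(ty.ker t (TM ht)).2 ht]; exact oneA⟩
  have QS : O2 (M ⊓ C1 z) ≤ S₀ := fun q hq => by
    obtain ⟨h1, h2, h3, h4, -⟩ := (i1.memQ q).1 hq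
    exact (nl.memS q).2 ⟨h1, h2, h3, h4⟩
  have KQ : Kk M g z ≤ O2 (M ⊓ C1 z) := inf_le_left
  have KQ' : Kk M g z ≤ cj g (O2 (M ⊓ C1 z)) := inf_le_right
  have VK : V ≤ Kk M g z := by
    refine le_inf (VT.trans TQ) ?_
    rw [← ggV]
    exact cj_mono g (ib.le.trans TQ)
  have V'K : cj g V ≤ Kk M g z := le_inf (ib.le.trans TQ) (cj_mono g (VT.trans TQ))
  have Yz : Yy M g z ≤ C1 z :=
    sup_le inf_le_right (cj_le_of_mem_of_le i1.gz inf_le_right)
  have Kz : Kk M g z ≤ C1 z := KQ.trans (QS.trans ib.ns.zS)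
  have zV : z ∈ V := nl.zW
  have cVQ : ∀ v ∈ V, ∀ q ∈ O2 (M ⊓ C1 z), ⁅v, q⁆ ∈ zpowers z := by
    intro v hv q hq
    obtain ⟨hqM, hqA⟩ := (i1.memQ q).1 hq
    have hv' : q * v * q⁻¹ ∈ V := conj_mem_of_Ns (nl.nW hqM) hv
    have hi : v⁻¹ = v := inv_eq_of_mul_eq_one_right (sqV v hv)
    have e : ⁅v, q⁆ = v * (q * v * q⁻¹) := by
      rw [commutatorElement_def, hi]; group
    have hm : v * (q * v * q⁻¹) ∈ V := mul_mem hv hv'
    have hc : c (v * (q * v * q⁻¹)) = c v + (π q).1.mulVec (c v) := by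
      rw [crd.add v hv _ hv', crd.eqv q hqM v hv]
    rw [e]
    rcases actA (π q) hqA (c v) with h | h
    · rw [(crd.zero _ hm).1 (hc.trans h)]
      exact one_mem _
    · have h1 : c (v * (q * v * q⁻¹) * z) = 0 := by
        rw [crd.add _ hm z zV, hc, nl.cz]; exact h
      have h2 := (crd.zero _ (mul_mem hm zV)).1 h1
      rw [eq_inv_of_mul_eq_one_left h2]
      exact inv_mem (mem_zpowers z)
  have UZ : Uu M V g z ≤ ZK (Kk M g z) z Kz := by
    refine Uu_le (fun v hv => ⟨VK hv, fun k hk => cVQ v hv k (KQ hk)⟩) (fun v hv => ⟨V'K hv, fun k hk => ?_⟩) ?_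
    · have h1 := conj_zp i1.gz (cVQ _ (mem_cj.1 hv) _ (mem_cj.1 (KQ' hk)))
      have e : ⁅v, k⁆ = g * ⁅g⁻¹ * v * g, g⁻¹ * k * g⁆ * g⁻¹ := by
        simp only [commutatorElement_def]; group
      rw [e]; exact h1
    · rintro y hy a ⟨ha, ha'⟩
      refine ⟨conj_mem_of_Ns (i1.nK hy) ha, fun k hk => ?_⟩
      have h1 := conj_zp (Yz hy) (ha' _ (conj_mem_of_Ns (i1.nK (inv_mem hy)) hk))
      have e : ⁅y * a * y⁻¹, k⁆ = y * ⁅a, y⁻¹ * k * y⁻¹⁻¹⁆ * y⁻¹ := by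
        simp only [commutatorElement_def]; group
      rw [e]; exact h1
  have leK : Uu M V g z ≤ Kk M g z := fun a ha => (UZ ha).1
  have UK : ∀ a ∈ Uu M V g z, ∀ k ∈ Kk M g z, ⁅a, k⁆ ∈ zpowers z := fun a ha => (UZ ha).2
  have gY : cj g (Yy M g z) = Yy M g z := by
    unfold Yy
    rw [cj_sup, ggP, sup_comm]
  have gU : g ∈ Ns (Uu M V g z) := by
    rw [mem_Ns_iff]
    refine eq_of_le_of_card_ge (cj_Uu (fun k hk => ?_) ?_) (card_cj _ _).ge
    · rw [← gY]; exact conj_mem_cj.2 hk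
    · rw [cj_sup, ggV, sup_comm]
  have idx : (Kk M g z ⊓ O2 M).relIndex (O2 M) ≤ 2 := by
    have h1 := relIndex_mul_relIndex (Kk M g z) (O2 (M ⊓ C1 z)) S₀ KQ QS
    rw [i1.i4] at h1
    have hs : s ∈ S₀ := by
      have := cj_mono g no.leT ib.sT
      rwa [cj_eq_of_mem_normalizer nb.nor] at this
    have h2 : (O2 (M ⊓ C1 z)).relIndex S₀ ≠ 1 := fun h =>
      ib.s12 ((i1.memQ s).1 (relIndex_eq_one.1 h hs)).2.2.2.2
    have h3 : (Kk M g z).relIndex (O2 (M ⊓ C1 z)) ≠ 0 := fun h => by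
      rw [h] at h1; omega
    have h4 := relIndex_le_of_le_right TQ h3
    rw [inf_relIndex_right]
    refine h4.trans ?_
    generalize (Kk M g z).relIndex (O2 (M ⊓ C1 z)) = a at h1
    generalize (O2 (M ⊓ C1 z)).relIndex S₀ = b at h1 h2
    have h5 : 2 ≤ b := by
      rcases b with _ | _ | b
      · omega
      · omega
      · omega
    nlinarith
  have leT : Uu M V g z ≤ O2 M := by
    intro a ha
    by_contra haT
    obtain ⟨haM, haA⟩ := (i1.memQ a).1 (KQ (leK ha))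
    have haa : a * a ∈ O2 M :=
      (ty.ker _ (mul_mem haM haM)).1 (by rw [ty.mul a haM a haM]; exact sqA _ haA)
    obtain ⟨m₁, hm₁, m₂, hm₂, y, hy, hy7⟩ := ib.ns.tri a haM haT haa
    have hyM : y ∈ M := by
      refine (closure_le M).2 ?_ hy
      rintro w (hw | hw | hw)
      · rw [hw]; exact haM
      · rw [hw]; exact mul_mem (mul_mem hm₁ haM) (inv_mem hm₁)
      · rw [Set.mem_singleton_iff.1 hw]; exact mul_mem (mul_mem hm₂ haM) (inv_mem hm₂)
    have hD := (hDp G M V (O2 M) y 7 (by norm_num) (by norm_num) ty.two VT TM nV.ge nT.ge hyM hy7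
      (no.fp y hyM hy7)).2.1 3 a ![1, m₁, m₂] haM
      (by
        intro i
        fin_cases i
        · exact one_mem M
        · exact hm₁
        · exact hm₂)
      (by
        refine closure_mono ?_ hy
        rintro w (hw | hw | hw)
        · exact ⟨0, by simp [hw]⟩
        · exact ⟨1, by simp [hw]⟩
        · exact ⟨2, by simp [Set.mem_singleton_iff.1 hw]⟩)
      (Kk M g z ⊓ O2 M) (le_inf VK VT) inf_le_right
      (by
        intro d hd
        rw [← commutatorElement_inv]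
        exact inv_mem (zpowers_le.2 zV (UK a ha d hd.1)))
    have h8 : V.relIndex (O2 M) ≤ 8 := hD.trans (Nat.pow_le_pow_left idx 3)
    have hle : cj g V ≤ V := by
      intro w hw
      refine ib.ns.s64 hV h8 w (ib.le hw) ?_
      have h1 := sqV _ (mem_cj.1 hw)
      calc w * w = g * (g⁻¹ * w * g * (g⁻¹ * w * g)) * g⁻¹ := by group
        _ = 1 := by rw [h1]; group
    have h4 := i1.cap
    rw [inf_of_le_right hle, card_cj, ib.ns.cW] at h4
    omega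
  have TV : ∀ t ∈ O2 M, ∀ v ∈ V, v * t = t * v := fun t ht v hv => by
    rw [← cV] at ht
    exact mem_Cs.1 ht v hv
  have leT' : Uu M V g z ≤ cj g (O2 M) := by
    rw [← mem_Ns_iff.1 gU]
    exact cj_mono g leT
  have comm : ∀ a ∈ Uu M V g z, ∀ b ∈ Uu M V g z, a * b = b * a := by
    have h1 : Uu M V g z ≤ Cs (Uu M V g z) := by
      refine Uu_le (fun v hv => mem_Cs.2 fun b hb => (TV b (leT hb) v hv).symm)
        (fun v hv => mem_Cs.2 fun b hb => ?_) (fun k hk a ha => ?_)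
      · have h2 := TV _ (mem_cj.1 (leT' hb)) _ (mem_cj.1 hv)
        calc b * v = g * (g⁻¹ * b * g * (g⁻¹ * v * g)) * g⁻¹ := by group
          _ = g * (g⁻¹ * v * g * (g⁻¹ * b * g)) * g⁻¹ := by rw [h2]
          _ = v * b := by group
      · refine conj_mem_of_Ns (mem_Ns_Cs (mem_Ns_iff.2 ?_)) ha
        exact eq_of_le_of_card_ge (cj_Uu' hk) (card_cj _ _).ge
    intro a ha b hb
    exact mem_Cs.1 (h1 hb) a ha
  have VU : V ⊔ cj g V ≤ Uu M V g z := by
    have := le_Uu (V := V) (one_mem (Yy M g z))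
    rwa [cj_one] at this
  have sqU : Uu M V g z ≤ SqU (Uu M V g z) comm := by
    refine Uu_le (fun v hv => ⟨VU (mem_sup_left hv), sqV v hv⟩)
      (fun w hw => ⟨VU (mem_sup_right hw), ?_⟩) ?_
    · have h1 := sqV _ (mem_cj.1 hw)
      calc w * w = g * (g⁻¹ * w * g * (g⁻¹ * w * g)) * g⁻¹ := by group
        _ = 1 := by rw [h1]; group
    · rintro k hk a ⟨ha, ha'⟩
      refine ⟨cj_le_iff.1 (cj_Uu' hk) a ha, ?_⟩
      calc k * a * k⁻¹ * (k * a * k⁻¹) = k * (a * a) * k⁻¹ := by group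
        _ = 1 := by rw [ha']; group
  exact ⟨leK, UK, leT, gU, ⟨⟨fun a b => Subtype.ext (comm a a.2 b b.2)⟩⟩,
    fun a ha => by rw [pow_two]; exact (sqU ha).2⟩

end Cfsg.Lib.K7
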