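import Cfsg.Agent.K7.LocB
import Cfsg.Agent.P8.M2aa

/-!
# Simple groups of order `p * 3 ^ a * 2 ^ b`: a linear certificate on the flags of `L₃(2)`
-/

set_option autoImplicit false
set_option maxRecDepth 100000

namespace Cfsg.Lib.K7

open Cfsg Subgroup Cfsg.Lib.Trans Cfsg.Lib.Gold Matrix
open Cfsg.Lib.P8 (L32 V3)
open Cfsg.Lib.P8.M2aH

universe u

namespace NSLin

/-- The vector with the given binary digits. -/
def nv (u : ℕ) : V3 := ![(u : ZMod 2), ((u / 2 : ℕ) : ZMod 2), ((u / 4 : ℕ) : ZMod 2)]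

/-- The value of a linear form given by a bit mask. -/
def val (X : ℕ → ZMod 2) (m : ℕ) : ZMod 2 := ∑ t ∈ Finset.range 192, if m.testBit t then X t else 0

/-- Sum of bit masks. -/
def xr (l : List ℕ) : ℕ := l.foldr (· ^^^ ·) 0

/-- A scaled basis mask. -/
def bit (c : ZMod 2) (t : ℕ) : ℕ := if c = 1 then 2 ^ t else 0

/-- The flags. -/
def fl : List ℕ := [10, 12, 14, 17, 20, 21, 27, 28, 31, 33, 34, 35, 42, 45, 47, 49, 54, 55, 59, 61, 62]

/-- The planes through a point. -/
def tri : List (M3 × ℕ × ℕ × ℕ) :=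
  [(!![0, 0, 1; 0, 1, 0; 1, 0, 0], 12, 20, 28),
    (!![0, 0, 1; 1, 0, 0; 0, 1, 0], 10, 34, 42),
    (!![0, 0, 1; 1, 0, 0; 1, 1, 0], 14, 54, 62),
    (!![1, 0, 0; 0, 0, 1; 0, 1, 0], 17, 33, 49),
    (!![1, 0, 0; 0, 0, 1; 1, 1, 0], 21, 45, 61),
    (!![1, 0, 0; 1, 0, 1; 0, 1, 0], 27, 35, 59),
    (!![1, 0, 0; 1, 0, 1; 1, 1, 0], 31, 47, 55)]

/-- Some orbits of elements of order seven. -/
def orb : List (M3 × (Fin 7 → ℕ)) :=
  [(!![0, 0, 1; 0, 1, 1; 1, 1, 0], ![10, 62, 45, 55, 17, 28, 35]),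
    (!![0, 0, 1; 0, 1, 1; 1, 1, 0], ![12, 59, 42, 54, 21, 31, 33]),
    (!![0, 0, 1; 0, 1, 1; 1, 1, 1], ![10, 54, 17, 28, 47, 61, 35]),
    (!![0, 0, 1; 0, 1, 1; 1, 1, 1], ![12, 55, 21, 27, 42, 62, 33]),
    (!![0, 0, 1; 1, 0, 0; 0, 1, 1], ![10, 20, 45, 31, 59, 54, 33]),
    (!![0, 0, 1; 1, 0, 0; 0, 1, 1], ![12, 21, 47, 27, 62, 49, 34])]

/-- The vector valued relations. -/
def vec : List (List ℕ) :=
  [[33], [17]] ++ tri.map (fun p => [p.2.1, p.2.2.1, p.2.2.2]) ++ orb.map fun p => List.ofFn p.2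

/-- All relations. -/
def ms : List ℕ :=
  fl.map (fun u => xr [bit (nv (u / 8) 0) (3 * u), bit (nv (u / 8) 1) (3 * u + 1), bit (nv (u / 8) 2) (3 * u + 2)]) ++
    vec.flatMap fun l => [0, 1, 2].map fun j : Fin 3 => xr (l.map fun u => 2 ^ (3 * u + j.val))

/-- The certificate. -/
def cert : List ℕ :=
  [1, 28102567437304594697, 36521578553743729755, 2,
    69344134661931640381, 68916552181318788151, 4, 9404185711520776481,
    26090746446903669114, 16777216, 8, 67108864,
    69344134661797422767, 16, 70276118104437080556, 9385783726572568581,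
    32, 47974110903063910185, 26676306731817646460, 26676306731817646396,
    72943896148698836535, 69344134661663205037, 69344134661663204909, 8299617347752388059,
    9367522479112716289, 9367522479112716545, 72838465069632972371, 2097152,
    4194304, 512, 36521578548375023706, 36443303765026541825,
    1024, 25381240363823020414, 47589709543365648137, 2048,
    36521578549448765531, 9205638564590653448, 36521578549448761435, 49199694732966680306,
    38877117771031361292, 49199694732966688498, 25523134529820834170, 38254337883794284072,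
    25523134529820850554, 68738351104, 137443147784, 137443180552,
    35206488434066288735, 15691341067000484129, 15691341067000549665, 34602391448409749883,
    47333629986721734441, 47333629986721603369, 1299574365672701954, 71933132701350602293,
    72943913740884878903, 39814474523316770551, 38877118870542989100, 3678921926215164379,
    35206488425476354139, 6575456117589020672, 31405328843454242907]

theorem nv_eq_1' : type_of% @nv.eq_1 := @nv.eq_1
theorem val_eq_1' : type_of% @val.eq_1 := @val.eq_1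
theorem xr_eq_1' : type_of% @xr.eq_1 := @xr.eq_1
theorem bit_eq_1' : type_of% @bit.eq_1 := @bit.eq_1
theorem fl_eq_1' : type_of% @fl.eq_1 := @fl.eq_1
theorem tri_eq_1' : type_of% @tri.eq_1 := @tri.eq_1
theorem orb_eq_1' : type_of% @orb.eq_1 := @orb.eq_1
theorem vec_eq_1' : type_of% @vec.eq_1 := @vec.eq_1
theorem ms_eq_1' : type_of% @ms.eq_1 := @ms.eq_1
theorem cert_eq_1' : type_of% @cert.eq_1 := @cert.eq_1

variable (X : ℕ → ZMod 2)

theorem val_zero : val X 0 = 0 := by simp [val]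

theorem val_xor (a b : ℕ) : val X (a ^^^ b) = val X a + val X b := by
  unfold val
  rw [← Finset.sum_add_distrib]
  refine Finset.sum_congr rfl fun t _ => ?_
  rw [Nat.testBit_xor]
  cases a.testBit t <;> cases b.testBit t <;> simp [CharTwo.add_self_eq_zero]

theorem val_pow {t : ℕ} (h : t < 192) : val X (2 ^ t) = X t := by
  simp [val, Nat.testBit_two_pow, h]

theorem val_bit (c : ZMod 2) {t : ℕ} (h : t < 192) : val X (bit c t) = c * X t := by
  unfold bit
  obtain rfl | rfl := (by decide : ∀ c : ZMod 2, c = 0 ∨ c = 1) c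
  · rw [if_neg (by decide), val_zero, zero_mul]
  · rw [if_pos rfl, val_pow X h, one_mul]

theorem val_xr (l : List ℕ) : val X (xr l) = (l.map (val X)).sum := by
  induction l with
  | nil => exact val_zero X
  | cons a l ih => rw [List.map_cons, List.sum_cons, ← ih]; exact val_xor X _ _

theorem chk : ∀ u ∈ fl, ∀ j : Fin 3, ∃ s ∈ cert,
    xr ((List.range 66).map fun i => if s.testBit i then ms.getD i 0 else 0) = 2 ^ (3 * u + j.val) := by
  have h : cert.map (fun s => xr ((List.range 66).map fun i => if s.testBit i then ms.getD i 0 else 0)) =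
      fl.flatMap fun u => [2 ^ (3 * u), 2 ^ (3 * u + 1), 2 ^ (3 * u + 2)] := by decide +kernel
  intro u hu j
  rw [← List.mem_map, h, List.mem_flatMap]
  exact ⟨u, hu, by fin_cases j <;> simp⟩

theorem lt : (∀ u ∈ fl, u < 64) ∧ ∀ l ∈ vec, ∀ u ∈ l, u < 64 := by decide +kernel

theorem fin (F : ℕ → V3) (h1 : ∀ u, nv (u / 8) ⬝ᵥ F u = 0) (h2 : ∀ l ∈ vec, (l.map F).sum = 0) :
    ∀ u ∈ fl, F u = 0 := by
  let X : ℕ → ZMod 2 := fun t => F (t / 3) (Fin.ofNat 3 t)
  have hX : ∀ u (j : Fin 3), X (3 * u + j.val) = F u j := fun u j => by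
    have := j.2
    have a : (3 * u + j.val) / 3 = u := by omega
    have b : Fin.ofNat 3 (3 * u + j.val) = j := Fin.ext (by simp only [Fin.ofNat]; omega)
    simp only [X, a, b]
  have hm : ∀ m ∈ ms, val X m = 0 := by
    intro m hm
    rcases List.mem_append.1 hm with hm | hm
    · obtain ⟨u, hu, rfl⟩ := List.mem_map.1 hm
      have := lt.1 u hu
      have k := h1 u
      rw [dotProduct, Fin.sum_univ_three, ← hX u 0, ← hX u 1, ← hX u 2] at k
      rw [val_xr]
      simp only [List.map_cons, List.map_nil, List.sum_cons, List.sum_nil]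
      rw [val_bit X _ (by omega), val_bit X _ (by omega), val_bit X _ (by omega), add_zero, ← add_assoc]
      exact k
    · obtain ⟨l, hl, hm⟩ := List.mem_flatMap.1 hm
      obtain ⟨j, -, rfl⟩ := List.mem_map.1 hm
      have k := congrArg (Pi.evalAddMonoidHom (fun _ => ZMod 2) j) (h2 l hl)
      rw [map_list_sum, map_zero, List.map_map] at k
      rw [val_xr, List.map_map, ← k]
      refine congrArg _ (List.map_congr_left fun u hu => ?_)
      have := lt.2 l hl u hu
      have := j.2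
      exact (val_pow X (by omega)).trans (hX u j)
  intro u hu
  funext j
  obtain ⟨s, -, e⟩ := chk u hu j
  have := lt.1 u hu
  have := j.2
  rw [← hX, ← val_pow X (by omega), ← e, val_xr]
  refine List.sum_eq_zero fun x hx => ?_
  obtain ⟨m, hm', rfl⟩ := List.mem_map.1 hx
  obtain ⟨i, -, rfl⟩ := List.mem_map.1 hm'
  split_ifs
  · rw [List.getD_eq_getElem?_getD]
    cases k : ms[i]? with
    | none => exact val_zero X
    | some a => exact hm a (List.mem_of_getElem? k)
  · exact val_zero X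

theorem ctri : ∀ p ∈ tri, p.1.det = 1 ∧ (p.1 *ᵥ ![1, 0, 0] = nv p.2.1 ∧ nv (p.2.1 / 8) ᵥ* p.1 = ![0, 0, 1]) ∧
    ((p.1 * xA.1) *ᵥ ![1, 0, 0] = nv p.2.2.1 ∧ nv (p.2.2.1 / 8) ᵥ* (p.1 * xA.1) = ![0, 0, 1]) ∧
    ((p.1 * xA.1 * xA.1) *ᵥ ![1, 0, 0] = nv p.2.2.2 ∧ nv (p.2.2.2 / 8) ᵥ* (p.1 * xA.1 * xA.1) = ![0, 0, 1]) := by
  decide +kernel

theorem corb : ∀ p ∈ orb, (p.1.det = 1 ∧ p.1 ^ 7 = 1 ∧ p.1 ≠ 1) ∧
    (nv (p.2 0) ≠ 0 ∧ nv (p.2 0 / 8) ≠ 0 ∧ nv (p.2 0 / 8) ⬝ᵥ nv (p.2 0) = 0) ∧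
    ∀ i : Fin 7, (p.1 ^ i.val) *ᵥ nv (p.2 0) = nv (p.2 i) ∧ nv (p.2 i / 8) ᵥ* p.1 ^ i.val = nv (p.2 0 / 8) := by
  decide +kernel

theorem cfl : ∀ v f : V3, v ≠ 0 ∧ f ≠ 0 ∧ f ⬝ᵥ v = 0 → ∃ u ∈ fl, nv u = v ∧ nv (u / 8) = f := by
  decide +kernel

end NSLin

open NSLin

theorem lin : StLin := by
  intro e h1 h2 h3 h4 h5 h6 h
  obtain ⟨E, E1, E2⟩ := exists_fn e 0 fun g t ht => by
    have k := (St_form ht).2
    exact h1 g t (by rw [k]; rfl) (by rw [k]; rfl) (by rw [k]; rfl)
  have key := fin (fun u => E (nv u) (nv (u / 8))) (fun u => by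
    by_cases k : nv u ≠ 0 ∧ nv (u / 8) ≠ 0 ∧ nv (u / 8) ⬝ᵥ nv u = 0
    · obtain ⟨g, g1, g2⟩ := flag k.1 k.2.1 k.2.2
      have := h2 g
      simp only [E1 g _ _ g1 g2]
      rw [← vm_inv g (nv (u / 8)), g2, ← dotProduct_mulVec]
      generalize (g⁻¹).1 *ᵥ e g = w at this
      simp [dotProduct, Fin.sum_univ_three, this]
    · simp only [E2 _ _ k, dotProduct_zero]) (fun l hl => by
    rcases List.mem_append.1 hl with hl | hl
    · rcases List.mem_append.1 hl with hl | hl
      · simp only [List.mem_cons, List.not_mem_nil, or_false] at hl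
        rcases hl with rfl | rfl
        · simp only [List.map_cons, List.map_nil, List.sum_cons, List.sum_nil, add_zero]
          rw [E1 1 _ _ (by decide) (by decide), h5]
        · simp only [List.map_cons, List.map_nil, List.sum_cons, List.sum_nil, add_zero]
          rw [E1 xA _ _ (by decide) (by decide), h6]
      · obtain ⟨p, hp, rfl⟩ := List.mem_map.1 hl
        obtain ⟨a, b, c, d⟩ := ctri p hp
        simp only [List.map_cons, List.map_nil, List.sum_cons, List.sum_nil, add_zero]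
        obtain ⟨g, hg⟩ : ∃ g : L32, g.1 = p.1 := ⟨⟨p.1, a⟩, rfl⟩
        have m : ∀ a b : L32, a.1 * b.1 = (a * b).1 := fun _ _ => rfl
        rw [← hg] at b c d
        rw [m] at c d
        rw [m] at d
        rw [E1 g _ _ b.1 b.2, E1 (g * xA) _ _ c.1 c.2, E1 (g * xA * xA) _ _ d.1 d.2, ← add_assoc, h4]
    · obtain ⟨p, hp, rfl⟩ := List.mem_map.1 hl
      obtain ⟨a, b, c⟩ := corb p hp
      obtain ⟨σ, s, o⟩ := ex7 p.1 a
      obtain ⟨g, g1, g2⟩ := flag b.1 b.2.1 b.2.2
      rw [List.map_ofFn, List.sum_ofFn, ← h3 g σ o, Finset.sum_range]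
      refine Finset.sum_congr rfl fun i _ => ?_
      rw [← s] at c
      exact E1 _ _ _ (by rw [mul_mv, g1]; exact (c i).1)
        (by rw [vm_mul, ← g2]; exact congrArg (· ᵥ* g.1) (c i).2))
  obtain ⟨u, hu, a, b⟩ := cfl _ _ (is_flag (g := h) rfl (inv_vm h _))
  rw [← E1 h _ _ rfl (inv_vm h _), ← a, ← b]
  exact key u hu

end Cfsg.Lib.K7
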