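import Cfsg.Agent.K7.LocB
import Mathlib.GroupTheory.FixedPointFree

/-!
# Rank one commutator maps under a fixed point free element of order seven
-/

set_option autoImplicit false
set_option linter.unusedSectionVars false
set_option linter.style.haveILetI false

namespace Cfsg.Lib.K7

open Cfsg Subgroup Cfsg.Lib.Trans Cfsg.Lib.Gold
open scoped commutatorElement

universe u

namespace NSR1

/-- Cyclic shift of seven bits. -/
def rot (a : ℕ) : ℕ := 2 * a % 128 + a / 64 % 2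

/-- The sum of the shifts of `u` selected by the bits of `m`. -/
def gen (u m : ℕ) : ℕ → ℕ
  | 0 => 0
  | j + 1 => (if m.testBit j then rot^[j] u else 0) ^^^ gen u m j

/-- The number of bits. -/
def cnt (n : ℕ) : ℕ := (Finset.univ.filter fun i : Fin 7 => n.testBit i).card

theorem rot_eq_1' : type_of% @rot.eq_1 := @rot.eq_1
theorem gen_eq_1' : type_of% @gen.eq_1 := @gen.eq_1
theorem gen_eq_2' : type_of% @gen.eq_2 := @gen.eq_2
theorem gen_eq_def' : type_of% @gen.eq_def := @gen.eq_def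
theorem cnt_eq_1' : type_of% @cnt.eq_1 := @cnt.eq_1

theorem rot_bit : ∀ a < 128, ∀ i : Fin 7, (rot a).testBit (i + 1 : Fin 7) = a.testBit i := by
  decide +kernel

theorem rot_lt : ∀ a < 128, rot a < 128 := by decide +kernel

theorem dA : ∀ e < 128, e.testBit 0 = true → cnt e % 2 = 0 → ∃ m < 128, ∃ k < 2,
    gen e m 7 ^^^ 127 * k = 11 ∨ gen e m 7 ^^^ 127 * k = 13 := by decide +kernel

theorem dB : ∀ v ∈ [11, 13], ∀ u ∈ [1, 2, 3, 8, 9, 10, 4, 5, 12], ∃ j < 7, ∃ m < 128,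
    rot^[j] u ^^^ gen v m 7 = 1 := by decide +kernel

theorem span {K : ℕ → Prop} (h0 : K 0) (hx : ∀ a b, K a → K b → K (a ^^^ b))
    (hr : ∀ a < 128, K a → K (rot a)) {u : ℕ} (hu : u < 128) (h : K u) :
    (∀ j, rot^[j] u < 128 ∧ K (rot^[j] u)) ∧ ∀ m j, K (gen u m j) := by
  have k : ∀ j, rot^[j] u < 128 ∧ K (rot^[j] u) := fun j => by
    induction j with
    | zero => exact ⟨hu, h⟩
    | succ j ih =>
      rw [Function.iterate_succ_apply']
      exact ⟨rot_lt _ ih.1, hr _ ih.1 ih.2⟩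
  refine ⟨k, fun m j => ?_⟩
  induction j with
  | zero => exact h0
  | succ j ih =>
    refine hx _ _ ?_ ih
    split_ifs
    exacts [(k j).2, h0]

variable {Q : Type u} [Group Q]

/-- Conjugation by a power. -/
def cp (σ : Q) (i : ℕ) (x : Q) : Q := σ ^ i * x * (σ ^ i)⁻¹

/-- The norm. -/
def nm (σ x : Q) : Q := cp σ 0 x * cp σ 1 x * cp σ 2 x * cp σ 3 x * cp σ 4 x * cp σ 5 x * cp σ 6 x

theorem cp_eq_1' : type_of% @cp.eq_1.{u} := @cp.eq_1.{u}
theorem nm_eq_1' : type_of% @nm.eq_1.{u} := @nm.eq_1.{u}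

theorem nm_one [Finite Q] {T : Subgroup Q} {σ : Q} (hn : σ ∈ Ns T) (h7 : σ ^ 7 = 1)
    (fp : T ⊓ C1 σ = ⊥) {u : Q} (hu : u ∈ T) : nm σ u = 1 := by
  let φ : T →* T := MonoidHom.mk' (fun t => ⟨σ * t * σ⁻¹, mem_normalizer_conj hn t.2⟩)
    fun a b => Subtype.ext (conj_mul).symm
  have it : ∀ (n : ℕ) (t : T), ((φ^[n] t : T) : Q) = cp σ n t := fun n t => by
    induction n with
    | zero => simp [cp]
    | succ n ih =>
      rw [Function.iterate_succ_apply']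
      change σ * ((φ^[n] t : T) : Q) * σ⁻¹ = _
      rw [ih, cp, cp, pow_succ']
      group
  have hf : MonoidHom.FixedPointFree φ := fun t ht => Subtype.ext (mem_bot.1 (fp.le ⟨t.2,
    mem_centralizer_singleton_iff.2 (mul_inv_eq_iff_eq_mul.1 (congrArg Subtype.val ht)).symm⟩))
  have h := MonoidHom.FixedPointFree.prod_pow_eq_one (G := T) hf
    (n := 7) (funext fun t => Subtype.ext (by rw [it, cp, h7]; simp)) ⟨u, hu⟩
  have := congrArg (fun t : T => (t : Q)) h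
  simp only [List.range_succ, List.range_zero, List.map_append, List.map_cons, List.map_nil,
    List.nil_append, List.prod_append, List.prod_cons, List.prod_nil, mul_one, Subgroup.coe_mul,
    it, OneMemClass.coe_one] at this
  exact this

/-- The configuration in the quotient. -/
structure Cf (T : Subgroup Q) (σ a c : Q) : Prop where
  nor : T.Normal
  s7 : σ ^ 7 = 1
  n1 : ∀ u ∈ T, nm σ u = 1
  n2 : ∀ u ∈ T, nm σ⁻¹ u = 1
  aT : a ∈ T
  cT : c ∈ T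
  c1 : c ≠ 1
  cc : c * c = 1
  cz : ∀ τ ∈ T, c * τ = τ * c
  ac : ∀ τ ∈ T, ⁅a, τ⁆ = 1 ∨ ⁅a, τ⁆ = c
  ne : ∃ τ ∈ T, ⁅a, τ⁆ ≠ 1

variable {T : Subgroup Q} {σ a c τ : Q}

theorem cmL {w w' : Q} (h : ⁅w', τ⁆ ∈ Cs T) (hw : w ∈ T) (hτ : τ ∈ T) :
    ⁅w * w', τ⁆ = ⁅w, τ⁆ * ⁅w', τ⁆ := by
  rw [show ⁅w * w', τ⁆ = w * ⁅w', τ⁆ * w⁻¹ * ⁅w, τ⁆ by simp only [commutatorElement_def]; group,
    h w hw, mul_inv_cancel_right]
  exact (h _ (mul_mem (mul_mem (mul_mem hw hτ) (inv_mem hw)) (inv_mem hτ))).symm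

theorem cmR {τ' : Q} (h : ⁅a, τ'⁆ ∈ Cs T) (hτ : τ ∈ T) : ⁅a, τ * τ'⁆ = ⁅a, τ⁆ * ⁅a, τ'⁆ := by
  rw [show ⁅a, τ * τ'⁆ = ⁅a, τ⁆ * (τ * ⁅a, τ'⁆ * τ⁻¹) by simp only [commutatorElement_def]; group,
    h τ hτ, mul_inv_cancel_right]

theorem cm_cp (i : ℕ) : ⁅cp σ i a, τ⁆ = cp σ i ⁅a, cp σ⁻¹ i τ⁆ := by
  simp only [cp, commutatorElement_def, inv_pow]
  group

namespace Cf
variable (h : Cf T σ a c)
include h

theorem mem {x : Q} (ρ : Q) (i : ℕ) (hx : x ∈ T) : cp ρ i x ∈ T := h.nor.conj_mem x hx _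

theorem cs (i : ℕ) : cp σ i c ∈ Cs T := fun τ hτ => by
  have := h.cz _ (h.nor.conj_mem' τ hτ (σ ^ i))
  rw [cp, show σ ^ i * c * (σ ^ i)⁻¹ * τ = σ ^ i * (c * ((σ ^ i)⁻¹ * τ * σ ^ i)) * (σ ^ i)⁻¹ by group,
    this]
  group

theorem acs (hτ : τ ∈ T) : ⁅a, τ⁆ ∈ Cs T := by
  rcases h.ac τ hτ with k | k <;> rw [k]
  exacts [one_mem _, fun x hx => (h.cz x hx).symm]

open Classical in
theorem ai (hτ : τ ∈ T) (i : ℕ) :
    ⁅cp σ i a, τ⁆ = if decide (⁅a, cp σ⁻¹ i τ⁆ ≠ 1) = true then cp σ i c else 1 := by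
  rw [cm_cp]
  rcases h.ac _ (h.mem σ⁻¹ i hτ) with k | k <;> rw [k]
  · simp [cp]
  · simp [h.c1]

theorem ais (hτ : τ ∈ T) (i : ℕ) : ⁅cp σ i a, τ⁆ ∈ Cs T := by
  rw [h.ai hτ]
  split_ifs
  exacts [h.cs i, one_mem _]

/-- The relations between the conjugates of `c`. -/
theorem rel : ∃ K : ℕ → Prop, K 0 ∧ (∀ a b, K a → K b → K (a ^^^ b)) ∧
    (∀ a < 128, K a → K (rot a)) ∧ ∀ n, K n ↔
      (if n.testBit 0 then cp σ 0 c else 1) * (if n.testBit 1 then cp σ 1 c else 1) *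
      (if n.testBit 2 then cp σ 2 c else 1) * (if n.testBit 3 then cp σ 3 c else 1) *
      (if n.testBit 4 then cp σ 4 c else 1) * (if n.testBit 5 then cp σ 5 c else 1) *
      (if n.testBit 6 then cp σ 6 c else 1) = 1 := by
  haveI := h.nor
  let Z : Subgroup Q := T ⊓ Cs T
  haveI : Z.Normal := inferInstance
  letI : CommGroup Z := { (inferInstance : Group Z) with
    mul_comm := fun x y => Subtype.ext (y.2.2 x x.2.1) }
  let C : Fin 7 → Z := fun i => ⟨cp σ i c, h.mem σ i h.cT, h.cs i⟩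
  have C2 : ∀ i, C i * C i = 1 := fun i => Subtype.ext (by
    change cp σ i c * cp σ i c = 1
    rw [cp, conj_mul, h.cc, mul_one, mul_inv_cancel])
  have sC : ∀ i, MulAut.conjNormal σ (C i) = C (i + 1) := fun i => Subtype.ext (by
    change σ * cp σ i c * σ⁻¹ = cp σ (i + 1 : Fin 7) c
    rw [cp, cp, Fin.val_add, show ((1 : Fin 7) : ℕ) = 1 from rfl, ← pow_eq_pow_mod _ h.s7, pow_succ']
    group)
  refine ⟨fun n => ∏ i : Fin 7, (if n.testBit i then C i else 1) = 1, by simp, fun x y hx hy => ?_,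
    fun x hx k => ?_, fun n => ?_⟩
  · refine Eq.trans ?_ ((congrArg₂ (· * ·) hx hy).trans (mul_one 1))
    rw [← Finset.prod_mul_distrib]
    refine Finset.prod_congr rfl fun i _ => ?_
    rw [Nat.testBit_xor]
    cases x.testBit i <;> cases y.testBit i <;> simp [C2]
  · have := congrArg (MulAut.conjNormal σ) k
    rw [map_prod, map_one] at this
    refine (Fintype.prod_equiv (Equiv.addRight 1) _ _ fun i => ?_).symm.trans this
    rw [Equiv.coe_addRight, rot_bit x hx]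
    split_ifs
    exacts [sC i, map_one _]
  · beta_reduce
    rw [Subtype.ext_iff, Fin.prod_univ_seven]
    simp only [Subgroup.coe_mul, apply_ite Subtype.val, OneMemClass.coe_one]
    rfl

theorem par (hτ : τ ∈ T) : ⁅a, cp σ⁻¹ 0 τ⁆ * ⁅a, cp σ⁻¹ 1 τ⁆ * ⁅a, cp σ⁻¹ 2 τ⁆ * ⁅a, cp σ⁻¹ 3 τ⁆ *
    ⁅a, cp σ⁻¹ 4 τ⁆ * ⁅a, cp σ⁻¹ 5 τ⁆ * ⁅a, cp σ⁻¹ 6 τ⁆ = 1 := by
  have m := fun i => h.mem σ⁻¹ i hτ
  have := congrArg (fun x => ⁅a, x⁆) (h.n2 τ hτ)
  simp only [nm, commutatorElement_one_right] at this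
  rwa [cmR (h.acs (m _)), cmR (h.acs (m _)), cmR (h.acs (m _)), cmR (h.acs (m _)), cmR (h.acs (m _)),
    cmR (h.acs (m _))] at this
  all_goals repeat' first | exact m _ | apply mul_mem

theorem ra : h1 σ c = 1 ∨ h2 σ c = 1 := by
  classical
  obtain ⟨K, k0, kx, kr, hK⟩ := h.rel
  obtain ⟨τ, hτ, hne⟩ := h.ne
  let e : Fin 7 → Bool := fun i => decide (⁅a, cp σ⁻¹ i τ⁆ ≠ 1)
  have bit : ∀ (i : ℕ) (hi : i < 7), (Nat.ofBits e).testBit i = decide (⁅a, cp σ⁻¹ i τ⁆ ≠ 1) :=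
    fun i hi => Nat.testBit_ofBits_lt e i hi
  have lt : Nat.ofBits e < 128 := Nat.ofBits_lt_two_pow e
  have k1 : K (Nat.ofBits e) := by
    have m := fun i => h.mem σ i h.aT
    have := congrArg (fun x => ⁅x, τ⁆) (h.n1 a h.aT)
    simp only [nm, commutatorElement_one_left] at this
    rw [cmL (h.ais hτ _) _ hτ, cmL (h.ais hτ _) _ hτ, cmL (h.ais hτ _) _ hτ, cmL (h.ais hτ _) _ hτ,
      cmL (h.ais hτ _) _ hτ, cmL (h.ais hτ _) _ hτ] at this
    · rw [hK, bit 0 (by norm_num), bit 1 (by norm_num), bit 2 (by norm_num), bit 3 (by norm_num),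
        bit 4 (by norm_num), bit 5 (by norm_num), bit 6 (by norm_num)]
      simpa only [h.ai hτ] using this
    all_goals repeat' first | exact m _ | apply mul_mem
  have k2 : K 127 := (hK _).2 (h.n1 c h.cT)
  have k3 : cnt (Nat.ofBits e) % 2 = 0 := by
    have p := h.par hτ
    have q : ∀ i : Fin 7, ⁅a, cp σ⁻¹ i τ⁆ = c ^ (if (Nat.ofBits e).testBit i then 1 else 0) :=
      fun i => by
      rw [bit i i.2]
      rcases h.ac _ (h.mem σ⁻¹ i hτ) with k | k <;> simp [k, h.c1]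
    have q' : c ^ cnt (Nat.ofBits e) = 1 := by
      rw [cnt, Finset.card_filter, Fin.sum_univ_seven]
      simp only [pow_add, ← q]
      exact p
    haveI : Fact (Nat.Prime 2) := ⟨Nat.prime_two⟩
    rw [← orderOf_dvd_iff_pow_eq_one, orderOf_eq_prime ((pow_two c).trans h.cc) h.c1] at q'
    omega
  obtain ⟨m, -, k, hk, hm⟩ := dA _ lt (by rw [bit 0 (by norm_num)]; simpa [cp] using hne) k3
  have k4 := kx _ (127 * k) ((span k0 kx kr lt k1).2 m 7) (by interval_cases k; exacts [k0, k2])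
  rcases hm with hm | hm <;> rw [hm, hK] at k4
  · exact .inl (by simpa [h1, cp, Nat.testBit] using k4)
  · exact .inr (by simpa [h2, cp, Nat.testBit] using k4)

theorem rb (hc : h1 σ c = 1 ∨ h2 σ c = 1)
    (ha : (∀ τ ∈ T, ⁅h1 σ a, τ⁆ = 1) ∨ ∀ τ ∈ T, ⁅h2 σ a, τ⁆ = 1) : False := by
  classical
  obtain ⟨K, k0, kx, kr, hK⟩ := h.rel
  obtain ⟨v, hv, kv⟩ : ∃ v ∈ [11, 13], K v := by
    rcases hc with hc | hc
    · exact ⟨11, by simp, (hK _).2 (by simpa [h1, cp, Nat.testBit] using hc)⟩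
    · exact ⟨13, by simp, (hK _).2 (by simpa [h2, cp, Nat.testBit] using hc)⟩
  have no : ∀ u ∈ [1, 2, 3, 8, 9, 10, 4, 5, 12], ¬ K u := fun u hu ku => by
    obtain ⟨j, -, m, -, e⟩ := dB v hv u hu
    have := kx _ _ ((span k0 kx kr (by revert hu; simp; omega) ku).1 j).2
      ((span k0 kx kr (by revert hv; simp; omega) kv).2 m 7)
    rw [e, hK] at this
    exact h.c1 (by simpa [cp, Nat.testBit] using this)
  have m := fun i => h.mem σ i h.aT
  have inv : ∀ τ ∈ T, ⁅a, τ⁆ ≠ 1 → ⁅a, cp σ⁻¹ 1 τ⁆ ≠ 1 := fun τ hτ n1 n2 => by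
    rcases ha with ha | ha
    · have := ha τ hτ
      rw [show h1 σ a = cp σ 0 a * cp σ 1 a * cp σ 3 a by simp [h1, cp],
        cmL (h.ais hτ _) (mul_mem (m _) (m _)) hτ, cmL (h.ais hτ _) (m _) hτ, h.ai hτ, h.ai hτ,
        h.ai hτ, n2, show cp σ⁻¹ 0 τ = τ by simp [cp]] at this
      by_cases n3 : ⁅a, cp σ⁻¹ 3 τ⁆ = 1
      · exact no 1 (by simp) ((hK _).2 (by simpa [n1, n3, Nat.testBit] using this))
      · exact no 9 (by simp) ((hK _).2 (by simpa [n1, n3, Nat.testBit] using this))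
    · have hτ' := h.mem σ 2 hτ
      have := ha _ hτ'
      rw [show h2 σ a = cp σ 0 a * cp σ 2 a * cp σ 3 a by simp [h2, cp],
        cmL (h.ais hτ' _) (mul_mem (m _) (m _)) hτ', cmL (h.ais hτ' _) (m _) hτ', h.ai hτ', h.ai hτ',
        h.ai hτ', show cp σ⁻¹ 2 (cp σ 2 τ) = τ by simp only [cp]; group,
        show cp σ⁻¹ 3 (cp σ 2 τ) = cp σ⁻¹ 1 τ by simp only [cp]; group, n2] at this
      by_cases n3 : ⁅a, cp σ⁻¹ 0 (cp σ 2 τ)⁆ = 1
      · exact no 4 (by simp) ((hK _).2 (by simpa [n1, n3, Nat.testBit] using this))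
      · exact no 5 (by simp) ((hK _).2 (by simpa [n1, n3, Nat.testBit] using this))
  obtain ⟨τ, hτ, hne⟩ := h.ne
  have all : ∀ i, ⁅a, cp σ⁻¹ i τ⁆ = c := fun i => by
    refine (h.ac _ (h.mem σ⁻¹ i hτ)).resolve_left ?_
    induction i with
    | zero => simpa [cp] using hne
    | succ i ih =>
      rw [show cp σ⁻¹ (i + 1) τ = cp σ⁻¹ 1 (cp σ⁻¹ i τ) by simp only [cp, pow_succ']; group]
      exact inv _ (h.mem σ⁻¹ i hτ) ih
  have := h.par hτ
  simp only [all, h.cc, one_mul, mul_assoc c c c, mul_one] at this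
  exact h.c1 this

end Cf

theorem quo {G : Type u} [Group G] [Finite G] {T V : Subgroup G} {σ a c : G} (h : Rk T V σ a c) :
    ∃ (N : Subgroup G) (Q : Type u) (_ : Group Q) (π : N →* Q) (_ : T ≤ N) (hσ : σ ∈ N) (ha : a ∈ N)
      (hc : c ∈ N), (∀ x : N, π x = 1 ↔ (x : G) ∈ V) ∧
        Cf ((T.subgroupOf N).map π) (π ⟨σ, hσ⟩) (π ⟨a, ha⟩) (π ⟨c, hc⟩) := by
  let N : Subgroup G := Ns T ⊓ Ns V
  have hT : T ≤ N := le_inf le_normalizer h.nV
  haveI : (V.subgroupOf N).Normal := ⟨fun v hv g => mem_normalizer_conj (T := V) g.2.2 hv⟩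
  have hk : ∀ x : N, QuotientGroup.mk' (V.subgroupOf N) x = 1 ↔ (x : G) ∈ V := fun x =>
    QuotientGroup.eq_one_iff x
  have s7 : σ ^ 7 = 1 := h.o7 ▸ pow_orderOf_eq_one σ
  have hn : ∀ ρ : N, nm (ρ : G) = nm (ρ : G) → (∀ u ∈ T, nm (ρ : G) u = 1) →
      ∀ u ∈ (T.subgroupOf N).map (QuotientGroup.mk' (V.subgroupOf N)),
        nm (QuotientGroup.mk' (V.subgroupOf N) ρ) u = 1 := by
    rintro ρ - k _ ⟨u, hu, rfl⟩
    have : nm ρ u = 1 := Subtype.ext (k u hu)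
    have := congrArg (QuotientGroup.mk' (V.subgroupOf N)) this
    simpa only [nm, cp, map_mul, map_inv, map_pow, map_one] using this
  refine ⟨N, N ⧸ V.subgroupOf N, inferInstance, QuotientGroup.mk' _, hT, ⟨h.nT, h.sV⟩, hT h.aT,
    hT h.cT, hk, Normal.map (⟨fun t ht g => mem_normalizer_conj (T := T) g.2.1 ht⟩ :
      (T.subgroupOf N).Normal) _
      (QuotientGroup.mk'_surjective _), ?_, hn _ rfl fun u hu => nm_one h.nT s7 h.fp hu, ?_,
    mem_map_of_mem _ h.aT, mem_map_of_mem _ h.cT, fun k => h.cV ((hk _).1 k), ?_, ?_, ?_, ?_⟩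
  · rw [← map_pow, show (⟨σ, h.nT, h.sV⟩ : N) ^ 7 = 1 from Subtype.ext s7, map_one]
  · rw [← map_inv]
    refine hn _ rfl fun u hu => nm_one (inv_mem h.nT) (by
      change σ⁻¹ ^ 7 = 1
      rw [inv_pow, s7, inv_one]) ?_ hu
    refine le_bot_iff.1 (le_trans (fun x hx => ?_) h.fp.le)
    exact ⟨hx.1, mem_centralizer_singleton_iff.2 (Commute.inv_right_iff.1
      (mem_centralizer_singleton_iff.1 hx.2 : Commute x σ⁻¹))⟩
  · rw [← map_mul, hk]
    exact h.cc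
  · rintro _ ⟨τ, hτ, rfl⟩
    rw [← commutatorElement_eq_one_iff_mul_comm, ← map_commutatorElement, hk]
    exact h.cz τ hτ
  · rintro _ ⟨τ, hτ, rfl⟩
    rw [← map_commutatorElement]
    rcases h.ac τ hτ with k | k
    · exact .inl ((hk _).2 k)
    · refine .inr (mul_right_cancel (b := QuotientGroup.mk' _ ⟨c, hT h.cT⟩) ?_)
      rw [← map_mul, ← map_mul, (hk _).2 k, (hk _).2 h.cc]
  · obtain ⟨τ, hτ, k⟩ := h.ne
    refine ⟨_, mem_map_of_mem _ (show (⟨τ, hT hτ⟩ : N) ∈ T.subgroupOf N from hτ), fun k' => k ?_⟩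
    rw [← map_commutatorElement, hk] at k'
    exact k'

theorem m1 {N : Type u} [Group N] (π : N →* Q) (σ c : N) : h1 (π σ) (π c) = π (h1 σ c) := by
  simp only [h1, map_mul, map_inv, map_pow]

theorem m2 {N : Type u} [Group N] (π : N →* Q) (σ c : N) : h2 (π σ) (π c) = π (h2 σ c) := by
  simp only [h2, map_mul, map_inv, map_pow]

end NSR1

open NSR1 in
theorem r1a : StR1a.{u} := by
  intro G _ _ T V σ a c h
  obtain ⟨N, Q, _, π, hT, hσ, ha, hc, hk, cf⟩ := quo h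
  have := cf.ra
  rwa [m1, m2, hk, hk] at this

open NSR1 in
theorem r1b : StR1b.{u} := by
  intro G _ _ T V σ a c h k1 k2
  obtain ⟨N, Q, _, π, hT, hσ, ha, hc, hk, cf⟩ := quo h
  refine cf.rb (by rwa [m1, m2, hk, hk]) (k2.imp ?_ ?_)
  · rintro k _ ⟨τ, hτ, rfl⟩
    rw [m1, ← map_commutatorElement, hk]
    exact k τ hτ
  · rintro k _ ⟨τ, hτ, rfl⟩
    rw [m2, ← map_commutatorElement, hk]
    exact k τ hτ

end Cfsg.Lib.K7
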