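import Cfsg.Agent.K7.LocB

/-! The amalgam shift in the type `L₃(2)`. -/

set_option autoImplicit false

namespace Cfsg.Lib.K7

open Cfsg Subgroup Cfsg.Lib.Trans Cfsg.Lib.Gold
open Cfsg.Lib.P8 (L32 V3 O2 Om Jt Phi EA SR4 Ch E9 Pj Ty Sec SecOK Mx Crd)
open Cfsg.Lib.K35 (PSL Alt A3 NC)
open scoped commutatorElement

universe u

namespace NSSh

variable {G : Type u} [Group G]

theorem mC1 {a g : G} : g ∈ C1 a ↔ g * a = a * g := mem_centralizer_singleton_iff

theorem mCs {A : Subgroup G} {g : G} : g ∈ Cs A ↔ ∀ a ∈ A, a * g = g * a := mem_centralizer_iff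

theorem comm_of_sq {A : Subgroup G} (h : ∀ a ∈ A, a * a = 1) {x y : G} (hx : x ∈ A) (hy : y ∈ A) :
    x * y = y * x := by
  calc x * y = (x * y)⁻¹ := eq_inv_of_mul_eq_one_left (h _ (mul_mem hx hy))
    _ = y * x := by
      rw [mul_inv_rev, inv_eq_of_mul_eq_one_left (h x hx), inv_eq_of_mul_eq_one_left (h y hy)]

theorem ea_of_sq {A : Subgroup G} (h : ∀ a ∈ A, a * a = 1) : EA A :=
  ⟨⟨⟨fun a b => Subtype.ext (comm_of_sq h a.2 b.2)⟩⟩, fun a ha => by rw [sq, h a ha]⟩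

theorem cn {A : Subgroup G} {g x : G} (hg : g ∈ Ns A) (hx : x ∈ A) : g * x * g⁻¹ ∈ A :=
  (mem_normalizer_iff.1 hg x).1 hx

/-- The product of two commuting subgroups. -/
def pr (A B : Subgroup G) (h : ∀ a ∈ A, ∀ b ∈ B, a * b = b * a) : Subgroup G where
  carrier := {x | ∃ a ∈ A, ∃ b ∈ B, x = a * b}
  one_mem' := ⟨1, one_mem _, 1, one_mem _, by simp⟩
  mul_mem' := by
    rintro _ _ ⟨a, ha, b, hb, rfl⟩ ⟨a', ha', b', hb', rfl⟩
    exact ⟨_, mul_mem ha ha', _, mul_mem hb hb', by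
      rw [mul_assoc, ← mul_assoc b, ← h a' ha' b hb]; group⟩
  inv_mem' := by
    rintro _ ⟨a, ha, b, hb, rfl⟩
    exact ⟨_, inv_mem ha, _, inv_mem hb, by rw [h a ha b hb, mul_inv_rev]⟩

theorem pr_eq_1' : type_of% @pr.eq_1.{u} := @pr.eq_1.{u}

variable [Finite G] {M S₀ R : Subgroup G} {g z h m' : G} (nb : NB 7 M S₀ g) (no : NO 7 M S₀ g)
include no

omit [Finite G] in
theorem VT : Om (O2 M) ≤ O2 M := fun v hv => ((no.memV v).1 hv).1

omit [Finite G] in
theorem sqE {k e : G} (he : e ∈ cj k (Om (O2 M))) : e * e = 1 := by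
  have := ((no.memV _).1 (mem_cj.1 he)).2.1
  calc _ = k * (k⁻¹ * e * k * (k⁻¹ * e * k)) * k⁻¹ := by group
    _ = 1 := by rw [this]; group

omit [Finite G] in
theorem cT {k t v : G} (ht : t ∈ cj k (O2 M)) (hv : v ∈ cj k (Om (O2 M))) : t * v = v * t := by
  have := mC1.1 (((no.memV _).1 (mem_cj.1 hv)).2.2 (mem_cj.1 ht))
  calc _ = k * (k⁻¹ * t * k * (k⁻¹ * v * k)) * k⁻¹ := by group
    _ = _ := by rw [this]; group

omit [Finite G] in
theorem cT' {k t : G} (ht : ∀ v ∈ cj k (Om (O2 M)), t * v = v * t) : t ∈ cj k (O2 M) := by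
  rw [mem_cj, ← no.cV, mCs]
  intro v hv
  have := ht _ (conj_mem_cj.2 hv)
  calc _ = k⁻¹ * (k * v * k⁻¹ * t) * k := by group
    _ = _ := by rw [← this]; group

omit [Finite G] in
theorem sym {k : G} (e : cj k (Om (O2 M)) ≤ O2 M) : Om (O2 M) ≤ cj k (O2 M) := fun v hv =>
  cT' no fun w hw => (cT no (k := 1) (by simpa [cj_one] using e hw) (by simpa [cj_one] using hv)).symm

omit [Finite G] in
theorem cjT {m : G} (hm : m ∈ M) : cj m (O2 M) = O2 M := cj_eq_of_mem_normalizer (no.nT.ge hm)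

omit [Finite G] in
theorem cjV {m : G} (hm : m ∈ M) : cj m (Om (O2 M)) = Om (O2 M) :=
  cj_eq_of_mem_normalizer (no.nV.ge hm)

include nb

omit [Finite G] in
theorem T'S : cj g (O2 M) ≤ S₀ := (cj_mono g no.leT).trans (cj_eq_of_mem_normalizer nb.nor).le

omit [Finite G] in
theorem zV {v : G} (hv : v ∈ Om (O2 M)) (e : S₀ ≤ C1 v) :
    g⁻¹ * v * g ∈ Om (O2 M) ∧ S₀ ≤ C1 (g⁻¹ * v * g) := by
  have e' : S₀ ≤ C1 (g⁻¹ * v * g) := fun s hs => by
    have := mC1.1 (e (cn nb.nor hs))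
    rw [mC1]
    calc _ = g⁻¹ * (g * s * g⁻¹ * v) * g := by group
      _ = _ := by rw [this]; group
  refine ⟨(no.memV _).2 ⟨?_, sqE no (k := g⁻¹) (mem_cj_inv.2 (by simpa [mul_assoc] using hv)),
    no.leT.trans e'⟩, e'⟩
  rw [← no.cV, mCs]
  exact fun w hw => mC1.1 (e' (no.leT (VT no hw)))

theorem shift (gen : ∀ a ∈ M, a ∉ O2 M → a * a ∈ O2 M → ∃ m ∈ M, cj m S₀ ⊔ zpowers a = M)
    (hz : z ∈ Om (O2 M)) (z1 : z ≠ 1) (zS : S₀ ≤ C1 z) (le : cj g (Om (O2 M)) ≤ O2 M)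
    (cp : CP M g h m') (zR : ∀ v ∈ Om (O2 M), S₀ ≤ C1 v → v ∈ R)
    (LL : ∀ k, ¬ cj k (Om (O2 M)) ≤ O2 M → cj k (Om (O2 M)) ≤ cj g (O2 M) →
      Om (O2 M) ≤ cj k M → ⁅Om (O2 M), cj k (Om (O2 M))⁆ = R)
    (LB : ∀ k k', ¬ cj k (Om (O2 M)) ≤ O2 M → cj k (Om (O2 M)) ≤ cj g (O2 M) →
      Om (O2 M) ≤ cj k M → cj k' (Om (O2 M)) ≤ cj g (O2 M) →
      (∀ a ∈ cj k' (Om (O2 M)), ∀ b ∈ cj k (Om (O2 M)), a * b = b * a) →
      ⁅Om (O2 M), cj k' (Om (O2 M))⁆ ≤ R) : False := by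
  have SM := nb.syl.le
  have TM := (T'S nb no).trans SM
  have n1 : ¬ cj h (Om (O2 M)) ≤ O2 M := fun e => cp.n1 (sym no e)
  have l2 : Om (O2 M) ≤ cj h (cj g (O2 M)) := by rw [cj_cj]; exact cp.l2
  have a1 : ¬ cj h⁻¹ (Om (O2 M)) ≤ O2 M := fun e => cp.n1 (cj_inv_le_iff_le_cj.1 e)
  have a2 := cj_inv_le_iff_le_cj.2 l2
  have a3 := cj_le_iff_le_cj_inv.1 (cp.l1.trans TM)
  have r1 := LL h n1 cp.l1 (l2.trans (cj_mono h TM))
  have r2 := congrArg (cj h) (LL h⁻¹ a1 a2 a3)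
  rw [cj_commutator, cj_cj_inv, commutator_comm, r1] at r2
  have RV : R ≤ Om (O2 M) := by
    rw [← r1, commutator_le]
    intro v hv e he
    rw [commutatorElement_def, mul_assoc, mul_assoc, ← mul_assoc e]
    exact mul_mem hv (cn (no.nV.ge (TM (cp.l1 he))) (inv_mem hv))
  obtain ⟨t, ht, tT⟩ := SetLike.not_le_iff_exists.1 n1
  have tM := TM (cp.l1 ht)
  obtain ⟨m, hm, e⟩ := gen t tM tT (by rw [sqE no ht]; exact one_mem _)
  by_cases c : cj (m * g) (Om (O2 M)) ≤ cj (h * g) (O2 M)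
  · have b1 : cj (h⁻¹ * (m * g)) (Om (O2 M)) ≤ cj g (O2 M) := by
      rw [cj_mul, cj_inv_le_iff_le_cj, cj_cj]; exact c
    have b2 : cj (m * g) (Om (O2 M)) ≤ O2 M := by
      rw [cj_mul]; exact (cj_mono m le).trans (cjT no hm).le
    have r3 := cj_mono h (LB h⁻¹ _ a1 a2 a3 b1 fun a ha b hb =>
      cT no (by rw [cj_mul] at ha; exact cj_mono _ b2 ha) hb)
    rw [cj_commutator, cj_cj, mul_inv_cancel_left, ← r2] at r3
    have nM : M ≤ Ns (Om (O2 M) ⊔ cj (m * g) (Om (O2 M))) := by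
      refine e.ge.trans (sup_le (fun s hs => cj_eq_self_iff.1 ?_)
        (zpowers_le.2 (mem_normalizer_of_cj_le ?_)))
      · have s1 := mem_cj.1 hs
        have s2 : m⁻¹ * s * m ∈ cj g S₀ := by rwa [cj_eq_of_mem_normalizer nb.nor]
        have s3 : s ∈ M := by simpa [mul_assoc] using mul_mem (mul_mem hm (SM s1)) (inv_mem hm)
        rw [cj_sup, cjV no s3, cj_cj, show s * (m * g) = m * g * (g⁻¹ * (m⁻¹ * s * m) * g) by group,
          cj_mul (m * g), cjV no (SM (mem_cj.1 s2))]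
      · rw [cj_sup, cjV no tM]
        refine sup_le le_sup_left (cj_le_iff.2 fun x hx => ?_)
        have := mul_mem (mem_sup_left (T := cj (m * g) (Om (O2 M)))
          (RV (r3 (commutator_mem_commutator ht hx)))) (mem_sup_right hx)
        rwa [commutatorElement_def, inv_mul_cancel_right] at this
    have nN := cj_eq_of_mem_normalizer (nM (inv_mem hm))
    rw [cj_sup, cjV no (inv_mem hm), cj_cj, inv_mul_cancel_left] at nN
    rw [← nN] at nM
    refine no.neV (eq_bot_iff.2 (le_sup_left.trans (no.nrm _ ?_ nM ?_).le))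
    · exact (nb.syl.isPGroup.to_le no.leT).to_le (sup_le (VT no) le)
    · rw [← cj_eq_self_iff, cj_sup, cj_cj, cjV no (SM nb.sq), sup_comm]
  · have b0 : cj (m * g) (Om (O2 M)) ≤ cj (h * g) M := by
      refine (cp.l4 m hm).trans ?_
      rw [mul_assoc (h * g), cj_mul (h * g), cj_le_cj, cj_mul]
      exact cj_le_of_mem_of_le cp.mM TM
    have r3 := congrArg (cj (m * g)) (LL ((m * g)⁻¹ * (h * g)) (fun e => c ?_) ?_ ?_)
    · rw [cj_commutator, cj_cj, mul_inv_cancel_left] at r3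
      have z2 : m * z * m⁻¹ ∈ cj (m * g) R := by
        have := zR _ (zV nb no hz zS).1 (zV nb no hz zS).2
        rw [mem_cj]; convert this using 1; group
      have z3 : m * z * m⁻¹ ∈ cj h (O2 M) := by
        have : cj (m * g) R ≤ cj (h * g) (Om (O2 M)) := by
          rw [← r3, commutator_le]
          intro a ha v hv
          have := cn ((cj_normalizer _ _).le (cj_mono _ no.nV.ge (b0 ha))) hv
          exact mul_mem this (inv_mem hv)
        have := this z2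
        rw [cj_mul] at this
        exact cj_mono h le this
      obtain ⟨y, hy, oy⟩ := no.ex
      have yz : M ≤ C1 (m * z * m⁻¹) := by
        refine e.ge.trans (sup_le (fun s hs => ?_) (zpowers_le.2 (mC1.2 (cT no z3 ht).symm)))
        have := mC1.1 (zS (mem_cj.1 hs))
        rw [mC1]
        calc _ = m * (m⁻¹ * s * m * z) * m⁻¹ := by group
          _ = _ := by rw [this]; group
      have : m * z * m⁻¹ ∈ O2 M ⊓ C1 y :=
        ⟨cn (no.nT.ge hm) (VT no hz), mC1.2 (mC1.1 (yz hy)).symm⟩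
      rw [no.fp y hy oy, mem_bot] at this
      exact z1 (by simpa using this)
    · have := cj_mono (m * g) (sym no e)
      rwa [cj_cj, mul_inv_cancel_left] at this
    · rw [cj_mul, cj_inv_le_iff_le_cj, cj_cj, mul_assoc, cjT no (mul_mem hm (SM nb.sq))]
      exact cp.l3
    · rw [cj_mul, ← cj_le_iff_le_cj_inv]
      exact b0

omit nb no in
theorem upper (a : L32) (h1 : a.1 1 0 = 0) (h2 : a.1 2 0 = 0) (h3 : a.1 2 1 = 0) :
    a.1 0 0 = 1 ∧ a.1 1 1 = 1 ∧ a.1 2 2 = 1 := by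
  have := a.2
  rw [Matrix.det_fin_three, h1, h2, h3] at this
  revert this
  generalize a.1 0 0 = x; generalize a.1 1 1 = y; generalize a.1 2 2 = w
  generalize a.1 0 1 = p; generalize a.1 0 2 = q; generalize a.1 1 2 = r
  revert x y w p q r; decide

omit nb no in
theorem actA (a : L32) (h : inA a) (x : V3) :
    a.1.mulVec x + x = 0 ∨ a.1.mulVec x + x = ![1, 0, 0] := by
  obtain ⟨h1, h2, h3, h4⟩ := h
  obtain ⟨d0, d1, d2⟩ := upper a h1 h2 h3
  have : ∀ y : ZMod 2, y = 0 ∨ y = 1 := by decide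
  have z2 : ∀ y : ZMod 2, y + y = 0 := by decide
  refine (this ((a.1.mulVec x + x) 0)).imp (fun e => ?_) fun e => ?_ <;> ext i <;> fin_cases i <;>
    first
    | exact e
    | simp [Matrix.mulVec, dotProduct, Fin.sum_univ_three, h1, h2, h3, h4, d1, d2, z2]

omit nb no in
theorem sqA (a : L32) (h1 : a.1 1 0 = 0) (h2 : a.1 2 0 = 0) (h3 : a.1 2 1 = 0) (e : a * a = 1) :
    a.1 0 1 = 0 ∨ a.1 1 2 = 0 := by
  obtain ⟨d0, d1, d2⟩ := upper a h1 h2 h3
  have := congrArg (fun b : L32 => b.1 0 2) e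
  simp only [Matrix.SpecialLinearGroup.coe_mul, Matrix.mul_apply, Fin.sum_univ_three, d0, d2,
    Matrix.SpecialLinearGroup.coe_one, Matrix.one_apply_ne (show (0 : Fin 3) ≠ 2 by decide)] at this
  revert this
  generalize a.1 0 1 = p; generalize a.1 0 2 = q; generalize a.1 1 2 = r
  revert p q r; decide

end NSSh

open NSSh

theorem sh8 : StSh8.{u} := by
  intro G _ _ M S₀ V g π c z h m' nl ns eq le hy cp
  subst eq
  have nb := nl.nb
  have no := nl.no
  have z1 : z ≠ 1 := fun e => by simpa [e] using ns.oz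
  have key : ∀ k, cj k (Om (O2 M)) ≤ cj g (O2 M) → ⁅Om (O2 M), cj k (Om (O2 M))⁆ ≤ zpowers z := by
    intro k hk
    rw [commutator_comm, commutator_le]
    intro e he v hv
    have eS := T'S nb no (hk he)
    obtain ⟨eM, h1, h2, h3⟩ := (nl.memS e).1 eS
    have e2 : π e * π e = 1 := by
      rw [← nl.ty.mul e eM e eM, sqE no he]; exact (nl.ty.ker 1 (one_mem _)).2 (one_mem _)
    have hA : inA (π e) := ⟨h1, h2, h3, (sqA _ h1 h2 h3 e2).elim (fun a => hy e (hk he) ⟨h1, h2, h3, a⟩) id⟩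
    have v2 := ((no.memV v).1 hv).2.1
    have w := cn (no.nV.ge eM) hv
    have cw := nl.crd.add _ w v hv
    rw [nl.crd.eqv e eM v hv] at cw
    rw [commutatorElement_def, inv_eq_of_mul_eq_one_left v2]
    rcases actA _ hA (c v) with a | a <;> rw [a] at cw
    · rw [(nl.crd.zero _ (mul_mem w hv)).1 cw]; exact one_mem _
    · have := nl.crd.add _ (mul_mem w hv) z nl.zW
      rw [cw, nl.cz, show (![1, 0, 0] + ![1, 0, 0] : V3) = 0 by decide] at this
      rw [eq_inv_of_mul_eq_one_left ((nl.crd.zero _ (mul_mem (mul_mem w hv) nl.zW)).1 this)]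
      exact inv_mem (mem_zpowers z)
  refine shift nb no ns.gen nl.zW z1 ns.zS le cp (R := zpowers z) (fun v hv e => ?_)
    (fun k k1 k2 _ => ?_) fun _ k' _ _ _ k2 _ => key k' k2
  · rcases ns.gz rfl v hv e with a | a <;> rw [a]
    exacts [one_mem _, mem_zpowers z]
  · have : Fact (Nat.card (zpowers z)).Prime := ⟨by rw [Nat.card_zpowers, ns.oz]; norm_num⟩
    rcases (⁅Om (O2 M), cj k (Om (O2 M))⁆.subgroupOf (zpowers z)).eq_bot_or_eq_top_of_prime_card
      with a | a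
    · refine absurd (fun e he => ?_) k1
      have b := (subgroupOf_eq_bot.1 a).eq_bot_of_le (key k k2)
      rw [← no.cV]
      rw [commutator_comm] at b
      exact commutator_eq_bot_iff_le_centralizer.1 b he
    · exact le_antisymm (key k k2) (subgroupOf_eq_top.1 a)

theorem sh6 : StSh6.{u} := by
  intro G _ _ M S₀ W F g π c z h m' nl ns v6 le cp
  have nb := nl.nb
  have no := nl.no
  have z1 : z ≠ 1 := fun e => by simpa [e] using ns.oz
  have SM := nb.syl.le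
  have ne0 : ∀ A B : Subgroup G, A.relIndex B ≠ 0 := fun A B => index_ne_zero_of_finite
  have key : ∀ k, ¬ cj k (Om (O2 M)) ≤ O2 M → Om (O2 M) ≤ cj k M →
      4 ≤ (O2 M).relIndex (cj k (Om (O2 M))) ∧
      (Om (O2 M) ⊓ Cs (cj k (Om (O2 M)))).relIndex (Om (O2 M)) ≤ 4 := fun k k1 k3 => by
    constructor
    · obtain ⟨v, hv, vT⟩ : ∃ v ∈ Om (O2 M), v ∉ cj k (O2 M) := by
        by_contra! a
        have := cj_mono k (sym no (cj_inv_le_iff_le_cj.2 a))
        rw [cj_cj_inv] at this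
        exact k1 this
      have i := v6.inv _ (mem_cj.1 (k3 hv)) (fun a => vT (mem_cj.2 a)) (by
        rw [sqE no (k := k⁻¹) (mem_cj_inv.2 (by simpa [mul_assoc] using hv))]; exact one_mem _)
      rw [← relIndex_cj k] at i
      rw [← inf_relIndex_right]
      refine i.trans (relIndex_le_of_le_left (fun x hx => mem_cj.2 ⟨mem_cj.1 hx.2, mC1.2 ?_⟩) (ne0 _ _))
      have := cT no (k := 1) (by simpa [cj_one] using hx.1) (by simpa [cj_one] using hv)
      calc _ = k⁻¹ * (x * v) * k := by group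
        _ = _ := by rw [this]; group
    · have i := ns.rk _ (cj_inv_le_iff_le_cj.2 k3) (ea_of_sq fun a ha => sqE no ha)
      rw [← relIndex_cj k, cj_cj_inv, ← inf_relIndex_right] at i
      refine le_trans (relIndex_le_of_le_left (fun x hx => ?_) (ne0 _ _)) i
      exact ⟨hx.2, mCs.2 fun a ha => (cT no hx.1 ha).symm⟩
  refine shift nb no ns.gen (nl.leW nl.zW) z1 ns.zS le cp (R := F) (fun v hv e => ?_)
    (fun k k1 k2 k3 => ?_) fun k k' k1 k2 k3 k4 cm => ?_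
  · obtain ⟨a, ha, e1⟩ := nl.ty.sur ⟨!![1, 0, 1; 0, 1, 0; 0, 0, 1], by decide⟩
    have hB : inB (π a) := by rw [e1]; exact ⟨rfl, rfl, rfl, rfl⟩
    rw [← v6.fix a ha hB fun b => absurd
      (congrArg (fun x : L32 => x.1 0 2) (e1.symm.trans ((nl.ty.ker a ha).2 b))) (by decide)]
    exact ⟨hv, mC1.2 (mC1.1 (e ((nl.memS a).2 ⟨ha, hB.1, hB.2.1, hB.2.2.1⟩))).symm⟩
  · have kS := k2.trans (T'S nb no)
    exact (v6.big _ kS (le_antisymm (ns.rk _ (kS.trans SM) (ea_of_sq fun a ha => sqE no ha))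
      (key k k1 k3).1) (key k k1 k3).2).2
  · obtain ⟨i1, i2⟩ := key k k1 k3
    obtain ⟨A, l1, l2, AS, hA⟩ : ∃ A : Subgroup G, cj k' (Om (O2 M)) ≤ A ∧ cj k (Om (O2 M)) ≤ A ∧
        A ≤ S₀ ∧ EA A := by
      refine ⟨pr _ _ cm, fun a ha => ⟨a, ha, 1, one_mem _, (mul_one a).symm⟩,
        fun a ha => ⟨1, one_mem _, a, ha, (one_mul a).symm⟩, ?_, ea_of_sq ?_⟩
      · rintro _ ⟨a, ha, b, hb, rfl⟩
        exact T'S nb no (mul_mem (k4 ha) (k2 hb))
      · rintro _ ⟨a, ha, b, hb, rfl⟩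
        rw [mul_assoc, ← mul_assoc b, ← cm a ha b hb, mul_assoc a b, sqE no hb, mul_one, sqE no ha]
    have j1 := ns.rk A (AS.trans SM) hA
    have j2 : 4 ≤ (O2 M ⊓ A).relIndex (cj k (Om (O2 M)) ⊔ O2 M ⊓ A) :=
      i1.trans ((relIndex_le_of_le_right le_sup_left (ne0 _ _)).trans
        (relIndex_le_of_le_left inf_le_left (ne0 _ _)))
    have j3 := relIndex_mul_relIndex (O2 M ⊓ A) (cj k (Om (O2 M)) ⊔ O2 M ⊓ A) A le_sup_right
      (sup_le l2 inf_le_right)
    rw [inf_relIndex_right] at j3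
    have j4 := Nat.pos_of_ne_zero (ne0 (cj k (Om (O2 M)) ⊔ O2 M ⊓ A) A)
    have j5 : (cj k (Om (O2 M)) ⊔ O2 M ⊓ A).relIndex A = 1 := by nlinarith
    rw [relIndex_eq_one] at j5
    refine (commutator_mono le_rfl l1).trans (v6.big A AS (by nlinarith)
      (le_trans (relIndex_le_of_le_left (fun v hv => ?_) (ne0 _ _)) i2)).2.le
    refine ⟨hv.1, mCs.2 fun a ha => mC1.1 ?_⟩
    refine (sup_le (fun b hb => mC1.2 (mCs.1 hv.2 b hb)) (fun b hb => ?_) : _ ≤ C1 v) (j5 ha)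
    exact ((no.memV v).1 hv.1).2.2 hb.1

end Cfsg.Lib.K7
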