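import Cfsg.Agent.K7.LocB

/-!
# Involutions of `G₂(2)` and elements of order seven
-/

set_option autoImplicit false
set_option maxRecDepth 100000

namespace Cfsg.Lib.K7

open Cfsg Subgroup Cfsg.Lib.Trans Cfsg.Lib.Gold Cfsg.Lib.Chev Cfsg.Lib.Class

universe u

namespace NSU2

/-- Unpacking a matrix. -/
def mk (n : ℕ) : Matrix (Fin 3) (Fin 3) T9 :=
  Matrix.of fun i j => T9.c (n / 16 ^ (3 * i.1 + j.1) % 16)

/-- Packing a matrix. -/
def enc (M : Matrix (Fin 3) (Fin 3) T9) : ℕ :=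
  Fin.val (M 0 0) + 16 * (Fin.val (M 0 1) + 16 * (Fin.val (M 0 2) + 16 * (Fin.val (M 1 0) + 16 *
    (Fin.val (M 1 1) + 16 * (Fin.val (M 1 2) + 16 * (Fin.val (M 2 0) + 16 * (Fin.val (M 2 1) + 16 *
      Fin.val (M 2 2))))))))

/-- Strict evaluation of a word. -/
def fe (l : List ℕ) : ℕ := l.foldr (fun r a => Nat.rec 0 (fun a _ =>
  enc (g2Mat r * cond (g2Out r) ((mk a).map (· ^ 3)) (mk a))) (Nat.succ a)) (enc 1)

/-- The value of a word. -/
def W (l : List ℕ) : Gm := (l.map g2Elt).prod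

/-- Test for equality of words. -/
def chk (l l' : List ℕ) : Bool := l.all (Nat.blt · 12) && l'.all (Nat.blt · 12) &&
  Nat.beq (fe l) (fe l') && (g2Ev l).2 == (g2Ev l').2

/-- Conjugating words. -/
def tw (e : ℕ) : List ℕ := (List.lookup e [(1, [1, 10]), (2, [3, 8, 3]), (4, [4, 7, 4]), (5, [4, 7]),
  (9, [8, 4]), (14, [0, 8, 3]), (16, [5, 6]), (18, [7, 3, 8, 0]), (20, [8, 5, 4]), (24, [7]),
  (29, [5, 4]), (30, [3, 0, 8, 3]), (33, [1]), (34, [8, 5, 3]), (36, [8, 4, 7, 1]), (37, [8, 4, 7]),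
  (40, [8]), (41, [4]), (46, [0, 9, 8, 3]), (48, [5]), (50, [8, 3]), (52, [7, 4]), (56, [8, 5]),
  (61, [5, 6, 4]), (62, [1, 7, 4])]).getD []

theorem mk_eq_1' : type_of% @mk.eq_1 := @mk.eq_1
theorem enc_eq_1' : type_of% @enc.eq_1 := @enc.eq_1
theorem fe_eq_1' : type_of% @fe.eq_1 := @fe.eq_1
theorem W_eq_1' : type_of% @W.eq_1 := @W.eq_1
theorem chk_eq_1' : type_of% @chk.eq_1 := @chk.eq_1
theorem tw_eq_1' : type_of% @tw.eq_1 := @tw.eq_1

theorem mk_enc (M : Matrix (Fin 3) (Fin 3) T9) : mk (enc M) = M := by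
  have h : ∀ i j, Fin.val (M i j) < 9 := fun i j => Fin.isLt _
  have := h 0 0; have := h 0 1; have := h 0 2; have := h 1 0; have := h 1 1; have := h 1 2
  have := h 2 0; have := h 2 1; have := h 2 2
  ext i j
  refine Fin.ext ?_
  change enc M / 16 ^ (3 * i.1 + j.1) % 16 % 9 = _
  fin_cases i <;> fin_cases j <;> simp only [enc, Fin.zero_eta, Fin.mk_one, Fin.reduceFinMk] <;>
    omega

theorem fe_eq (l : List ℕ) : fe l = enc (g2Ev l).1 := by
  induction l with
  | nil => rfl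
  | cons r l ih =>
    have e : fe (r :: l) = enc (g2Mat r * cond (g2Out r) ((mk (fe l)).map (· ^ 3)) (mk (fe l))) := rfl
    rw [e, ih, mk_enc]; rfl

theorem W_eq {l l' : List ℕ} (h : chk l l' = true) : W l = W l' := by
  simp only [chk, Bool.and_eq_true, List.all_eq_true, Nat.blt_eq, Nat.beq_eq, beq_iff_eq, fe_eq] at h
  exact g2_word_eq h.1.1.1 h.1.1.2
    (Prod.ext (by rw [← mk_enc (g2Ev l).1, h.1.2, mk_enc]) h.2)

theorem W_ne {l : List ℕ} (h : ∀ r ∈ l, r < 12) (e : W l = 1) : fe l = fe [] := by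
  rw [fe_eq, ← (g2Ev_spec h).1, ← W, e]; rfl

theorem W_app (l l' : List ℕ) : W (l ++ l') = W l * W l' := by simp [W]

theorem ord7 {l : List ℕ} (h : chk (l ++ l ++ l ++ l ++ l ++ l ++ l) [] = true ∧
    (∀ r ∈ l, r < 12) ∧ fe l ≠ fe []) : orderOf (W l) = 7 := by
  have : Fact (Nat.Prime 7) := ⟨by norm_num⟩
  have e := W_eq h.1
  simp only [W_app] at e
  exact orderOf_eq_prime (by simp only [pow_succ, pow_zero, one_mul]; exact e) fun e =>
    h.2.2 (W_ne h.2.1 e)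

theorem tab : ∀ e < 64, (∀ r ∈ swL e ++ swL e, r < 12) ∧ (fe (swL e ++ swL e) = fe [] → e ≠ 0 →
    chk (tw e ++ swL e) ([11] ++ tw e) = true ∨ chk (tw e ++ swL e) ([9] ++ tw e) = true) := by
  decide +kernel

theorem cls (hUS : StUS) {t : Gm} (ht : orderOf t = 2) :
    ∃ g, t = g * W [11] * g⁻¹ ∨ t = g * W [9] * g⁻¹ := by
  obtain ⟨S, hS, h⟩ := hUS
  have : Fact (Nat.Prime 2) := ⟨Nat.prime_two⟩
  have : Finite Gm := Nat.finite_of_card_ne_zero (by rw [card_GamU33]; decide)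
  obtain ⟨x, -, hx⟩ := hS.exists_cj_le (Q := zpowers t)
    (IsPGroup.of_card (n := 1) (by rw [Nat.card_zpowers, ht]; rfl)) le_top
  obtain ⟨e, he, e1⟩ := (h _).1 (hx (conj_mem_cj.2 (mem_zpowers t)))
  replace e1 : x * t * x⁻¹ = W (swL e) := e1
  have e2 : t * t = 1 := by rw [← pow_two, ← ht, pow_orderOf_eq_one]
  have := (tab e he).2 (W_ne (tab e he).1 (by
    rw [W_app, ← e1, conj_mul, e2, mul_one, mul_inv_cancel])) (by
      rintro rfl
      rw [conj_eq_one_iff.1 (show x * t * x⁻¹ = 1 from e1), orderOf_one] at ht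
      exact absurd ht (by norm_num))
  refine ⟨(W (tw e) * x)⁻¹, this.imp (fun k => ?_) fun k => ?_⟩ <;>
  · have k' := W_eq k
    rw [W_app, W_app, ← e1, ← mul_inv_eq_iff_eq_mul] at k'
    rw [← k']; group

end NSU2

open NSU2 in
theorem u2 (hUS : StUS) (hU1 : StU1) : StU2 := by
  have mem : ∀ l : List ℕ, (∀ r ∈ l, r < 12) → (W l ∈ L0 ↔ (g2Ev l).2 = false) := fun l hl => by
    rw [hU1.2.2.1, W, (g2Ev_spec hl).2]
    cases (g2Ev l).2
    · simp
    · simpa using fun e => absurd (DFunLike.congr_fun e (T9.c 3)) (by decide +kernel)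
  have nr : L0.Normal := inferInstance
  have oc : ∀ g y : Gm, orderOf (g * y * g⁻¹) = orderOf y := fun g y =>
    (MulAut.conj g).orderOf_eq y
  refine ⟨fun t hL ht => ?_, fun t hL ht => ?_⟩ <;> obtain ⟨g, rfl | rfl⟩ := cls hUS ht
  · refine ⟨_, nr.conj_mem _ ((mem [0] (by decide)).2 rfl) g, _,
      nr.conj_mem _ ((mem [5, 1] (by decide)).2 rfl) g, g * W [11, 0, 11, 0, 5, 1, 11, 1, 5] * g⁻¹,
      ?_, (oc _ _).trans (ord7 (by decide +kernel))⟩
    have e1 : W [0] * W [0] = 1 := (W_app _ _).symm.trans (W_eq (l' := []) (by decide +kernel))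
    have e2 : W [5, 1] * W [1, 5] = 1 := (W_app _ _).symm.trans (W_eq (l' := []) (by decide +kernel))
    have k : ∀ a b c y : Gm, y = a * b * c → y ∈ Subgroup.closure ({a, b, c} : Set Gm) := by
      rintro a b c _ rfl
      exact mul_mem (mul_mem (subset_closure (by simp)) (subset_closure (by simp)))
        (subset_closure (by simp))
    refine k _ _ _ _ ?_
    rw [show W [11, 0, 11, 0, 5, 1, 11, 1, 5] = W [11] * (W [0] * W [11] * W [0]) *
      (W [5, 1] * W [11] * W [1, 5]) by simp only [← W_app]; rfl, eq_inv_of_mul_eq_one_right e2]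
    nth_rw 2 [eq_inv_of_mul_eq_one_right e1]
    group
  · exact absurd ((mem [9] (by decide)).1 (by simpa [mul_assoc] using nr.conj_mem _ hL g⁻¹)) (by decide)
  · exact absurd (nr.conj_mem _ ((mem [11] (by decide)).2 rfl) g) hL
  · refine ⟨_, nr.conj_mem _ ((mem [9, 4, 0, 9, 0, 4] (by decide)).2 rfl) g,
      (oc _ _).trans (ord7 (by decide +kernel)), ?_⟩
    have e : W [9] * W [9, 4, 0, 9, 0, 4] * W [9] * W [9, 4, 0, 9, 0, 4] = 1 := by
      simp only [← W_app]; exact W_eq (l' := []) (by decide +kernel)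
    have e1 : W [9] * W [9] = 1 := (W_app _ _).symm.trans (W_eq (l' := []) (by decide +kernel))
    nth_rw 2 [eq_inv_of_mul_eq_one_right e1] at e
    calc _ = g * (W [9] * W [9, 4, 0, 9, 0, 4] * (W [9])⁻¹) * g⁻¹ := by group
      _ = _ := by rw [eq_inv_of_mul_eq_one_left e]; group

end Cfsg.Lib.K7
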