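import Cfsg.Agent.K7.LocB

/-!
# Four-groups and abelian 2-subgroups of `G₂(2)`
-/

set_option autoImplicit false

namespace Cfsg.Lib.K7

open Cfsg Subgroup Cfsg.Lib.Trans Cfsg.Lib.Gold
open Cfsg.Lib.P8 (L32 V3 O2 Om Jt Phi EA SR4 Ch E9 Pj Ty Sec SecOK Mx Crd)
open Cfsg.Lib.K35 (PSL Alt A3 NC)
open scoped commutatorElement

universe u

namespace NSU3

open Cfsg.Lib.Chev Cfsg.Lib.Class

/-- A matrix together with a field automorphism. -/
abbrev P : Type := Matrix (Fin 3) (Fin 3) T9 × Bool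

/-- The product of semilinear maps. -/
def pm (x y : P) : P := (x.1 * cond x.2 (y.1.map (· ^ 3)) y.1, xor x.2 y.2)

/-- The element `x` is given by the pair `p`. -/
def R (x : Gm) (p : P) : Prop := x.left.1.1 = p.1 ∧ x.right = cond p.2 cube9 1

/-- The table of the Sylow 2-subgroup. -/
def T (e : ℕ) : P := (Matrix.of fun i j => T9.c
  (([0x100010001, 0x1020100, 0x200030003, 0x3060200, 0x300020003, 0x3010300, 0x300060001, 0x1030300,
    0x100020002, 0x2010100, 0x200060006, 0x6030200, 0x300010006, 0x6020300, 0x300030002, 0x2060300,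
    0x200010002, 0x2020200, 0x100030006, 0x6060100, 0x600020006, 0x6010600, 0x600060002, 0x2030600,
    0x200020001, 0x1010200, 0x100060003, 0x3030100, 0x600010003, 0x3020600, 0x600030001,
    0x1060600].getD (e / 16 * 8 + e % 8) 0) >>> (4 * (3 * i.1 + j.1)) % 16),
  xor (e.testBit 1) (xor (e.testBit 2) (e.testBit 3)))

/-- Commuting entries of the table. -/
abbrev cm (e f : ℕ) : Prop := pm (T e) (T f) = pm (T f) (T e)

/-- The conjugating words. -/
def cw (e f : ℕ) : List ℕ :=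
  ([((1, 32), []), ((1, 33), [1]), ((16, 32), [7, 4]), ((16, 48), [1, 7, 4]), ((29, 32), [7, 6]),
    ((29, 61), [1, 7, 6]), ((32, 1), [1, 10, 1]), ((32, 16), [0, 9, 11, 2]), ((32, 29), [2, 10, 1]),
    ((32, 33), [10, 1]), ((32, 48), [0, 9, 4, 2]), ((32, 61), [1, 2, 10, 1]), ((33, 1), [1, 10]),
    ((33, 32), [10]), ((48, 16), [1, 7, 4, 6]), ((48, 32), [7, 4, 6]), ((61, 29), [1, 7]),
    ((61, 32), [7])].lookup (e, f)).getD []

theorem pm_eq_1' : type_of% @pm.eq_1 := @pm.eq_1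
theorem R_eq_1' : type_of% @R.eq_1 := @R.eq_1
theorem T_eq_1' : type_of% @T.eq_1 := @T.eq_1
theorem cw_eq_1' : type_of% @cw.eq_1 := @cw.eq_1

theorem R.mul {x y : Gm} {p q : P} (h : R x p) (h' : R y q) : R (x * y) (pm p q) := by
  obtain ⟨⟨⟨a, ha⟩, ha'⟩, s⟩ := x
  obtain ⟨p, b⟩ := p
  obtain ⟨q, c⟩ := q
  obtain ⟨h1, h2⟩ := h
  obtain ⟨h3, h4⟩ := h'
  dsimp only at h1 h2 h3 h4
  subst h1 h2 h3
  rw [R, SemidirectProduct.mul_left, SemidirectProduct.mul_right, h4]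
  cases b <;> cases c <;> exact ⟨rfl, by simp [cube9_mul, pm]⟩

theorem cube_ne : cube9 ≠ 1 := fun h => by
  have : cube9 (T9.c 3) = T9.c 3 := by rw [h]; rfl
  revert this
  decide +kernel

theorem R.eq_iff {x y : Gm} {p q : P} (h : R x p) (h' : R y q) : x = y ↔ p = q := by
  constructor
  · rintro rfl
    refine Prod.ext (h.1.symm.trans h'.1) ?_
    have := h.2.symm.trans h'.2
    revert this
    cases p.2 <;> cases q.2 <;> simp [cube_ne, cube_ne.symm]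
  · rintro rfl
    exact SemidirectProduct.ext (Subtype.ext (Subtype.ext (h.1.trans h'.1.symm))) (h.2.trans h'.2.symm)

theorem R.one : R 1 (1, false) := ⟨rfl, rfl⟩

theorem R.ev {l : List ℕ} (hl : ∀ r ∈ l, r < 12) : R (l.map g2Elt).prod (g2Ev l) := g2Ev_spec hl

theorem tA : ∀ e < 64, (∀ r ∈ swL e, r < 12) ∧ g2Ev (swL e) = T e := by decide +kernel

theorem R.sw {e : ℕ} (he : e < 64) : R (sw e) (T e) := (tA e he).2 ▸ R.ev (tA e he).1

theorem tB : ∀ e < 64, ((Finset.range 64).filter (cm e)).card ≤ 16 ∨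
    e ∈ [0, 12, 16, 28, 32, 44, 48, 60] := by decide +kernel

theorem tC : ∀ e < 64, pm (T e) (T e) = (1, false) → (T e).2 = false →
    e ∈ [0, 1, 16, 29, 32, 33, 48, 61] := by decide +kernel

theorem tD : ∀ e ∈ [0, 1, 16, 29, 32, 33, 48, 61], ((Finset.range 64).filter fun f =>
    f ∈ [0, 1, 16, 29, 32, 33, 48, 61] ∧ cm e f).card ≤ 4 ∨ e ∈ [0, 32] := by decide +kernel

theorem tE : ∀ e ∈ [0, 1, 16, 29, 32, 33, 48, 61], ∀ f ∈ [0, 1, 16, 29, 32, 33, 48, 61],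
    e = 0 ∨ f = 0 ∨ e = f ∨ ¬ cm e f ∨ ((∀ r ∈ cw e f, r < 12) ∧
      pm (g2Ev (cw e f)) (T e) = pm (T 1) (g2Ev (cw e f)) ∧
      pm (g2Ev (cw e f)) (T f) = pm (T 32) (g2Ev (cw e f))) := by decide +kernel

theorem tF : (g2Ev [1, 10]).2 = false ∧ (g2Ev [2, 3]).2 = false ∧ g2Ev [1, 10] ≠ (1, false) ∧
    pm (pm (g2Ev [1, 10]) (g2Ev [1, 10])) (g2Ev [1, 10]) = (1, false) ∧
    pm (g2Ev [1, 10]) (T 1) = pm (T 32) (g2Ev [1, 10]) ∧
    pm (g2Ev [1, 10]) (T 32) = pm (pm (T 1) (T 32)) (g2Ev [1, 10]) ∧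
    pm (g2Ev [2, 3]) (T 1) = pm (g2Ev [0, 2, 4, 6]) (g2Ev [2, 3]) ∧
    pm (g2Ev [2, 3]) (T 32) = pm (g2Ev [2, 3, 11, 3, 2]) (g2Ev [2, 3]) ∧
    pm (pm (T 1) (g2Ev [0, 2, 4, 6])) (pm (T 32) (g2Ev [2, 3, 11, 3, 2])) = g2Ev [0, 5, 9, 4, 10, 0] ∧
    g2Ev [0, 5, 9, 4, 10, 0] ≠ (1, false) ∧
    pm (g2Ev [0, 5, 9, 4, 10, 0]) (g2Ev [0, 5, 9, 4, 10, 0]) = g2Ev [9, 11, 2, 7, 4] ∧
    pm (g2Ev [9, 11, 2, 7, 4]) (g2Ev [0, 5, 9, 4, 10, 0]) = g2Ev [1, 5, 7, 9] ∧
    pm (pm (g2Ev [1, 5, 7, 9]) (g2Ev [1, 5, 7, 9])) (g2Ev [0, 5, 9, 4, 10, 0]) = (1, false) := by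
  decide +kernel

theorem oc (g a : Gm) : orderOf (g⁻¹ * a * g) = orderOf a :=
  (SemiconjBy.orderOf_eq g (show SemiconjBy g (g⁻¹ * a * g) a by unfold SemiconjBy; group))

theorem count {S B : Subgroup Gm} (hS : ∀ s, s ∈ S ↔ ∃ e < 64, s = sw e) (hB : B ≤ S)
    (Q : ℕ → Prop) [DecidablePred Q] (h : ∀ e < 64, sw e ∈ B → Q e) :
    Nat.card B ≤ ((Finset.range 64).filter Q).card := by
  classical
  have h1 : (B : Set Gm) ⊆ (((Finset.range 64).filter Q).image sw : Finset Gm) := fun b hb => by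
    obtain ⟨e, he, rfl⟩ := (hS b).1 (hB hb)
    exact Finset.mem_coe.2 (Finset.mem_image_of_mem _
      (Finset.mem_filter.2 ⟨Finset.mem_range.2 he, h e he hb⟩))
  have h2 := Set.ncard_le_ncard h1 (Finset.finite_toSet _)
  rw [Set.ncard_coe_finset] at h2
  exact le_trans (le_of_eq (Nat.card_coe_set_eq _)) (h2.trans Finset.card_image_le)

theorem cm_of {B : Subgroup Gm} (hB : ∀ a ∈ B, ∀ b ∈ B, a * b = b * a) {e f : ℕ} (he : e < 64)
    (hf : f < 64) (h1 : sw e ∈ B) (h2 : sw f ∈ B) : cm e f :=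
  (((R.sw he).mul (R.sw hf)).eq_iff ((R.sw hf).mul (R.sw he))).1 (hB _ h1 _ h2)

theorem comm_cj {B : Subgroup Gm} (hB : IsMulCommutative B) (g : Gm) :
    ∀ a ∈ cj g B, ∀ b ∈ cj g B, a * b = b * a := fun a ha b hb => by
  have := congrArg Subtype.val (hB.is_comm.comm ⟨_, mem_cj.1 ha⟩ ⟨_, mem_cj.1 hb⟩)
  simp only [Subgroup.coe_mul] at this
  calc a * b = g * (g⁻¹ * a * g * (g⁻¹ * b * g)) * g⁻¹ := by group
    _ = b * a := by rw [this]; group

theorem memI (hU1 : StU1) {E : Subgroup Gm} (hE : E ≤ L0) (ea : EA E) (g : Gm) {e : ℕ}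
    (he : e < 64) (h : sw e ∈ cj g E) : e ∈ [0, 1, 16, 29, 32, 33, 48, 61] := by
  refine tC e he ((((R.sw he).mul (R.sw he)).eq_iff R.one).1 ?_) ?_
  · have := ea.2 _ (mem_cj.1 h)
    calc sw e * sw e = g * (g⁻¹ * sw e * g) ^ 2 * g⁻¹ := by rw [pow_two]; group
      _ = 1 := by rw [this]; group
  · have h1 : sw e ∈ L0 := by
      have := (inferInstance : L0.Normal).conj_mem _ (hE (mem_cj.1 h)) g
      simpa [mul_assoc] using this
    have h2 := (hU1.2.2.1 _).1 h1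
    rw [(R.sw he).2] at h2
    revert h2
    cases (T e).2 <;> simp [cube_ne]

theorem two {E : Subgroup Gm} (ea : EA E) : IsPGroup 2 E := fun a =>
  ⟨1, Subtype.ext (by simpa using ea.2 _ a.2)⟩

theorem base (hU1 : StU1) : (∃ m ∈ L0, orderOf (sw 1 * (m * sw 1 * m⁻¹) * (sw 32 * (m * sw 32 * m⁻¹))) = 7) ∧
    ∃ x ∈ L0, orderOf x = 3 ∧ x * sw 1 * x⁻¹ = sw 32 ∧ x * sw 32 * x⁻¹ = sw 1 * sw 32 := by
  obtain ⟨h1, h2, h3, h4, h5, h6, h7, h8, h9, h10, h11, h12, h13⟩ := tF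
  have r1 := R.sw (e := 1) (by norm_num)
  have r2 := R.sw (e := 32) (by norm_num)
  have rx := R.ev (l := [1, 10]) (by decide)
  have rm := R.ev (l := [2, 3]) (by decide)
  have rc := R.ev (l := [0, 2, 4, 6]) (by decide)
  have rd := R.ev (l := [2, 3, 11, 3, 2]) (by decide)
  have ry := R.ev (l := [0, 5, 9, 4, 10, 0]) (by decide)
  have ry2 := R.ev (l := [9, 11, 2, 7, 4]) (by decide)
  have ry3 := R.ev (l := [1, 5, 7, 9]) (by decide)
  generalize (List.map g2Elt [1, 10]).prod = x at rx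
  generalize (List.map g2Elt [2, 3]).prod = m at rm
  generalize (List.map g2Elt [0, 2, 4, 6]).prod = c at rc
  generalize (List.map g2Elt [2, 3, 11, 3, 2]).prod = d at rd
  generalize (List.map g2Elt [0, 5, 9, 4, 10, 0]).prod = y at ry
  generalize (List.map g2Elt [9, 11, 2, 7, 4]).prod = y2 at ry2
  generalize (List.map g2Elt [1, 5, 7, 9]).prod = y3 at ry3
  have : Fact (Nat.Prime 7) := ⟨by norm_num⟩
  refine ⟨⟨m, (hU1.2.2.1 _).2 (by rw [rm.2, h2]; rfl), ?_⟩, x, (hU1.2.2.1 _).2 (by rw [rx.2, h1]; rfl),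
    ?_, ?_, ?_⟩
  · rw [((rm.mul r1).eq_iff (rc.mul rm)).2 h7, ((rm.mul r2).eq_iff (rd.mul rm)).2 h8,
      mul_inv_cancel_right, mul_inv_cancel_right, (((r1.mul rc).mul (r2.mul rd)).eq_iff ry).2 h9]
    refine orderOf_eq_prime ?_ fun e => h10 ((ry.eq_iff R.one).1 e)
    have e2 := ((ry.mul ry).eq_iff ry2).2 h11
    have e3 := ((ry2.mul ry).eq_iff ry3).2 h12
    have e7 := (((ry3.mul ry3).mul ry).eq_iff R.one).2 h13
    rw [← e7, ← e3, ← e2]
    simp only [pow_succ, pow_zero, one_mul, mul_assoc]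
  · refine orderOf_eq_prime ?_ fun e => h3 ((rx.eq_iff R.one).1 e)
    rw [← (((rx.mul rx).mul rx).eq_iff R.one).2 h4]
    simp only [pow_succ, pow_zero, one_mul, mul_assoc]
  · rw [((rx.mul r1).eq_iff (r2.mul rx)).2 h5, mul_inv_cancel_right]
  · rw [((rx.mul r2).eq_iff ((r1.mul r2).mul rx)).2 h6, mul_inv_cancel_right]

theorem four {E : Subgroup Gm} (h4 : Nat.card E = 4) {a b : Gm} (ha : a ∈ E) (hb : b ∈ E)
    (a1 : a ≠ 1) (b1 : b ≠ 1) (ab : a ≠ b) (aa : a * a = 1) :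
    ∀ t ∈ E, t = 1 ∨ t = a ∨ t = b ∨ t = a * b := by
  classical
  have n1 : a * b ≠ 1 := fun e => ab (mul_left_cancel (aa.trans e.symm))
  have n2 : a * b ≠ a := fun e => b1 (by simpa using e)
  have n3 : a * b ≠ b := fun e => a1 (by simpa using e)
  have h1 : (({1, a, b, a * b} : Finset Gm) : Set Gm) ⊆ E := by
    intro t ht
    simp only [Finset.coe_insert, Finset.coe_singleton, Set.mem_insert_iff,
      Set.mem_singleton_iff] at ht
    rcases ht with rfl | rfl | rfl | rfl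
    exacts [E.one_mem, ha, hb, E.mul_mem ha hb]
  have h2 : ({1, a, b, a * b} : Finset Gm).card = 4 := by
    rw [Finset.card_insert_of_notMem (by simp [a1.symm, b1.symm, n1.symm]),
      Finset.card_insert_of_notMem (by simp [ab, b1]),
      Finset.card_insert_of_notMem (by simp [a1]), Finset.card_singleton]
  have hf : Finite E := Nat.finite_of_card_ne_zero (by omega)
  have h3 := Set.eq_of_subset_of_ncard_le h1 (by
    rw [Set.ncard_coe_finset, h2, ← h4]; exact le_of_eq (Nat.card_coe_set_eq _).symm) hf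
  intro t ht
  have : t ∈ (({1, a, b, a * b} : Finset Gm) : Set Gm) := h3 ▸ ht
  simpa using this

theorem fin : Finite Gm := Nat.finite_of_card_ne_zero (by rw [card_GamU33]; norm_num)

theorem pair {E : Subgroup Gm} (h4 : Nat.card E = 4) :
    ∃ a ∈ E, ∃ b ∈ E, a ≠ 1 ∧ b ≠ 1 ∧ a ≠ b := by
  by_contra hc
  push Not at hc
  have h1 : (E : Set Gm).ncard = 4 := (Nat.card_coe_set_eq _).symm.trans h4
  obtain ⟨a, b, c, ha, hb, hc', ab, ac, bc⟩ := (Set.two_lt_ncard_iff (s := (E : Set Gm))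
    (Set.finite_of_ncard_ne_zero (by omega))).1 (by omega)
  by_cases a1 : a = 1
  · exact bc (hc b hb c hc' (a1 ▸ ab.symm) (a1 ▸ ac.symm))
  by_cases b1 : b = 1
  · exact ac (hc a ha c hc' a1 (b1 ▸ bc.symm))
  · exact ab (hc a ha b hb a1 b1)

end NSU3

open NSU3 in
theorem u3 (hUS : StUS) (hU1 : StU1) : StU3 := by
  intro E hE ea h4
  have := NSU3.fin
  obtain ⟨S, hS, hm⟩ := hUS
  obtain ⟨g, -, hg⟩ := hS.exists_cj_le (two ea) le_top
  obtain ⟨a, ha, b, hb, a1, b1, ab⟩ := pair h4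
  obtain ⟨e, he, ea'⟩ := (hm _).1 (hg (conj_mem_cj.2 ha))
  obtain ⟨f, hf, eb'⟩ := (hm _).1 (hg (conj_mem_cj.2 hb))
  have me : sw e ∈ cj g E := ea' ▸ conj_mem_cj.2 ha
  have mf : sw f ∈ cj g E := eb' ▸ conj_mem_cj.2 hb
  have s0 : sw 0 = 1 := rfl
  obtain ⟨k, ka, kb⟩ : ∃ k : Gm, a = k⁻¹ * sw 1 * k ∧ b = k⁻¹ * sw 32 * k := by
    rcases tE e (memI hU1 hE ea g he me) f (memI hU1 hE ea g hf mf) with h | h | h | h | ⟨h, h1, h2⟩
    · subst h
      exact absurd (by simpa [s0] using ea') a1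
    · subst h
      exact absurd (by simpa [s0] using eb') b1
    · subst h
      exact absurd (by simpa using ea'.trans eb'.symm) ab
    · exact absurd (cm_of (comm_cj ea.1 g) he hf me mf) h
    · have rw := R.ev h
      generalize (List.map Chev.g2Elt (cw e f)).prod = w at rw
      have e1 := ((rw.mul (R.sw he)).eq_iff ((R.sw (e := 1) (by norm_num)).mul rw)).2 h1
      have e2 := ((rw.mul (R.sw hf)).eq_iff ((R.sw (e := 32) (by norm_num)).mul rw)).2 h2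
      rw [← ea'] at e1
      rw [← eb'] at e2
      refine ⟨w * g, ?_, ?_⟩
      · calc a = (w * g)⁻¹ * (w * (g * a * g⁻¹)) * g := by group
          _ = _ := by rw [e1]; group
      · calc b = (w * g)⁻¹ * (w * (g * b * g⁻¹)) * g := by group
          _ = _ := by rw [e2]; group
  obtain ⟨⟨m, mL, om⟩, x, xL, ox, x1, x2⟩ := base hU1
  have nL : ∀ t ∈ L0, k⁻¹ * t * k ∈ L0 := fun t ht => by
    simpa using (inferInstance : L0.Normal).conj_mem _ ht k⁻¹
  have xa : k⁻¹ * x * k * a * (k⁻¹ * x * k)⁻¹ = b := by rw [ka, kb, ← x1]; group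
  have xb : k⁻¹ * x * k * b * (k⁻¹ * x * k)⁻¹ = a * b := by
    calc _ = k⁻¹ * (x * sw 32 * x⁻¹) * k := by rw [kb]; group
      _ = _ := by rw [x2, ka, kb]; group
  refine ⟨⟨k⁻¹ * m * k, nL m mL, _, ?_, (oc k _).trans om⟩, k⁻¹ * x * k, nL x xL, (oc k x).trans ox,
    mem_normalizer_of_cj_le (cj_le_iff.2 fun t ht => ?_), fun h => ab ?_⟩
  · have : k⁻¹ * (sw 1 * (m * sw 1 * m⁻¹) * (sw 32 * (m * sw 32 * m⁻¹))) * k =
        a * (k⁻¹ * m * k * a * (k⁻¹ * m * k)⁻¹) * (b * (k⁻¹ * m * k * b * (k⁻¹ * m * k)⁻¹)) := by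
      rw [ka, kb]; group
    rw [this]
    exact mul_mem (mul_mem (mem_sup_left ha) (mem_sup_right (conj_mem_cj.2 ha)))
      (mul_mem (mem_sup_left hb) (mem_sup_right (conj_mem_cj.2 hb)))
  · rcases four h4 ha hb a1 b1 ab (by simpa [pow_two] using ea.2 a ha) t ht with h | h | h | h
    · rw [h, mul_one, mul_inv_cancel]; exact E.one_mem
    · rw [h, xa]; exact hb
    · rw [h, xb]; exact E.mul_mem ha hb
    · have : k⁻¹ * x * k * (a * b) * (k⁻¹ * x * k)⁻¹ = k⁻¹ * x * k * a * (k⁻¹ * x * k)⁻¹ *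
          (k⁻¹ * x * k * b * (k⁻¹ * x * k)⁻¹) := by group
      rw [h, this, xa, xb]
      exact E.mul_mem hb (E.mul_mem ha hb)
  · rw [← xa, ← mem_centralizer_iff.1 h a ha, mul_inv_cancel_right]

open NSU3 in
theorem u4 (hUS : StUS) (hU1 : StU1) : StU4 := by
  have := NSU3.fin
  obtain ⟨S, hS, hm⟩ := hUS
  refine ⟨fun B hB hc => ?_, fun E hE ea => ?_⟩
  · obtain ⟨g, -, hg⟩ := hS.exists_cj_le hB le_top
    rw [← card_cj g]
    by_contra h
    have h1 := count hm hg (· ∈ [0, 12, 16, 28, 32, 44, 48, 60]) fun e he me =>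
      (tB e he).resolve_left fun h2 => h ((count hm hg (cm e) fun f hf mf =>
        cm_of (comm_cj hc g) he hf me mf).trans h2)
    exact h (h1.trans (by decide +kernel))
  · obtain ⟨g, -, hg⟩ := hS.exists_cj_le (two ea) le_top
    rw [← card_cj g]
    by_contra h
    have h1 := count hm hg (· ∈ [0, 32]) fun e he me =>
      (tD e (memI hU1 hE ea g he me)).resolve_left fun h2 => h ((count hm hg _ fun f hf mf =>
        ⟨memI hU1 hE ea g hf mf, cm_of (comm_cj ea.1 g) he hf me mf⟩).trans h2)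
    exact h (h1.trans (by decide +kernel))

end Cfsg.Lib.K7
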