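import Cfsg.Agent.K7.NSU6a

/-!
# `U₃(3)`: the transvections act without fixed points
-/

set_option autoImplicit false

namespace Cfsg.Lib.K7

open Cfsg Subgroup Cfsg.Lib.Class Cfsg.Lib.Chev

universe u

namespace NSU6

/-- A unitriangular matrix. -/
def ut (a b c : T9) : Matrix (Fin 3) (Fin 3) T9 := !![1, a, c; 0, 1, b; 0, 0, 1]

theorem ut_eq_1' : type_of% @ut.eq_1 := @ut.eq_1

theorem ut_mul (a b c a' b' c' : T9) :
    ut a b c * ut a' b' c' = ut (a' + a) (b' + b) (c' + a * b' + c) := by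
  simp [ut, Matrix.mul_fin_three, add_assoc]

theorem ut_cube (a b c : T9) : ut a b c * ut a b c * ut a b c = 1 := by
  have h3 : (3 : T9) = 0 := by decide +kernel
  rw [ut_mul, ut_mul, show a + (a + a) = 0 by linear_combination a * h3,
    show b + (b + b) = 0 by linear_combination b * h3,
    show c + (a + a) * b + (c + a * b + c) = 0 by linear_combination (c + a * b) * h3]
  decide +kernel

theorem PQ : mat 0x751361011 * mat 0x111831460 = 1 := by decide +kernel
theorem QP : mat 0x111831460 * mat 0x751361011 = 1 := by decide +kernel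

/-- Unitriangular in the new basis. -/
def Ut (g : S) : Prop := ∃ a b c, g.1.1 * mat 0x751361011 = mat 0x751361011 * ut a b c

theorem Ut_eq_1' : type_of% @Ut.eq_1 := @Ut.eq_1

theorem Ut.mul {g h : S} (hg : Ut g) (hh : Ut h) : Ut (g * h) := by
  obtain ⟨a, b, c, e⟩ := hg
  obtain ⟨a', b', c', e'⟩ := hh
  refine ⟨a' + a, b' + b, c' + a * b' + c, ?_⟩
  change g.1.1 * h.1.1 * _ = _
  rw [mul_assoc, e', ← mul_assoc, e, mul_assoc, ut_mul]

theorem Ut.cube {g : S} (hg : Ut g) : g * g * g = 1 := by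
  obtain ⟨a, b, c, e⟩ := hg
  refine Subtype.ext (Subtype.ext ?_)
  change g.1.1 * g.1.1 * g.1.1 = 1
  have : g.1.1 * g.1.1 * g.1.1 * mat 0x751361011 = mat 0x751361011 * (ut a b c * ut a b c * ut a b c) := by
    rw [mul_assoc, e, ← mul_assoc, mul_assoc g.1.1, e, ← mul_assoc, e]
    simp only [mul_assoc]
  rw [← mul_one (g.1.1 * g.1.1 * g.1.1), ← PQ, ← mul_assoc, this, ut_cube, mul_one]

/-- A Sylow 3-subgroup. -/
def US : Subgroup S where
  carrier := {g | Ut g}
  mul_mem' := Ut.mul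
  one_mem' := ⟨0, 0, 0, by
    change (1 : Matrix (Fin 3) (Fin 3) T9) * _ = _
    decide +kernel⟩
  inv_mem' := fun {g} hg => by
    rw [inv_eq_of_mul_eq_one_left (Ut.cube hg)]
    exact Ut.mul hg hg

theorem US_eq_1' : type_of% @US.eq_1 := @US.eq_1

theorem cen {J : Matrix (Fin 3) (Fin 3) T9} {a b c : T9} (ha : a ≠ 0) (hb : b ≠ 0) (hd : J.det = 1)
    (h : J * ut a b c = ut a b c * J) : ∃ a' b' c', J = ut a' b' c' := by
  have e := fun i j => congrFun (congrFun h i) j
  have e10 := e 1 0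
  have e00 := e 0 0
  have e22 := e 2 2
  have e01 := e 0 1
  have e12 := e 1 2
  simp [ut, Matrix.mul_apply, Fin.sum_univ_three] at e10 e00 e22 e01 e12
  have f20 : J 2 0 = 0 := e10.resolve_left hb
  have f10 : J 1 0 = 0 := (mul_eq_zero.1 (by linear_combination -e00 - c * f20 : a * J 1 0 = 0)).resolve_left ha
  have f21 : J 2 1 = 0 := (mul_eq_zero.1 (by linear_combination e22 - c * f20 : b * J 2 1 = 0)).resolve_left hb
  have f1 : J 1 1 = J 0 0 := mul_left_cancel₀ ha (by linear_combination -e01 - c * f21)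
  have f2 : J 2 2 = J 0 0 := mul_left_cancel₀ hb (by linear_combination -e12 + c * f10 + b * f1)
  rw [Matrix.det_fin_three, f20, f10, f21, f1, f2] at hd
  have f0 : J 0 0 = 1 := (by decide +kernel : ∀ x : T9, x * x * x = 1 → x = 1) _ (by linear_combination hd)
  refine ⟨J 0 1, J 1 2, J 0 2, ?_⟩
  ext i j
  fin_cases i <;> fin_cases j <;> simp [ut, f20, f10, f21, f1, f2, f0]

theorem cen_Ut {x j : S} {a b c : T9} (ha : a ≠ 0) (hb : b ≠ 0)
    (e : x.1.1 * mat 0x751361011 = mat 0x751361011 * ut a b c) (h : j * x = x * j) : Ut j := by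
  have h' : j.1.1 * x.1.1 = x.1.1 * j.1.1 := congrArg (fun g : S => g.1.1) h
  have e' : mat 0x111831460 * x.1.1 = ut a b c * mat 0x111831460 := by
    rw [← mul_one (_ * x.1.1), ← PQ, ← mul_assoc, mul_assoc _ x.1.1, e, ← mul_assoc, QP, one_mul]
  obtain ⟨a', b', c', hJ⟩ := cen (J := mat 0x111831460 * j.1.1 * mat 0x751361011) (c := c) ha hb (by
    rw [Matrix.det_mul, Matrix.det_mul, j.1.2, mul_one, ← Matrix.det_mul, QP, Matrix.det_one]) (by
    rw [mul_assoc, ← e, ← mul_assoc, mul_assoc _ j.1.1, h', ← mul_assoc, e']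
    simp only [mul_assoc])
  exact ⟨a', b', c', by rw [← hJ, ← mul_assoc, ← mul_assoc, PQ, one_mul]⟩

/-- The elements of the Sylow 3-subgroup. -/
def rc (i : Fin 27) : ℕ := [0x1100010, 0x10001100, 0x58562823, 0x85832526, 0x100010001, 0x238580625,
  0x256382805, 0x265850328, 0x283652508, 0x328265850, 0x334433343, 0x343334433, 0x382805256,
  0x433343334, 0x508283652, 0x526085832, 0x562823058, 0x580625238, 0x625238580, 0x652508283,
  0x667766676, 0x676667766, 0x766676667, 0x805256382, 0x823058562, 0x832526085, 0x850328265].getD i 0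

/-- Their triangular forms. -/
def uc (i : Fin 27) : ℕ := [0x100710881, 0x100510541, 0x100810271, 0x100410251, 0x100010001,
  0x100110421, 0x100310731, 0x100610461, 0x100210711, 0x100410551, 0x100710281, 0x100510841,
  0x100810571, 0x100010301, 0x100610761, 0x100210111, 0x100110721, 0x100310131, 0x100810871,
  0x100410851, 0x100710581, 0x100510241, 0x100010601, 0x100110121, 0x100310431, 0x100610161,
  0x100210411].getD i 0

theorem rc_eq_1' : type_of% @rc.eq_1 := @rc.eq_1
theorem uc_eq_1' : type_of% @uc.eq_1 := @uc.eq_1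

theorem rc_spec : ∀ i, okb (rc i) = true ∧ eqb (rc i) 0x751361011 0x751361011 (uc i) = true ∧
    mat (uc i) = ut (en (uc i) 0 1) (en (uc i) 1 2) (en (uc i) 0 2) ∧
    ((en (uc i) 0 1 ≠ 0 ∧ en (uc i) 1 2 ≠ 0) ∨ rc i = 0x100010001 ∨ rc i = 0x433343334 ∨
      rc i = 0x766676667) := by decide +kernel

theorem rc_inj : ∀ i j, mat (rc i) = mat (rc j) → i = j := by decide +kernel

theorem rc_eq (i : Fin 27) : (el (rc i)).1.1 * mat 0x751361011 =
    mat 0x751361011 * ut (en (uc i) 0 1) (en (uc i) 1 2) (en (uc i) 0 2) := by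
  rw [el_val (rc_spec i).1, mat_mul (rc_spec i).2.1, ← (rc_spec i).2.2.1]

theorem cardS : Nat.card S = 6048 := by
  rw [← Nat.card_congr psu33Equiv.toEquiv, card_PSU33 T9.card]

theorem conj_rc {r : S} (hr : orderOf r = 3) : ∃ (g : S) (i : Fin 27), g * r * g⁻¹ = el (rc i) := by
  have : Fact (Nat.Prime 3) := ⟨Nat.prime_three⟩
  have : Finite S := Nat.finite_of_card_ne_zero (by rw [cardS]; decide)
  have hU : IsPGroup 3 US := fun g => ⟨1, Subtype.ext (by
    have := Ut.cube g.2
    simpa [pow_succ] using this)⟩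
  obtain ⟨Q, hQ⟩ := hU.exists_le_sylow
  have hz : IsPGroup 3 (zpowers r) := IsPGroup.of_card (n := 1) (by rw [Nat.card_zpowers, hr]; rfl)
  obtain ⟨Q', hQ'⟩ := hz.exists_le_sylow
  obtain ⟨g, hg⟩ := MulAction.exists_smul_eq S Q' Q
  have hc : Nat.card Q = 27 := by
    rw [Q.card_eq_multiplicity, cardS, show 6048 = 3 ^ 3 * 224 by norm_num,
      Nat.factorization_mul (by norm_num) (by norm_num), Nat.Prime.factorization_pow Nat.prime_three]
    simp [Nat.factorization_eq_zero_of_not_dvd (show ¬ 3 ∣ 224 by norm_num)]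
  let f : Fin 27 → Q := fun i => ⟨el (rc i), hQ ⟨_, _, _, rc_eq i⟩⟩
  have hf : Function.Injective f := fun i j h => rc_inj i j (by
    rw [← el_val (rc_spec i).1, ← el_val (rc_spec j).1]
    exact congrArg (fun q : Q => q.1.1.1) h)
  have hs := ((Nat.bijective_iff_injective_and_card f).2 ⟨hf, (Nat.card_fin 27).trans hc.symm⟩).2
  have hm : g * r * g⁻¹ ∈ Q := by
    rw [← hg]
    exact Subgroup.smul_mem_pointwise_smul r (MulAut.conj g) Q'.toSubgroup (hQ' (mem_zpowers r))
  obtain ⟨i, hi⟩ := hs ⟨_, hm⟩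
  exact ⟨g, i, (congrArg Subtype.val hi).symm⟩

theorem main {B : Type u} [AddCommGroup B] [DistribMulAction S B] (h2 : ∀ b : B, b + b = 0)
    (h7 : ∀ y : S, orderOf y = 7 → ∀ b : B, y • b = b → b = 0) {r j : S} (hr : orderOf r = 3)
    (hj : orderOf j = 4) (hc : j * r = r * j) (b : B) (hb : r • b = b) : b = 0 := by
  obtain ⟨g, i, e⟩ := conj_rc hr
  have hx : el (rc i) • g • b = g • b := by rw [← e, ← mul_smul, inv_mul_cancel_right, mul_smul, hb]
  suffices h : g • b = 0 by rw [← inv_smul_smul g b, h, smul_zero]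
  rcases (rc_spec i).2.2.2 with ⟨ha, hb⟩ | h | h | h
  · have h3 := (cen_Ut (j := g * j * g⁻¹) ha hb (rc_eq i) (by
      rw [← e]
      calc g * j * g⁻¹ * (g * r * g⁻¹) = g * (j * r) * g⁻¹ := by group
        _ = g * r * g⁻¹ * (g * j * g⁻¹) := by rw [hc]; group)).cube
    have h4 : j ^ 3 = 1 := by
      calc j ^ 3 = g⁻¹ * (g * j * g⁻¹ * (g * j * g⁻¹) * (g * j * g⁻¹)) * g := by
            rw [pow_three']; group
        _ = 1 := by rw [h3]; group
    have := orderOf_dvd_of_pow_eq_one h4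
    rw [hj] at this
    exact absurd this (by norm_num)
  · rw [h, el_one, mul_inv_eq_one, mul_eq_left] at e
    rw [e, orderOf_one] at hr
    exact absurd hr (by norm_num)
  · rw [h] at hx
    exact fix3 h2 h7 _ hx
  · rw [h] at hx
    refine fix3 h2 h7 _ ?_
    rw [← el_mul1 okr2 okr2 okr (by decide +kernel), mul_smul, hx, hx]

end NSU6

theorem u6 (hU1 : StU1) : StU6.{u} := by
  intro B _ _ _ h2 h7 r hr b hb
  let _ : DistribMulAction NSU6.S B := DistribMulAction.compHom B su33Equiv.toMonoidHom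
  obtain ⟨h3, j, hj, h4, hc⟩ := hr
  obtain ⟨r, rfl⟩ := su33Equiv.surjective r
  obtain ⟨k, hk⟩ := su33Equiv.surjective ⟨j, hj⟩
  refine NSU6.main (r := r) (j := k) h2
    (fun y hy => h7 (su33Equiv y) (by rw [MulEquiv.orderOf_eq, hy])) ?_ ?_ ?_ b hb
  · rw [← su33Equiv.orderOf_eq, ← Subgroup.orderOf_coe, h3]
  · rw [← su33Equiv.orderOf_eq, hk, ← Subgroup.orderOf_coe, h4]
  · apply su33Equiv.injective
    rw [map_mul, map_mul, hk]
    exact Subtype.ext hc

end Cfsg.Lib.K7
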