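import Cfsg.Agent.K7.LocB
import Cfsg.Agent.Class.SLGen

/-!
# Automorphisms of `L₃(2)` that preserve the axis group are inner
-/

set_option autoImplicit false

namespace Cfsg.Lib.K7

open Cfsg Subgroup Cfsg.Lib.Trans Cfsg.Lib.Gold
open Cfsg.Lib.P8 (L32 V3 O2 Om Jt Phi EA SR4 Ch E9 Pj Ty Sec SecOK Mx Crd)
open Cfsg.Lib.K35 (PSL Alt A3 NC)
open scoped commutatorElement

universe u

namespace NSX7

/-- The elementary matrices. -/
abbrev e (i j : Fin 3) (h : i ≠ j := by decide) : L32 :=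
  Matrix.SpecialLinearGroup.transvection h 1

theorem e_eq_1' : type_of% @e.eq_1 := @e.eq_1

theorem d1 : ∀ p : L32, p * p = 1 → p * e 0 2 = e 0 2 * p → p * e 1 2 = e 1 2 * e 0 2 * p →
    p = e 0 1 ∨ p = e 0 1 * e 0 2 := by decide +kernel

theorem d2 : ∀ p : L32, p * p = 1 → p * e 1 2 = e 1 2 * p → p * e 0 2 = e 0 2 * e 1 2 * p →
    p = e 1 0 ∨ p = e 1 0 * e 1 2 := by decide +kernel

theorem d3 : ∀ p : L32, p * p = 1 → p * e 1 0 = e 1 0 * p → e 1 2 * p * e 1 2 = e 1 0 * p →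
    p * e 0 1 * (p * e 0 1) = e 0 1 * p * (e 0 1 * p) → p = e 2 0 := by decide +kernel

theorem d4 : ∀ p : L32, p.1 1 0 = 0 ∧ p.1 2 0 = 0 ∧ p.1 2 1 = 0 ∧ p.1 0 1 = 0 →
    p = 1 ∨ p = e 0 2 ∨ p = e 1 2 ∨ p = e 0 2 * e 1 2 := by decide +kernel

theorem s3 (β : L32 →* L32) (h1 : β (e 0 2) = e 0 2) (h2 : β (e 1 2) = e 1 2)
    (h3 : β (e 0 1) = e 0 1) (h4 : β (e 1 0) = e 1 0) (x : L32) : β x = x := by
  have h5 : β (e 2 0) = e 2 0 := by
    refine d3 _ ?_ ?_ ?_ ?_
    · rw [← map_mul, show e 2 0 * e 2 0 = 1 by decide +kernel, map_one]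
    · rw [← h4, ← map_mul, ← map_mul, show e 2 0 * e 1 0 = e 1 0 * e 2 0 by decide +kernel]
    · rw [← h2, ← h4, ← map_mul, ← map_mul, ← map_mul,
        show e 1 2 * e 2 0 * e 1 2 = e 1 0 * e 2 0 by decide +kernel]
    · rw [← h3, ← map_mul, ← map_mul, ← map_mul, ← map_mul,
        show e 2 0 * e 0 1 * (e 2 0 * e 0 1) = e 0 1 * e 2 0 * (e 0 1 * e 2 0) by decide +kernel]
  have h6 : β (e 2 1) = e 2 1 := by
    have : e 2 1 = e 2 0 * e 0 1 * e 2 0 * e 0 1 := by decide +kernel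
    rw [this, map_mul, map_mul, map_mul, h5, h3]
  refine Class.SL_transvection_induction (fun x => β x = x) (map_one β) (fun i j h c => ?_)
    (fun A B hA hB => by rw [map_mul, hA, hB]) x
  have hc : ∀ c : ZMod 2, c = 0 ∨ c = 1 := by decide
  rcases hc c with rfl | rfl
  · rw [Matrix.SpecialLinearGroup.transvection_coeff_zero, map_one]
  · fin_cases i <;> fin_cases j <;> first | exact absurd rfl h | assumption

theorem red (α : L32 →* L32) (l : L32)
    (h : ∃ m : L32, ∀ x, ((MulAut.conj l⁻¹).toMonoidHom.comp α) x = m * x * m⁻¹) :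
    ∃ m : L32, ∀ x, α x = m * x * m⁻¹ := by
  obtain ⟨m, hm⟩ := h
  refine ⟨l * m, fun x => ?_⟩
  have : l⁻¹ * α x * l⁻¹⁻¹ = m * x * m⁻¹ := hm x
  calc α x = l * (l⁻¹ * α x * l⁻¹⁻¹) * l⁻¹ := by group
    _ = _ := by rw [this]; group

theorem cv (α : L32 →* L32) (l x y : L32) (h : α x = y) (k : y * l = l * x) :
    ((MulAut.conj l⁻¹).toMonoidHom.comp α) x = x := by
  change l⁻¹ * α x * l⁻¹⁻¹ = x
  rw [h, inv_inv, mul_assoc, k, inv_mul_cancel_left]

theorem s2 (β : L32 →* L32) (h1 : β (e 0 2) = e 0 2) (h2 : β (e 1 2) = e 1 2) :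
    ∃ m : L32, ∀ x, β x = m * x * m⁻¹ := by
  have h3 : β (e 0 1) = e 0 1 ∨ β (e 0 1) = e 0 1 * e 0 2 := by
    refine d1 _ ?_ ?_ ?_
    · rw [← map_mul, show e 0 1 * e 0 1 = 1 by decide +kernel, map_one]
    · rw [← h1, ← map_mul, ← map_mul, show e 0 1 * e 0 2 = e 0 2 * e 0 1 by decide +kernel]
    · rw [← h1, ← h2, ← map_mul, ← map_mul, ← map_mul,
        show e 0 1 * e 1 2 = e 1 2 * e 0 2 * e 0 1 by decide +kernel]
  have h4 : β (e 1 0) = e 1 0 ∨ β (e 1 0) = e 1 0 * e 1 2 := by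
    refine d2 _ ?_ ?_ ?_
    · rw [← map_mul, show e 1 0 * e 1 0 = 1 by decide +kernel, map_one]
    · rw [← h2, ← map_mul, ← map_mul, show e 1 0 * e 1 2 = e 1 2 * e 1 0 by decide +kernel]
    · rw [← h1, ← h2, ← map_mul, ← map_mul, ← map_mul,
        show e 1 0 * e 0 2 = e 0 2 * e 1 2 * e 1 0 by decide +kernel]
  have fin : ∀ l y z : L32, β (e 0 1) = y → β (e 1 0) = z → e 0 2 * l = l * e 0 2 →
      e 1 2 * l = l * e 1 2 → y * l = l * e 0 1 → z * l = l * e 1 0 →
      ∃ m : L32, ∀ x, β x = m * x * m⁻¹ := fun l y z a b c d f g =>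
    red β l ⟨1, fun x => by
      rw [s3 _ (cv β l _ _ h1 c) (cv β l _ _ h2 d) (cv β l _ _ a f) (cv β l _ _ b g)]; simp⟩
  rcases h3 with a | a <;> rcases h4 with b | b
  · exact fin 1 _ _ a b (by simp) (by simp) (by simp) (by simp)
  · exact fin (e 0 2) _ _ a b rfl (by decide +kernel) (by decide +kernel) (by decide +kernel)
  · exact fin (e 1 2) _ _ a b (by decide +kernel) rfl (by decide +kernel) (by decide +kernel)
  · exact fin (e 0 2 * e 1 2) _ _ a b (by decide +kernel) (by decide +kernel) (by decide +kernel)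
      (by decide +kernel)

theorem s1 (α : L32 →* L32) (hi : Function.Injective α) (hB : ∀ a, inB a → inB (α a)) :
    ∃ m : L32, ∀ x, α x = m * x * m⁻¹ := by
  have b1 : inB (e 0 2) := by
    change _ ∧ _ ∧ _ ∧ _
    decide +kernel
  have b2 : inB (e 1 2) := by
    change _ ∧ _ ∧ _ ∧ _
    decide +kernel
  have n1 : α (e 0 2) ≠ 1 := fun h => absurd (hi (h.trans (map_one α).symm)) (by decide +kernel)
  have n2 : α (e 1 2) ≠ 1 := fun h => absurd (hi (h.trans (map_one α).symm)) (by decide +kernel)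
  have n3 : α (e 0 2) ≠ α (e 1 2) := fun h => absurd (hi h) (by decide +kernel)
  have fin : ∀ l y z : L32, α (e 0 2) = y → α (e 1 2) = z → y * l = l * e 0 2 →
      z * l = l * e 1 2 → ∃ m : L32, ∀ x, α x = m * x * m⁻¹ := fun l y z a b c d =>
    red α l (s2 _ (cv α l _ _ a c) (cv α l _ _ b d))
  rcases d4 _ (hB _ b1) with a | a | a | a
  · exact absurd a n1
  · rcases d4 _ (hB _ b2) with b | b | b | b
    · exact absurd b n2
    · exact absurd (a.trans b.symm) n3
    · exact fin 1 _ _ a b (by simp) (by simp)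
    · exact fin (e 0 1) _ _ a b (by decide +kernel) (by decide +kernel)
  · rcases d4 _ (hB _ b2) with b | b | b | b
    · exact absurd b n2
    · exact fin (e 0 1 * e 1 0 * e 0 1) _ _ a b (by decide +kernel) (by decide +kernel)
    · exact absurd (a.trans b.symm) n3
    · exact fin (e 0 1 * e 1 0) _ _ a b (by decide +kernel) (by decide +kernel)
  · rcases d4 _ (hB _ b2) with b | b | b | b
    · exact absurd b n2
    · exact fin (e 1 0 * e 0 1) _ _ a b (by decide +kernel) (by decide +kernel)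
    · exact fin (e 1 0) _ _ a b (by decide +kernel) (by decide +kernel)
    · exact absurd (a.trans b.symm) n3

end NSX7

theorem x7 : StX7.{u} := by
  intro X _ _ L f hL hC j hj
  let c : L ≃* L := MulAut.conjNormal j
  let α : L32 ≃* L32 := f.symm.trans (c.trans f)
  obtain ⟨m, hm⟩ := NSX7.s1 α.toMonoidHom α.injective fun a ha => by
    obtain ⟨b, hb, hb'⟩ := hj (f.symm a) (by rwa [MulEquiv.apply_symm_apply])
    have : c (f.symm a) = b := Subtype.ext hb.symm
    change inB (f (c (f.symm a)))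
    rwa [this]
  have h1 : ((f.symm m : L) : X)⁻¹ * j ∈ Cs L := by
    refine mem_centralizer_of_conj_eq fun x hx => ?_
    have h2 : f (c (f.symm (f ⟨x, hx⟩))) = m * f ⟨x, hx⟩ * m⁻¹ := hm _
    rw [MulEquiv.symm_apply_apply] at h2
    have h3 := congrArg (fun y => ((f.symm y : L) : X)) h2
    simp only [MulEquiv.symm_apply_apply, map_mul, map_inv, coe_mul, coe_inv] at h3
    have h4 : j * x * j⁻¹ = (f.symm m : L) * x * ((f.symm m : L) : X)⁻¹ := h3
    calc ((f.symm m : L) : X)⁻¹ * j * x * (((f.symm m : L) : X)⁻¹ * j)⁻¹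
        = ((f.symm m : L) : X)⁻¹ * (j * x * j⁻¹) * (f.symm m : L) := by group
      _ = x := by rw [h4]; group
  rw [hC, mem_bot, inv_mul_eq_one] at h1
  rw [← h1]
  exact (f.symm m).2

end Cfsg.Lib.K7
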