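import Cfsg.Agent.K7.NUd

/-! The central element of order three acts without fixed points. -/

set_option autoImplicit false

namespace Cfsg.Lib.K7.NU

open Cfsg Subgroup Cfsg.Lib.Trans Cfsg.Lib.Gold
open Cfsg.Lib.P8 (O2 Om EA Pj Ty Mx)
open scoped commutatorElement

universe u

namespace NU3

variable {X W : Type*} [Group X] [AddCommGroup W] [DistribMulAction X W]

/-- The fixed points of `g`. -/
def fx (W : Type*) [AddCommGroup W] [DistribMulAction X W] (g : X) : AddSubgroup W where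
  carrier := {v | g • v = v}
  zero_mem' := smul_zero g
  add_mem' := fun {v w} (hv : g • v = v) (hw : g • w = w) => by
    change g • (v + w) = v + w
    rw [smul_add, hv, hw]
  neg_mem' := fun {v} (hv : g • v = v) => by
    change g • (-v) = -v
    rw [smul_neg, hv]

theorem mem_fx {g : X} {v : W} : v ∈ fx W g ↔ g • v = v := Iff.rfl

/-- The norm of an element of order three. -/
def ee (g : X) (v : W) : W := v + g • v + g • g • v

theorem ee_add (g : X) (v w : W) : ee g (v + w) = ee g v + ee g w := by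
  simp only [ee, smul_add]; abel

theorem ee_fix {g : X} (g3 : g ^ 3 = 1) (v : W) : g • ee g v = ee g v := by
  have : g • g • g • v = v := by rw [smul_smul, smul_smul, ← pow_three', g3, one_smul]
  simp only [ee, smul_add, this]; abel

theorem ee_self (two : ∀ w : W, w + w = 0) {g : X} {v : W} (e : g • v = v) : ee g v = v := by
  rw [ee, e, e, two, zero_add]

theorem card_conj {a x : X} (h : IsConj a x) : Nat.card (fx W x) = Nat.card (fx W a) := by
  obtain ⟨g, rfl⟩ := isConj_iff.1 h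
  refine Nat.card_congr ⟨fun v => ⟨g⁻¹ • v.1, ?_⟩, fun v => ⟨g • v.1, ?_⟩, fun v => by simp,
    fun v => by simp⟩
  · rw [mem_fx, ← smul_eq_iff_eq_inv_smul, smul_smul, smul_smul]; exact v.2
  · rw [mem_fx, smul_smul, inv_mul_cancel_right, mul_smul, mem_fx.1 v.2]

variable [Finite W]

theorem four (two : ∀ w : W, w + w = 0) {U : AddSubgroup W} {a b : X} (a3 : a ^ 3 = 1)
    (b3 : b ^ 3 = 1) (aU : ∀ v ∈ U, a • v ∈ U) (bU : ∀ v ∈ U, b • v ∈ U)
    (cm : ∀ v ∈ U, a • b • v = b • a • v) :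
    Nat.card ↥(U ⊓ fx W a) * (Nat.card ↥(U ⊓ fx W b) * (Nat.card ↥(U ⊓ fx W (a * b)) *
      Nat.card ↥(U ⊓ fx W (a * b * b)))) ≤ Nat.card U * Nat.card ↥(U ⊓ fx W a ⊓ fx W b) ^ 3 := by
  have bbb : ∀ v : W, b • b • b • v = v := fun v => by
    rw [smul_smul, smul_smul, ← pow_three', b3, one_smul]
  have eU : ∀ v ∈ U, ee a v ∈ U := fun v hv => add_mem (add_mem hv (aU v hv)) (aU _ (aU v hv))
  have be : ∀ v ∈ U, b • ee a v = ee a (b • v) := fun v hv => by
    simp only [ee, smul_add, ← cm v hv, ← cm _ (aU v hv)]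
  have s3 : ∀ v ∈ U ⊓ fx W (a * b), ee a v = ee b v := fun v hv => by
    have e : a • b • v = v := (mul_smul a b v).symm.trans hv.2
    have e1 : a • v = b • b • v := by
      rw [← bbb (a • v), ← cm v hv.1, e]
    have e2 : a • a • v = b • v := by rw [e1, cm _ (bU v hv.1), e]
    rw [ee, ee, e2, e1]; abel
  have s4 : ∀ v ∈ U ⊓ fx W (a * b * b), ee a v = ee b v := fun v hv => by
    have e : a • b • b • v = v := by rw [smul_smul, smul_smul]; exact hv.2
    have e1 : a • v = b • v := by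
      conv_rhs => rw [← e, ← cm _ (bU _ (bU v hv.1)), bbb]
    rw [ee, ee, e1, cm v hv.1, e1]
  rw [← Nat.card_prod, ← Nat.card_prod, ← Nat.card_prod, pow_three, ← Nat.card_prod,
    ← Nat.card_prod, ← Nat.card_prod]
  let f : ↥(U ⊓ fx W a) × ↥(U ⊓ fx W b) × ↥(U ⊓ fx W (a * b)) × ↥(U ⊓ fx W (a * b * b)) →+
      U × ↥(U ⊓ fx W a ⊓ fx W b) × ↥(U ⊓ fx W a ⊓ fx W b) × ↥(U ⊓ fx W a ⊓ fx W b) :=
    AddMonoidHom.mk' (fun p => (⟨p.1 + p.2.1 + p.2.2.1 + p.2.2.2,
        add_mem (add_mem (add_mem p.1.2.1 p.2.1.2.1) p.2.2.1.2.1) p.2.2.2.2.1⟩,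
      ⟨ee a p.2.1, ⟨eU _ p.2.1.2.1, ee_fix a3 _⟩, mem_fx.2 (by
        rw [be _ p.2.1.2.1, mem_fx.1 p.2.1.2.2])⟩,
      ⟨ee a p.2.2.1, ⟨eU _ p.2.2.1.2.1, ee_fix a3 _⟩, mem_fx.2 (by
        rw [s3 _ p.2.2.1.2, ee_fix b3])⟩,
      ⟨ee a p.2.2.2, ⟨eU _ p.2.2.2.2.1, ee_fix a3 _⟩, mem_fx.2 (by
        rw [s4 _ p.2.2.2.2, ee_fix b3])⟩)) fun p q => by
      simp only [Prod.mk_add_mk, Prod.mk.injEq, Subtype.ext_iff, Prod.fst_add, Prod.snd_add,
        AddSubgroup.coe_add, ee_add, and_true]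
      abel
  refine Nat.card_le_card_of_injective f ((injective_iff_map_eq_zero f).2 ?_)
  rintro ⟨⟨v1, h1⟩, ⟨v2, h2⟩, ⟨v3, h3⟩, ⟨v4, h4⟩⟩ e
  simp only [f, AddMonoidHom.mk'_apply, Prod.mk_eq_zero, Subtype.ext_iff, AddSubgroup.coe_zero] at e ⊢
  obtain ⟨e1, e2, e3, e4⟩ := e
  have z : ∀ g : X, ee g (0 : W) = 0 := fun g => by simp [ee]
  have k1 : v1 = 0 := by
    have := congrArg (ee a) e1
    rwa [ee_add, ee_add, ee_add, e2, e3, e4, z, add_zero, add_zero, add_zero, ee_self two h1.2] at this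
  have k2 : v2 = 0 := by
    have := congrArg (ee b) e1
    rwa [k1, zero_add, ee_add, ee_add, ← s3 _ h3, ← s4 _ h4, e3, e4, z, add_zero, add_zero,
      ee_self two h2.2] at this
  have k3 : v3 = v4 := by
    rw [k1, k2, zero_add, zero_add] at e1
    rw [← add_zero v3, ← two v4, ← add_assoc, e1, zero_add]
  subst k3
  have p3 : a • b • v3 = v3 := (mul_smul a b v3).symm.trans h3.2
  have p4 : a • b • b • v3 = v3 := by rw [smul_smul, smul_smul]; exact h4.2
  have p5 : b • v3 = v3 := by rwa [cm _ (bU _ h3.1), p3] at p4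
  rw [p5] at p3
  rw [ee_self two p3] at e3
  exact ⟨k1, k2, e3, e3⟩

omit [Finite W] in
theorem norm7 {y : X} (y7 : y ^ 7 = 1) (fp : ∀ w : W, y • w = w → w = 0) (w : W) :
    w + y ^ 1 • w + y ^ 2 • w + y ^ 3 • w + y ^ 4 • w + y ^ 5 • w + y ^ 6 • w = 0 := by
  refine fp _ ?_
  simp only [smul_add, smul_smul, ← pow_succ', y7, one_smul, Nat.reduceAdd]
  rw [pow_one]
  abel

theorem cube (two : ∀ w : W, w + w = 0) {a y : X} (a3 : a ^ 3 = 1) (y7 : y ^ 7 = 1)
    (ay : a * y * a⁻¹ = y ^ 2) (fp : ∀ w : W, y • w = w → w = 0) :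
    Nat.card W ≤ Nat.card (fx W a) ^ 3 := by
  have N := norm7 y7 fp
  have ai : ∀ (i : ℕ) (v : W), a • y ^ i • v = y ^ (2 * i) • a • v := fun i v => by
    rw [smul_smul, smul_smul, pow_mul, ← ay, conj_pow, inv_mul_cancel_right]
  have m7 : ∀ (i : ℕ) (v : W), y ^ (i + 7) • v = y ^ i • v := fun i v => by rw [pow_add, y7, mul_one]
  have y8 := m7 1
  simp only [Nat.reduceAdd] at y8
  let η : W → W := fun v => y ^ 1 • v + y ^ 2 • v + y ^ 4 • v
  have aη : ∀ v, a • η v = η (a • v) := fun v => by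
    simp only [η, smul_add, ai, Nat.reduceMul, y8]; abel
  have eη : ∀ v, ee a v = 0 → ee a (η v) = 0 := fun v e => by
    have : η (ee a v) = 0 := by simp [η, e]
    rw [ee, aη, aη, ← this]
    simp only [η, ee, smul_add]; abel
  have rc : ∀ v : W, ee a v = 0 → ee a (y • v) = 0 → ee a (y • y • v) = 0 → ee a (y • y • y • v) = 0 :=
    fun v e0 e1 e2 => by
      have : y • y • y • v = y • v + v + η (y • v + y • y • v) := by
        have h3 : y • y • y • v = y ^ 3 • v := by rw [smul_smul, smul_smul, pow_three']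
        have h2 : y • y • v = y ^ 2 • v := by rw [smul_smul, sq]
        have h1 : y • v = y ^ 1 • v := by rw [pow_one]
        rw [h3, h2, h1]
        simp only [η, smul_add, smul_smul, ← pow_add, Nat.reduceAdd]
        linear_combination (norm := abel) two (y ^ 3 • v) - N v - two (y ^ 3 • v)
      rw [this, ee_add, ee_add, e0, e1, eη _ (by rw [ee_add, e1, e2, add_zero]), add_zero, add_zero]
  rw [pow_three, ← Nat.card_prod, ← Nat.card_prod]
  let f : W →+ fx W a × fx W a × fx W a := AddMonoidHom.mk'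
    (fun v => (⟨ee a v, ee_fix a3 _⟩, ⟨ee a (y • v), ee_fix a3 _⟩, ⟨ee a (y • y • v), ee_fix a3 _⟩))
    fun v w => by simp only [Prod.mk_add_mk, Prod.mk.injEq, Subtype.ext_iff, AddSubgroup.coe_add,
      ee_add, smul_add, and_true]
  refine Nat.card_le_card_of_injective f ((injective_iff_map_eq_zero f).2 fun v e => ?_)
  simp only [f, AddMonoidHom.mk'_apply, Prod.mk_eq_zero, Subtype.ext_iff, AddSubgroup.coe_zero] at e
  obtain ⟨e0, e1, e2⟩ := e
  have e3 := rc _ e0 e1 e2
  have e4 := rc _ e1 e2 e3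
  have e5 := rc _ e2 e3 e4
  have e6 := rc _ e3 e4 e5
  have p : ∀ i : ℕ, y • y ^ i • v = y ^ (i + 1) • v := fun i => by rw [smul_smul, pow_succ']
  have p1 : y • v = y ^ 1 • v := by rw [pow_one]
  simp only [p1, p, Nat.reduceAdd] at e1 e2 e3 e4 e5 e6
  have f1 := congrArg (y ^ 6 • ·) e1
  have f2 := congrArg (y ^ 5 • ·) e2
  have f3 := congrArg (y ^ 4 • ·) e3
  have f4 := congrArg (y ^ 3 • ·) e4
  have f5 := congrArg (y ^ 2 • ·) e5
  have f6 := congrArg (y ^ 1 • ·) e6
  have q : ∀ (i j : ℕ) (v : W), y ^ i • y ^ j • v = y ^ ((i + j) % 7) • v := fun i j v => by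
    rw [smul_smul, ← pow_add, pow_eq_pow_mod _ y7]
  simp only [ee, smul_add, ai, q, smul_zero, Nat.reduceMul, Nat.reduceAdd, Nat.reduceMod, pow_zero,
    one_smul] at e0 f1 f2 f3 f4 f5 f6
  have n1 := N (a • v)
  have n2 := N (a • a • v)
  have t := two v
  linear_combination (norm := abel) e0 + f1 + f2 + f3 + f4 + f5 + f6 - n1 - n2 - t - t - t

omit [Finite W] in
theorem sq_step (two : ∀ w : W, w + w = 0) {E : Subgroup X} {g : X} (hg : g ∈ Ns E)
    (h : ∀ v : W, (∀ e ∈ E, e • v = v) → g • v = v → v = 0) (v : W) (hv : ∀ e ∈ E, e • v = v)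
    (e : (g * g) • v = v) : v = 0 := by
  refine h v hv ?_
  have := h (g • v + v) (fun x hx => by
    rw [smul_add, hv x hx, smul_smul, show x * g = g * (g⁻¹ * x * g) by group, mul_smul,
      hv _ (mem_normalizer_conj' hg hx)]) (by rw [smul_add, smul_smul, e, add_comm])
  rw [← add_zero (g • v), ← two v, ← add_assoc, this, zero_add]

omit [Finite W] in
theorem fixE [Finite X] {a b r h y : X} (ue : UE a b r h y) (two : ∀ w : W, w + w = 0)
    (fp : ∀ w : W, y • w = w → w = 0) (w : W) (hw : ∀ e ∈ closure ({a, b} : Set X), e • w = w) :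
    w = 0 := by
  have y7 : y ^ 7 = 1 := ue.oy ▸ pow_orderOf_eq_one y
  have aE : a ∈ closure ({a, b} : Set X) := subset_closure (.inl rfl)
  obtain ⟨g, gE, g', gE', i, dc⟩ := ue.dc
  have c27 := ue.c27
  have hE := ue.hE
  generalize closure ({a, b} : Set X) = E at *
  refine sq_step two (mul_mem (mul_mem hE hE) (mul_mem hE hE))
    (sq_step two (mul_mem hE hE) (sq_step two hE fun w hw hh => ?_)) w hw (by
      rw [show h * h * (h * h) * (h * h * (h * h)) = h ^ 8 by simp only [pow_succ, pow_zero, one_mul, mul_assoc], ue.h8,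
        one_smul])
  have := Fintype.ofFinite E
  let s : W →+ W := AddMonoidHom.mk' (fun v => ∑ e : E, (e : X) • v) fun v w => by
    simp only [smul_add, Finset.sum_add_distrib]
  have s1 : ∀ e ∈ E, ∀ v, s (e • v) = s v := fun e he v =>
    Fintype.sum_equiv (Equiv.mulRight (⟨e, he⟩ : E)) _ _ fun x => by simp [mul_smul]
  have s2 : s w = w := by
    have t := two w
    simp only [s, AddMonoidHom.mk'_apply, fun e : E => hw e e.2, Finset.sum_const, Finset.card_univ,
      ← Nat.card_eq_fintype_card, c27]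
    linear_combination (norm := abel) (13 : ℕ) • t
  have s3 : ∀ j : ℕ, s (y ^ (2 * j % 7) • w) = s (y ^ j • w) := fun j => by
    rw [← pow_eq_pow_mod _ y7, pow_mul, ← ue.ay, conj_pow, mul_smul, mul_smul, s1 a aE,
      hw _ (inv_mem aE)]
  have s4 : s (y ^ 6 • w) = s (y ^ 1 • w) := by
    have hi : h ^ i • w = w := by
      clear dc
      induction i with
      | zero => simp
      | succ i ih => rw [pow_succ, mul_smul, hh, ih]
    rw [eq_inv_of_mul_eq_one_left (show y ^ 6 * y = 1 by rw [← pow_succ, y7]), dc, mul_smul,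
      mul_smul, mul_smul, s1 g gE, hi, hw _ gE', pow_one]
  have N := congrArg s (norm7 y7 fp w)
  have t1 := s3 1
  have t2 := s3 2
  have t5 := s3 5
  have t6 := s3 6
  simp only [Nat.reduceMul, Nat.reduceMod] at t1 t2 t5 t6
  simp only [map_add, map_zero, s2, t2, t5, t6, t1, s4] at N
  have t := two (s (y ^ 1 • w))
  linear_combination (norm := abel) N - t - t - t

end NU3

variable {X : Type u} [Group X] [Finite X] {a b r h y : X}

open NU3 in
theorem fpM {W : Type u} [AddCommGroup W] [Finite W] [DistribMulAction X W] (ue : UE a b r h y)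
    (two : ∀ w : W, w + w = 0) (fp : ∀ w : W, y • w = w → w = 0) (w : W) (e : r • w = w) : w = 0 := by
  have y7 : y ^ 7 = 1 := ue.oy ▸ pow_orderOf_eq_one y
  have a3 : a ^ 3 = 1 := ue.oa ▸ pow_orderOf_eq_one a
  have b3 : b ^ 3 = 1 := ue.ob ▸ pow_orderOf_eq_one b
  have r3 : r ^ 3 = 1 := ue.or ▸ pow_orderOf_eq_one r
  have aE : a ∈ closure ({a, b} : Set X) := subset_closure (.inl rfl)
  have bE : b ∈ closure ({a, b} : Set X) := subset_closure (.inr rfl)
  have rE : r ∈ closure ({a, b} : Set X) := by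
    rw [eq_mul_inv_of_mul_eq ue.ab.symm]
    exact mul_mem (mul_mem aE bE) (inv_mem (mul_mem bE aE))
  have c3 := cube two a3 y7 ue.ay fp
  have key : ∀ i j : ℕ, ¬ (3 ∣ i ∧ 3 ∣ j) →
      Nat.card (fx W r) ≤ Nat.card ↥(fx W r ⊓ fx W (a ^ i * b ^ j)) ^ 3 := fun i j hij => by
    have xr := mt (ue.nb i j) hij
    have xE := mul_mem (pow_mem aE i) (pow_mem bE j)
    have cm : r * (a ^ i * b ^ j) = a ^ i * b ^ j * r :=
      (Commute.pow_right ue.ra i).mul_right (Commute.pow_right ue.rb j)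
    generalize a ^ i * b ^ j = x at *
    have cj : ∀ z ∈ closure ({a, b} : Set X), z ∉ zpowers r → IsConj a z := fun z h1 h2 =>
      (ue.el z h1).resolve_left h2
    have x3 : x ^ 3 = 1 := by
      obtain ⟨g, rfl⟩ := isConj_iff.1 (cj x xE xr)
      rw [conj_pow, a3]; group
    have := four (U := ⊤) two r3 x3 (fun _ _ => trivial) (fun _ _ => trivial) fun v _ => by
      rw [smul_smul, cm, mul_smul]
    rw [top_inf_eq, top_inf_eq, top_inf_eq, top_inf_eq, card_conj (cj x xE xr),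
      card_conj (cj _ (mul_mem rE xE) (mt ((zpowers r).mul_mem_cancel_left (mem_zpowers r)).1 xr)),
      card_conj (cj _ (mul_mem (mul_mem rE xE) xE) fun e => xr (by
        rw [mul_assoc] at e
        have e1 := ((zpowers r).mul_mem_cancel_left (mem_zpowers r)).1 e
        have := mul_mem e1 e1
        rwa [show x * x * (x * x) = x ^ 3 * x by rw [pow_three']; group, x3, one_mul] at this)),
      AddSubgroup.card_top, ← pow_three] at this
    exact Nat.le_of_mul_le_mul_right (this.trans ((Nat.mul_le_mul_right _ c3).trans_eq (mul_comm _ _)))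
      (pow_pos Nat.card_pos 3)
  have inv : ∀ {x}, r * x = x * r → ∀ v ∈ fx W r, x • v ∈ fx W r := fun c v hv => by
    rw [mem_fx, smul_smul, c, mul_smul, mem_fx.1 hv]
  have := four (U := fx W r) two a3 b3 (inv ue.ra) (inv ue.rb) fun v hv => by
    rw [smul_smul, ue.ab, mul_smul, mul_smul, mem_fx.1 (inv ue.rb _ (inv ue.ra v hv))]
  have z : fx W r ⊓ fx W a ⊓ fx W b = ⊥ := eq_bot_iff.2 fun v hv => fixE ue two fp v fun x hx =>
    (closure_le (MulAction.stabilizer X v)).2 (by rintro _ (rfl | rfl); exacts [hv.1.2, hv.2]) hx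
  rw [z, AddSubgroup.card_bot, one_pow, mul_one] at this
  have k1 := key 1 0 (by decide)
  have k2 := key 0 1 (by decide)
  have k3 := key 1 1 (by decide)
  have k4 := key 1 2 (by decide)
  simp only [pow_one, pow_zero, mul_one, one_mul, sq b, ← mul_assoc] at k1 k2 k3 k4
  have k := (Nat.mul_le_mul k1 (Nat.mul_le_mul k2 (Nat.mul_le_mul k3 k4))).trans
    ((by ring : _ = _).trans_le (Nat.pow_le_pow_left this 3))
  have p : 0 < Nat.card (fx W r) := Nat.card_pos
  have k1 : Nat.card (fx W r) ≤ 1 := Nat.le_of_mul_le_mul_right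
    ((by ring : _ = _).trans_le (k.trans_eq (one_mul _).symm)) (pow_pos p 3)
  exact AddSubgroup.mem_bot.1 (AddSubgroup.eq_bot_of_card_le _ k1 ▸ mem_fx.2 e)

end Cfsg.Lib.K7.NU
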