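import Cfsg.Agent.K7.Loc

/-!
# Pushing up `U₃(3)` with a fixed point free element of order seven: definitions
-/

set_option autoImplicit false

namespace Cfsg.Lib.K7.NU

open Cfsg Subgroup Cfsg.Lib.Trans Cfsg.Lib.Gold
open Cfsg.Lib.P8 (O2 Om EA Pj Ty Mx)
open scoped commutatorElement

universe u

/-- Elements of `U₃(3)`. -/
structure UE {X : Type*} [Group X] (a b r h y : X) : Prop where
  oa : orderOf a = 3
  ob : orderOf b = 3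
  or : orderOf r = 3
  ab : a * b = r * (b * a)
  ra : r * a = a * r
  rb : r * b = b * r
  three : IsPGroup 3 (closure ({a, b} : Set X))
  c27 : Nat.card (closure ({a, b} : Set X)) = 27
  el : ∀ x ∈ closure ({a, b} : Set X), x ∈ zpowers r ∨ IsConj a x
  nb : ∀ i j : ℕ, a ^ i * b ^ j ∈ zpowers r → 3 ∣ i ∧ 3 ∣ j
  h8 : h ^ 8 = 1
  hE : h ∈ Ns (closure ({a, b} : Set X))
  oy : orderOf y = 7
  ay : a * y * a⁻¹ = y ^ 2
  dc : ∃ e ∈ closure ({a, b} : Set X), ∃ e' ∈ closure ({a, b} : Set X), ∃ i : ℕ,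
    y⁻¹ = e * y * (e' * h ^ i)
  ry : r * (y * r * y⁻¹) ≠ y * r * y⁻¹ * r

/-- Involutions of `U₃(3)`. -/
structure UI {X : Type*} [Group X] (L : Subgroup X) (r : X) : Prop where
  one : ∀ t ∈ L, t * t = 1 → ∃ l : X, t * (l * r * l⁻¹) = l * r * l⁻¹ * t
  rk : ∀ t ∈ L, ∀ s ∈ L, t * t = 1 → s * s = 1 → t ≠ 1 → s ≠ 1 → t ≠ s → t * s = s * t →
    ∀ d ∈ L, d * d = 1 → d * t = t * d → d * s = s * d → d = 1 ∨ d = t ∨ d = s ∨ d = t * s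
  four : ∀ t ∈ L, ∀ s ∈ L, t * t = 1 → s * s = 1 → t ≠ 1 → s ≠ 1 → t ≠ s → t * s = s * t →
    ∃ x c : X, orderOf x = 3 ∧ x * t * x⁻¹ = s ∧ x * s * x⁻¹ = t * s ∧ c * t = t * c ∧
      orderOf (c * x) = 7

/-- The group `X` with socle `L`. -/
structure UX {X : Type*} [Group X] (L : Subgroup X) (a b r h y : X) : Prop where
  ue : UE a b r h y
  ui : UI L r
  nor : L.Normal
  yL : y ∈ L
  idx : L.index ≤ 2
  min : ∀ N : Subgroup X, N.Normal → N ≠ ⊥ → L ≤ N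
  syl : IsSylowIn 3 (closure ({a, b} : Set X)) ⊤

section
variable {G : Type u} [Group G] {X : Type u} [Group X]

/-- The configuration. -/
structure CF (M : Subgroup G) (π : G → X) (L : Subgroup X) (a b r h y : X) : Prop where
  gl : Gl G 7
  mx : Mx M (O2 M)
  ty : Ty M (O2 M) π
  ux : UX L a b r h y

/-- Facts about the action of `M` on `V`. -/
structure MF (M V : Subgroup G) (π : G → X) (L : Subgroup X) : Prop where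
  cV : M ⊓ Cs V = O2 M
  three : ∀ w ∈ M, orderOf w = 3 → V ⊓ C1 w = ⊥ ∨ (Nat.card ↥(V ⊓ C1 w) ^ 3 = Nat.card V ∧
    ∃ ρ ∈ M, orderOf ρ = 3 ∧ ρ * w = w * ρ ∧ V ⊓ C1 ρ = ⊥)
  i3 : ∀ m ∈ M, m ∉ O2 M → m * m ∈ O2 M → Nat.card V ≤ (C1 m).relIndex V ^ 3
  md : ∀ U : Subgroup G, U ≤ V → U ≠ ⊥ → M ≤ Ns U →
    64 ≤ Nat.card U ∧ (Nat.card U ≤ 512 → Nat.card U = 64)
  rk : ∀ A : Subgroup G, A ≤ M → (∀ m ∈ A, m * m ∈ O2 M) → (O2 M).relIndex A ≤ 8 ∧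
    ((O2 M).relIndex A ≤ 2 ∨ ∃ t ∈ A, t ∉ O2 M ∧ π t ∈ L) ∧
    ((O2 M).relIndex A ≤ 4 ∨ ∃ t ∈ A, ∃ s ∈ A, π t ∈ L ∧ π s ∈ L ∧ π t ≠ 1 ∧ π s ≠ 1 ∧ π t ≠ π s)

/-- The two modules. -/
structure TW (M V : Subgroup G) (g : G) : Prop where
  eq : V = O2 M
  ea : EA V
  card : Nat.card V = 64
  nV : Ns V = M
  le : cj g V ≤ M
  gg : cj g (cj g V) = V
  ne : cj g V ≠ V
  cm : ⁅V, cj g V⁆ ≤ V ⊓ cj g V
  cD : Nat.card ↥(V ⊓ cj g V) = 16 ∨ Nat.card ↥(V ⊓ cj g V) = 8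
  nY : ∀ m ∈ M, m ∈ Ns (V ⊓ cj g V) → m ∈ Ns (V ⊔ cj g V)

end

end Cfsg.Lib.K7.NU
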